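import Mathlib
import Cfsg.Agent.Lib.H17.PSU42
import Cfsg.Agent.Lib.H43.FJa
import Cfsg.Agent.S0303
import Cfsg.Agent.S0815

/-!
`Aut(PSU_4(2)) = O_6^-(2)`.
-/

set_option autoImplicit false
set_option linter.unusedSectionVars false
set_option linter.unusedVariables false
set_option linter.style.haveILetI false
open Cfsg Matrix

namespace H43.FJf

theorem le_center_of_two {H : Type*} [Group H] (N : Subgroup H) [hN : N.Normal] (h : Nat.card N = 2) : N ≤ Subgroup.center H := by
  obtain ⟨a, b, hab, hu⟩ := Nat.card_eq_two_iff.1 h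
  have hall : ∀ x : N, x = a ∨ x = b := by
    intro x
    have : x ∈ ({a, b} : Set N) := by rw [hu]; trivial
    simpa using this
  have key : ∀ x y : N, x ≠ 1 → y ≠ 1 → x = y := by
    intro x y hx hy
    rcases hall x with h1 | h1 <;> rcases hall y with h2 | h2 <;> rcases hall 1 with h3 | h3
    · exact absurd (h1.trans h3.symm) hx
    · exact h1.trans h2.symm
    · exact absurd (h1.trans h3.symm) hx
    · exact absurd (h2.trans h3.symm) hy
    · exact absurd (h2.trans h3.symm) hy
    · exact absurd (h1.trans h3.symm) hx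
    · exact h1.trans h2.symm
    · exact absurd (h1.trans h3.symm) hx
  intro z hz
  rw [Subgroup.mem_center_iff]
  intro g
  by_cases hz1 : z = 1
  · rw [hz1]; group
  have h1 := key ⟨g * z * g⁻¹, hN.conj_mem z hz g⟩ ⟨z, hz⟩ (by
    intro hh
    apply hz1
    have := congrArg Subtype.val hh
    simpa using this) (by
    intro hh
    exact hz1 (congrArg Subtype.val hh))
  have h2 : g * z * g⁻¹ = z := congrArg Subtype.val h1
  exact mul_inv_eq_iff_eq_mul.1 h2

/-- general statement: a centreless group with a large simple central quotient of the commutator -/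
theorem aut_of {H S : Type*} [Group H] [Group S] (hcard : Nat.card H = 51840) (hcen : Subgroup.center H = ⊥)
    (e : (↥(commutator H) ⧸ Subgroup.center ↥(commutator H)) ≃* S) (hS : Nat.card S = 25920) (hA : Nat.card (MulAut S) = 51840) :
    Nonempty (MulAut S ≃* H) := by
  haveI : Finite H := Nat.finite_of_card_ne_zero (by rw [hcard]; norm_num)
  set Ω := commutator H
  have h1 := Subgroup.card_eq_card_quotient_mul_card_subgroup (Subgroup.center ↥Ω)
  rw [Nat.card_congr e.toEquiv, hS] at h1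
  have h2 := Subgroup.card_mul_index Ω
  rw [hcard, h1] at h2
  have h3 : Nat.card ↥(Subgroup.center ↥Ω) * Ω.index = 2 := by
    have : 25920 * (Nat.card ↥(Subgroup.center ↥Ω) * Ω.index) = 25920 * 2 := by rw [← mul_assoc, h2]
    exact Nat.eq_of_mul_eq_mul_left (by norm_num) this
  have hnot : ∀ N : Subgroup H, N.Normal → Nat.card N ≠ 2 := by
    intro N hN hN2
    have := le_center_of_two N hN2
    rw [hcen] at this
    rw [le_bot_iff.1 this, Subgroup.card_bot] at hN2
    norm_num at hN2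
  have hZ : Nat.card ↥(Subgroup.center ↥Ω) = 1 := by
    have hle : Nat.card ↥(Subgroup.center ↥Ω) ∣ 2 := Dvd.intro _ h3
    rcases (Nat.dvd_prime Nat.prime_two).1 hle with h4 | h4
    · exact h4
    · exfalso
      apply hnot ((Subgroup.center ↥Ω).map Ω.subtype)
      · infer_instance
      · rw [← h4]
        exact (Nat.card_congr ((Subgroup.center ↥Ω).equivMapOfInjective _ (Subgroup.subtype_injective _)).toEquiv).symm
  have hZb : Subgroup.center ↥Ω = ⊥ := Subgroup.card_eq_one.1 hZ
  have hΩ : Nat.card ↥Ω = 25920 := by rw [h1, hZ, mul_one]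
  -- centralizer
  have hinj : Function.Injective (MulAut.conjNormal : H →* MulAut ↥Ω) := by
    rw [← MonoidHom.ker_eq_bot_iff]
    set N := (MulAut.conjNormal : H →* MulAut ↥Ω).ker
    have hNc : ∀ z ∈ N, ∀ g ∈ Ω, z * g = g * z := by
      intro z hz g hg
      have h5 : (MulAut.conjNormal z : MulAut ↥Ω) ⟨g, hg⟩ = ⟨g, hg⟩ := by
        rw [show MulAut.conjNormal z = (1 : MulAut ↥Ω) from hz]; rfl
      have h6 := congrArg Subtype.val h5
      rw [MulAut.conjNormal_apply] at h6
      exact mul_inv_eq_iff_eq_mul.1 h6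
    have hdis : Disjoint N Ω := by
      rw [disjoint_iff, eq_bot_iff]
      intro z hz
      have h7 : (⟨z, hz.2⟩ : ↥Ω) ∈ Subgroup.center ↥Ω := by
        rw [Subgroup.mem_center_iff]
        intro g
        apply Subtype.ext
        exact (hNc z hz.1 g g.2).symm
      rw [hZb, Subgroup.mem_bot] at h7
      exact congrArg Subtype.val h7
    have hNcard : Nat.card N ∣ 2 := by
      have h8 : Nat.card N ∣ Ω.index := by
        have h9 : Nat.card N = Nat.card ↥(N.map (QuotientGroup.mk' Ω)) := by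
          have hinj' : Function.Injective ((QuotientGroup.mk' Ω).comp N.subtype) := by
            rw [injective_iff_map_eq_one]
            intro x hx
            have : (x : H) ∈ Ω := (QuotientGroup.eq_one_iff (x : H)).1 hx
            have h10 : (x : H) ∈ N ⊓ Ω := ⟨x.2, this⟩
            rw [hdis.eq_bot] at h10
            exact Subtype.ext (Subgroup.mem_bot.1 h10)
          have h11 := Nat.card_congr (MonoidHom.ofInjective hinj').toEquiv
          rw [h11, MonoidHom.range_comp, Subgroup.range_subtype]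
        rw [h9]
        exact Subgroup.card_subgroup_dvd_card _
      rw [hZ, one_mul] at h3
      rw [← h3]; exact h8
    rcases (Nat.dvd_prime Nat.prime_two).1 hNcard with h4 | h4
    · exact Subgroup.card_eq_one.1 h4
    · exact absurd h4 (hnot N inferInstance)
  -- transport
  let e1 : ↥Ω ≃* S := ((QuotientGroup.quotientMulEquivOfEq hZb).trans QuotientGroup.quotientBot).symm.trans e
  have hA' : Nat.card (MulAut ↥Ω) = 51840 := by
    rw [Nat.card_congr (MulAut.congr e1).toEquiv, hA]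
  haveI : Finite (MulAut ↥Ω) := Nat.finite_of_card_ne_zero (by rw [hA']; norm_num)
  have hbij : Function.Bijective (MulAut.conjNormal : H →* MulAut ↥Ω) :=
    (Nat.bijective_iff_injective_and_card _).2 ⟨hinj, by rw [hcard, hA']⟩
  exact ⟨((MulEquiv.ofBijective _ hbij).trans (MulAut.congr e1)).symm⟩

section orth
open QuadraticMap H17.PSU42

theorem exists_refl2 (r : V2) (hr : Q2 r = 1) : ∃ g : G2, ∀ x, g.1.1 *ᵥ x = x + polar Q2 r x • r := by
  have hcoe : ⇑(H48.QuadStd.qMinus 2 (ZMod 2) 1 1) = Q2 := H48.QuadStd.coe_qMinus 2 1 1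
  have key : ∀ Q : V2 → ZMod 2, ⇑(H48.QuadStd.qMinus 2 (ZMod 2) 1 1) = Q → ∀ v : V2, Q v = 1 →
      ∃ g : ↥(Cfsg.isometryGroup (ZMod 2) Q), ∀ x, g.1.1 *ᵥ x = x + polar Q v x • v := by
    rintro Q rfl v hv
    have hv0 : (H48.QuadStd.qMinus 2 (ZMod 2) 1 1) v ≠ 0 := by rw [hv]; decide
    refine ⟨H17.OrthDet.refl _ v hv0, fun x => ?_⟩
    rw [H17.OrthDet.refl_coe, H17.OrthMat.reflectionMatrix_mulVec, hv]
    have h3 : ∀ (a : ZMod 2) (x y : V2), x - (1⁻¹ * a) • y = x + a • y := by
      intro a x y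
      rw [inv_one, one_mul, sub_eq_add_neg, ← neg_smul, CharTwo.neg_eq]
    exact h3 _ _ _
  exact key Q2 hcoe r hr

theorem exists_polar (r : V2) (hr : Q2 r = 1) : ∃ x, polar Q2 r x = 1 := by
  have hcoe : ⇑(H48.QuadStd.qMinus 2 (ZMod 2) 1 1) = Q2 := H48.QuadStd.coe_qMinus 2 1 1
  have hnd : (polarBilin (H48.QuadStd.qMinus 2 (ZMod 2) 1 1)).Nondegenerate := by
    refine H48.QuadSplit.nd_iff.mp (H7.MinusOrd.nd_minus 2 ?_)
    unfold H7.AnisoPlane.Aniso
    decide
  by_contra hcon
  push Not at hcon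
  have h1 : ∀ a : ZMod 2, a ≠ 1 → a = 0 := by decide
  have h2 : r = 0 := by
    apply hnd.1
    intro x
    show polar (⇑(H48.QuadStd.qMinus 2 (ZMod 2) 1 1)) r x = 0
    rw [hcoe]
    exact h1 _ (hcon x)
  rw [h2] at hr
  revert hr
  decide

theorem center_G2 : Subgroup.center H17.PSU42.G2 = ⊥ := by
  rw [eq_bot_iff]
  intro z hz
  obtain ⟨π, hπ⟩ := exists_pi2
  have hfix : ∀ v : V2, Q2 v = 1 → z.1.1 *ᵥ v = v := by
    intro v hv
    obtain ⟨g, hg⟩ := exists_refl2 v hv
    obtain ⟨x, hx⟩ := exists_polar v hv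
    have h1 : (g * z : G2) = z * g := Subgroup.mem_center_iff.1 hz g
    have h2 : (g.1.1 * z.1.1) *ᵥ x = (z.1.1 * g.1.1) *ᵥ x := by
      have := congrArg (fun k : G2 => k.1.1 *ᵥ x) h1
      exact this
    rw [← mulVec_mulVec, ← mulVec_mulVec, hg, hg, hx, one_smul, mulVec_add] at h2
    have h3 : polar Q2 v (z.1.1 *ᵥ x) • v = z.1.1 *ᵥ v := add_left_cancel h2
    have h4 : ∀ a : ZMod 2, a = 0 ∨ a = 1 := by decide
    rcases h4 (polar Q2 v (z.1.1 *ᵥ x)) with h5 | h5
    · exfalso
      rw [h5, zero_smul] at h3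
      have h6 := pres2 z v
      rw [← h3, hv] at h6
      revert h6
      decide
    · rw [h5, one_smul] at h3
      exact h3.symm
  rw [Subgroup.mem_bot]
  apply pi2_injective π hπ
  rw [map_one]
  ext i
  have h1 := hπ z i
  rw [hfix _ (Q2A i)] at h1
  rw [← inj2 _ _ h1]
  rfl

end orth

theorem aniso2 : ∀ z₁ z₂ : ZMod 2, z₁ ^ 2 + 1 * z₁ * z₂ + 1 * z₂ ^ 2 = 0 → z₁ = 0 ∧ z₂ = 0 := by decide

theorem aut_psu {K : Type} [Field K] [Fintype K] (hK : Fintype.card K = 4) :
    Nonempty (MulAut (PSU 4 K 2) ≃* Cfsg.isometryGroup (ZMod 2) (Cfsg.quadFormMinus 2 (ZMod 2) 1 1)) := by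
  haveI : Fact (Nat.Prime 2) := ⟨Nat.prime_two⟩
  obtain ⟨e⟩ := Cfsg.Agent.S0303.result (F := ZMod 2) (K := K) (q := 2) (ZMod.card 2) (by rw [hK]; rfl) 1 1 aniso2
  have h0 : Nat.card (PSU 4 K 2) = 25920 := by
    rw [Nat.card_congr (H43.FJa.psuEquiv hK).toEquiv, H43.FJa.card_SU4 hK]
  have h1 := Cfsg.Agent.S0815.result (F := K) 2 1 le_rfl (q := 2) (by norm_num) (by rw [hK]; rfl) 4 (by norm_num) (by norm_num)
  refine aut_of H17.PSU42.card_G2 center_G2 e h0 ?_
  rw [h1, h0]
  norm_num

end H43.FJf
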