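import Mathlib
import Cfsg.Agent.Lib.H43.FJe
import Cfsg.Agent.Lib.H43.FJf
import Cfsg.Agent.Lib.H58.J2Q
import Cfsg.Agent.Lib.H3.Extraspecial
import Cfsg.Agent.Lib.H3.ExtraspecialUnique
import Cfsg.Agent.Lib.H56.Heis
import Cfsg.Agent.Lib.H36.TwoTI
import Cfsg.Agent.Lib.H91.LargeAbs

/-!
The generalized Fitting subgroup of `C(d₁d₂)`.
-/

set_option autoImplicit false
set_option linter.unusedSectionVars false
set_option linter.unusedVariables false
set_option linter.style.haveILetI false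
open Cfsg Matrix

namespace H43.FJg
open H92.Herm H92.UTransv H92.PV H92.UInvol H92.PolPSU H92.Tri H92.Pol H92.Lev H92.Types H92.RelList H92.Geo H92.Inv H92.Setup
open H92.Simple H92.M22 H92.M23 H92.M23b H43.FJa H43.FJb H43.FJc H43.FJd H43.FJe

/-! ### the 2-core of an automorphism group -/

theorem pCore_mulAut {S : Type*} [Group S] [Finite S] (hs : IsSimpleGroup S) (hc : Subgroup.center S = ⊥) (h : ¬ IsPGroup 2 S) :
    pCore 2 (MulAut S) = ⊥ := by
  have hfact : Fact (Nat.Prime 2) := ⟨Nat.prime_two⟩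
  have h1 : IsPGroup 2 (pCore 2 (MulAut S)) := H91.LargeExtra.isPGroup_pCore
  have h2 : (pCore 2 (MulAut S)).Normal := by
    unfold pCore
    exact Subgroup.sSup_normal _ (fun N hN => hN.1)
  have hinj : Function.Injective (MulAut.conj : S →* MulAut S) := by
    rw [injective_iff_map_eq_one]
    intro x hx
    rw [← Subgroup.mem_bot, ← hc, Subgroup.mem_center_iff]
    intro y
    have := congrArg (fun g : MulAut S => g y) hx
    simp only [MulAut.conj_apply, MulAut.one_apply] at this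
    exact (mul_inv_eq_iff_eq_mul.1 this).symm
  have h3 : ((pCore 2 (MulAut S)).comap MulAut.conj).Normal := inferInstance
  rcases h3.eq_bot_or_eq_top with h4 | h4
  · rw [eq_bot_iff]
    intro α hα
    rw [Subgroup.mem_bot]
    apply MulEquiv.ext
    intro s
    have h5 : α s * s⁻¹ ∈ (pCore 2 (MulAut S)).comap MulAut.conj := by
      rw [Subgroup.mem_comap, map_mul, map_inv]
      have h6 : MulAut.conj (α s) = α * MulAut.conj s * α⁻¹ := by
        apply MulEquiv.ext
        intro y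
        simp only [MulAut.conj_apply, MulAut.mul_apply, map_mul, map_inv, MulAut.apply_inv_self]
      rw [h6]
      have h7 : MulAut.conj s * α⁻¹ * (MulAut.conj s)⁻¹ ∈ pCore 2 (MulAut S) := h2.conj_mem _ (Subgroup.inv_mem _ hα) _
      have h8 := Subgroup.mul_mem _ hα h7
      have h9 : α * MulAut.conj s * α⁻¹ * (MulAut.conj s)⁻¹ = α * (MulAut.conj s * α⁻¹ * (MulAut.conj s)⁻¹) := by group
      rw [h9]; exact h8
    rw [h4, Subgroup.mem_bot] at h5
    rw [mul_inv_eq_one.1 h5]; rfl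
  · exfalso
    apply h
    have h5 : ∀ s : S, MulAut.conj s ∈ pCore 2 (MulAut S) := by
      intro s
      have : s ∈ (pCore 2 (MulAut S)).comap MulAut.conj := by rw [h4]; trivial
      exact this
    let φ : S →* ↥(pCore 2 (MulAut S)) := (MulAut.conj : S →* MulAut S).codRestrict _ h5
    exact IsPGroup.of_injective h1 φ (by
      intro a b hab
      exact hinj (congrArg Subtype.val hab))

/-! ### splitting off a central involution -/

theorem exists_compl {P : Type*} [Group P] [Finite P] {j d : P} (hj : ∀ x : P, x * x = 1 ∨ x * x = j) (hjj : j * j = 1)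
    (hjc : ∀ x : P, x * j = j * x) (hd : d ≠ 1) (hdj : d ≠ j) (hdd : d * d = 1) : ∃ M : Subgroup P, j ∈ M ∧ d ∉ M ∧ M.Normal ∧ M ⊔ Subgroup.zpowers d = ⊤ := by
  -- the subgroup {1, j}
  have hJn : (Subgroup.zpowers j).Normal := by
    refine ⟨fun x hx g => ?_⟩
    obtain ⟨k, rfl⟩ := Subgroup.mem_zpowers_iff.1 hx
    rw [← conj_zpow, hjc, mul_inv_cancel_right]
    exact Subgroup.zpow_mem _ (Subgroup.mem_zpowers j) k
  set J := Subgroup.zpowers j
  have hJ : ∀ x ∈ J, x = 1 ∨ x = j := by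
    intro x hx
    obtain ⟨k, rfl⟩ := Subgroup.mem_zpowers_iff.1 hx
    rcases Int.even_or_odd k with ⟨m, hm⟩ | ⟨m, hm⟩
    · left
      rw [hm, ← two_mul, _root_.zpow_mul, show j ^ (2 : ℤ) = 1 from by rw [zpow_two, hjj], _root_.one_zpow]
    · right
      rw [hm, _root_.zpow_add, _root_.zpow_mul, show j ^ (2 : ℤ) = 1 from by rw [zpow_two, hjj], _root_.one_zpow, one_mul, zpow_one]
  have hsq : ∀ x : P ⧸ J, x ^ 2 = 1 := by
    intro x
    obtain ⟨y, rfl⟩ := QuotientGroup.mk_surjective x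
    rw [← QuotientGroup.mk_pow, QuotientGroup.eq_one_iff, pow_two]
    rcases hj y with h | h
    · rw [h]; exact Subgroup.one_mem _
    · rw [h]; exact Subgroup.mem_zpowers j
  have hfr := H36.TwoTI.frattini_eq_bot_of_sq hsq
  have hd1 : (QuotientGroup.mk d : P ⧸ J) ∉ frattini (P ⧸ J) := by
    rw [hfr, Subgroup.mem_bot, QuotientGroup.eq_one_iff]
    intro h
    rcases hJ d h with h | h
    · exact hd h
    · exact hdj h
  have hex : ∃ M : Subgroup (P ⧸ J), IsCoatom M ∧ (QuotientGroup.mk d : P ⧸ J) ∉ M := by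
    by_contra hcon
    push Not at hcon
    apply hd1
    unfold frattini
    rw [Order.radical]
    simp only [Subgroup.mem_iInf]
    exact fun M hM => hcon M hM
  obtain ⟨M, hM, hdM⟩ := hex
  have hab : ∀ x y : P ⧸ J, x * y = y * x := by
    intro x y
    have h1 := hsq (x * y)
    have h2 := hsq x
    have h3 := hsq y
    rw [pow_two] at h1 h2 h3
    calc x * y = x * y * ((x * y) * (x * y))⁻¹ * 1 := by rw [h1]; group
      _ = (y)⁻¹ * (x)⁻¹ := by group
      _ = y * x := by rw [inv_eq_of_mul_eq_one_left h2, inv_eq_of_mul_eq_one_left h3]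
  have hMn : M.Normal := ⟨fun x hx g => by rw [hab g x, mul_inv_cancel_right]; exact hx⟩
  refine ⟨M.comap (QuotientGroup.mk' J), ?_, hdM, inferInstance, ?_⟩
  · show (QuotientGroup.mk j : P ⧸ J) ∈ M
    rw [(QuotientGroup.eq_one_iff j).2 (Subgroup.mem_zpowers j)]
    exact Subgroup.one_mem _
  · have h1 : M < M ⊔ Subgroup.zpowers (QuotientGroup.mk d : P ⧸ J) := by
      refine lt_of_le_of_ne le_sup_left ?_
      intro he
      apply hdM
      rw [he]
      exact (le_sup_right : _ ≤ M ⊔ _) (Subgroup.mem_zpowers _)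
    have h2 := hM.2 _ h1
    rw [eq_top_iff]
    intro x _
    have h3 : (QuotientGroup.mk x : P ⧸ J) ∈ M ⊔ Subgroup.zpowers (QuotientGroup.mk d : P ⧸ J) := by rw [h2]; trivial
    obtain ⟨m, hm, z, hz, hmz⟩ := Subgroup.mem_sup_of_normal_left.1 h3
    obtain ⟨k, rfl⟩ := Subgroup.mem_zpowers_iff.1 hz
    have h4 : x * (d ^ k)⁻¹ ∈ M.comap (QuotientGroup.mk' J) := by
      show (QuotientGroup.mk (x * (d ^ k)⁻¹) : P ⧸ J) ∈ M
      rw [QuotientGroup.mk_mul, QuotientGroup.mk_inv, QuotientGroup.mk_zpow, ← hmz, mul_inv_cancel_right]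
      exact hm
    have h5 : x = (x * (d ^ k)⁻¹) * d ^ k := by group
    rw [h5]
    exact Subgroup.mul_mem_sup h4 (Subgroup.zpow_mem _ (Subgroup.mem_zpowers d) k)

theorem split_equiv {P : Type*} [Group P] [Finite P] {d : P} (hdc : ∀ x : P, x * d = d * x) (hd : d ≠ 1) (hdd : d * d = 1)
    (M : Subgroup P) (hdM : d ∉ M) (htop : M ⊔ Subgroup.zpowers d = ⊤) : Nonempty (P ≃* Multiplicative (ZMod 2) × ↥M) ∧ Nat.card P = 2 * Nat.card M := by
  haveI : Fact (Nat.Prime 2) := ⟨Nat.prime_two⟩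
  have ho : orderOf d = 2 := orderOf_eq_prime (by rw [pow_two]; exact hdd) hd
  have hz : ∀ x ∈ Subgroup.zpowers d, x = 1 ∨ x = d := by
    intro x hx
    obtain ⟨k, rfl⟩ := Subgroup.mem_zpowers_iff.1 hx
    rcases Int.even_or_odd k with ⟨m, hm⟩ | ⟨m, hm⟩
    · left
      rw [hm, ← two_mul, _root_.zpow_mul, show d ^ (2 : ℤ) = 1 from by rw [zpow_two, hdd], _root_.one_zpow]
    · right
      rw [hm, _root_.zpow_add, _root_.zpow_mul, show d ^ (2 : ℤ) = 1 from by rw [zpow_two, hdd], _root_.one_zpow, one_mul, zpow_one]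
  let e : Multiplicative (ZMod 2) ≃* ↥(Subgroup.zpowers d) := mulEquivOfPrimeCardEq (p := 2) (by
    rw [Nat.card_congr Multiplicative.toAdd, Nat.card_zmod]) (by rw [Nat.card_zpowers, ho])
  let f : Multiplicative (ZMod 2) →* P := (Subgroup.zpowers d).subtype.comp e.toMonoidHom
  have hcomm : ∀ (m : Multiplicative (ZMod 2)) (n : ↥M), Commute (f m) (M.subtype n) := by
    intro m n
    rcases hz (f m) (e m).2 with h | h
    · rw [h]; exact Commute.one_left _
    · rw [h]; exact (hdc _).symm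
  let F := MonoidHom.noncommCoprod f M.subtype hcomm
  have hfr : f.range = Subgroup.zpowers d := by
    ext x
    constructor
    · rintro ⟨y, rfl⟩
      exact (e y).2
    · intro hx
      exact ⟨e.symm ⟨x, hx⟩, by show ((e (e.symm ⟨x, hx⟩) : ↥(Subgroup.zpowers d)) : P) = x; rw [MulEquiv.apply_symm_apply]⟩
  have hFi : Function.Injective F := by
    rw [injective_iff_map_eq_one]
    rintro ⟨m, n⟩ hmn
    have h1 : f m * (n : P) = 1 := hmn
    rcases hz (f m) (e m).2 with h | h
    · rw [h, one_mul] at h1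
      have h2 : e m = 1 := Subtype.ext h
      have h3 : m = 1 := e.injective (by rw [h2, map_one])
      rw [h3]
      exact Prod.ext rfl (Subtype.ext h1)
    · exfalso
      apply hdM
      rw [h] at h1
      have h2 : d = (n : P)⁻¹ := eq_inv_of_mul_eq_one_left h1
      rw [h2]
      exact M.inv_mem n.2
  have hFs : Function.Surjective F := by
    rw [← MonoidHom.range_eq_top, MonoidHom.noncommCoprod_range, hfr, Subgroup.range_subtype, sup_comm]
    exact htop
  refine ⟨⟨(MulEquiv.ofBijective F ⟨hFi, hFs⟩).symm⟩, ?_⟩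
  rw [← Nat.card_congr (MulEquiv.ofBijective F ⟨hFi, hFs⟩).toEquiv, Nat.card_prod, Nat.card_congr Multiplicative.toAdd, Nat.card_zmod]

variable {G : Type*} [Group G]

/-- involutions of the quotient lift to involutions -/
theorem lift_sq [Finite G] {D : Set G} (h : LG 1 D) (hE : D.ncard = 3510) (hcl : Subgroup.closure D = ⊤) (hZ : Subgroup.center G = ⊥)
    (h1D : (1 : G) ∉ D) {d : G} (hd : d ∈ D) {x : G} (hx : Commute x d) (hxx : x * x = d) : False := by
  obtain ⟨hT, K, _, _, τ, P⟩ := h.C hd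
  have hcen := centralizer_one h hE hcl hZ hd
  have hxc : x ∈ Subgroup.closure (C D d) := by
    rw [hcen, Subgroup.mem_centralizer_singleton_iff]; exact hx
  obtain ⟨-, hz, -⟩ := center_H h hcl hZ hd
  obtain ⟨l, hl1, hl2, hl3, hl4, hl5⟩ := inv_zero hT P hxc (by
    intro y hy
    rw [hxx]; exact hy.2.2)
  have hls : l.prod * l.prod = 1 := H92.Inv2.prod_sq l (fun y hy => h.lev.tri.sq y (hl2 y hy).1) hl3
  have hld : Commute l.prod d := by
    have := commute_prod (l := l) (x := d) (fun y hy => (hl2 y hy).2.2)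
    exact this.symm
  have hζ := hz (x⁻¹ * l.prod) hl5 (hx.inv_left.mul_left hld)
  have hd1 : d ≠ 1 := fun e => h1D (e ▸ hd)
  have hxl : x * x = 1 := by
    rcases hζ with h1 | h1
    · rw [inv_mul_eq_one.1 h1]; exact hls
    · have h2 : x = l.prod * d⁻¹ := by rw [← h1]; group
      have h3 : d⁻¹ = d := inv_eq h.lev.tri hd
      rw [h3] at h2
      rw [h2]
      calc l.prod * d * (l.prod * d) = l.prod * (d * l.prod) * d := by group
        _ = l.prod * l.prod * (d * d) := by rw [← hld.eq]; group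
        _ = 1 := by rw [hls, h.lev.tri.sq d hd, one_mul]
  rw [hxx] at hxl
  exact hd1 hxl

section dat
variable [Finite G] {D : Set G} {d1 d2 : G} {K : Type} [Field K] [Fintype K] {τ : (Fin 6 → K) → G} {u v : Fin 6 → K} {b : Fin 4 → Fin 6 → K}
  {f : ↥(Subgroup.centralizer ({d1, d2} : Set G)) →* ↥(S0 u)} (X : Dat D d1 d2 τ u v b f)
include X

theorem V_cases {g : G} (hg : g ∈ Subgroup.closure ({d1, d2} : Set G)) : g = 1 ∨ g = d1 ∨ g = d2 ∨ g = d1 * d2 := by
  have s1 := X.tri.sq d1 X.h1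
  have s2 := X.tri.sq d2 X.h2.1
  have hc := X.h2.2.2.eq
  have i1 : d1⁻¹ = d1 := inv_eq X.tri X.h1
  have i2 : d2⁻¹ = d2 := inv_eq X.tri X.h2.1
  have e1 : d1 * (d1 * d2) = d2 := by rw [← mul_assoc, s1, one_mul]
  have e2 : d2 * (d1 * d2) = d1 := by rw [hc, ← mul_assoc, s2, one_mul]
  have e3 : d1 * d2 * d1 = d2 := by rw [mul_assoc, ← hc, e1]
  have e4 : d1 * d2 * d2 = d1 := by rw [mul_assoc, s2, mul_one]
  have e5 : d2 * d1 = d1 * d2 := hc.symm
  have e6 : d1 * d2 * (d1 * d2) = 1 := by rw [mul_assoc, e2, s1]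
  induction hg using Subgroup.closure_induction with
  | mem x hx =>
    rcases hx with rfl | hx
    · exact Or.inr (Or.inl rfl)
    · exact Or.inr (Or.inr (Or.inl (Set.mem_singleton_iff.1 hx)))
  | one => exact Or.inl rfl
  | mul x y _ _ h1 h2 =>
    rcases h1 with rfl | rfl | rfl | rfl <;> rcases h2 with rfl | rfl | rfl | rfl <;>
      simp only [one_mul, mul_one, s1, s2, e1, e2, e3, e4, e5, e6, true_or, or_true]
  | inv x _ h1 =>
    rcases h1 with rfl | rfl | rfl | rfl
    · left; exact _root_.inv_one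
    · right; left; exact i1
    · right; right; left; exact i2
    · right; right; right
      rw [_root_.mul_inv_rev, i1, i2, e5]

theorem E_sq_cases (hE : D.ncard = 3510) {x : G} (hx : x ∈ E X) : x * x = 1 ∨ x * x = d1 * d2 := by
  have hxK := mem_cent2.1 (E_le_K X hx)
  have h1 := E_sq X hx
  rw [pow_two] at h1
  rcases V_cases X h1 with h2 | h2 | h2 | h2
  · exact Or.inl h2
  · exact (lift_sq X.lg hE X.cl X.Z X.one X.h1 hxK.1 h2).elim
  · exact (lift_sq X.lg hE X.cl X.Z X.one X.h2.1 hxK.2 h2).elim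
  · exact Or.inr h2

/-- elements centralizing `E` -/
theorem cent_E {c : G} (hc : ∀ y ∈ E X, Commute c y) : c ∈ Subgroup.closure ({d1, d2} : Set G) := by
  have hK := X.pol.card
  have c1 : Commute c d1 := hc _ (V_le_E X (Subgroup.subset_closure (by simp)))
  have c2 : Commute c d2 := hc _ (V_le_E X (Subgroup.subset_closure (by simp)))
  apply mem_V_of_comm X (mem_cent2.2 ⟨c1, c2⟩)
  intro x hx hxu
  by_cases hli : LinearIndependent K ![x, u]
  swap
  · -- then τ x = d2
    have : τ x = d2 := by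
      rw [← X.tu]
      by_contra hne
      exact hli (indep_of_ne X.triC X.pol hx X.iu hne)
    rw [this]; exact c2
  have hmem : ∀ a : K, τ x * τ (x + a • u) ∈ E X := by
    intro a
    rw [mem_E]
    refine ⟨⟨τ x, tau_mem X hx hxu⟩ * ⟨τ (x + a • u), tau_mem X (iso_add X hx hxu hli a) (perp_add X hxu a)⟩, rfl, ?_⟩
    rw [map_mul, ← Ps_fibre X hx hxu hli a, Ps_tau X hx hxu, T_mul_self hK]
  have hmv : ∀ a : K, a ≠ 0 → τ (x + a • u) ∈ C D (τ x) := by
    intro a ha
    have ia := iso_add X hx hxu hli a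
    refine ⟨(X.pol.mem _ ia).1, ?_, ?_⟩
    · intro he
      obtain ⟨s, hs⟩ := (X.pol.inj _ _ ia hx).1 he
      rw [LinearIndependent.pair_iff] at hli
      have h3 := hli (1 - s) a (by
        rw [sub_smul, one_smul]
        have : x + a • u - s • x = 0 := by rw [hs, sub_self]
        rw [← this]; abel)
      exact ha h3.2
    · rw [X.pol.comm _ _ hx ia, B_add_right hK, B_smul_right, hx.2, hxu]; ring
  have hcase : ∀ a : K, a ≠ 0 → c * τ x * c⁻¹ = τ x ∨ c * τ x * c⁻¹ = τ (x + a • u) := by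
    intro a ha
    rcases pair_conj X.lg.lev X.cl (X.pol.mem x hx).1 (hmv a ha) (hc _ (hmem a)) with h1 | h1
    · exact Or.inl h1.1
    · exact Or.inr h1.1
  obtain ⟨w, hw0, hw1, hw⟩ := exists_omega hK
  have hfin : c * τ x * c⁻¹ = τ x := by
    rcases hcase 1 one_ne_zero with h1 | h1
    · exact h1
    rcases hcase w hw0 with h2 | h2
    · exact h2
    exfalso
    rw [h1] at h2
    obtain ⟨s, hs⟩ := (X.pol.inj _ _ (iso_add X hx hxu hli 1) (iso_add X hx hxu hli w)).1 h2
    rw [LinearIndependent.pair_iff] at hli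
    have h3 := hli (1 - s) (1 - s * w) (by
      rw [sub_smul, sub_smul, one_smul, one_smul, mul_smul]
      have : x + (1 : K) • u - s • (x + w • u) = 0 := by rw [hs, sub_self]
      rw [one_smul, smul_add] at this
      rw [← this]; abel)
    apply hw1
    linear_combination -h3.2 + w * h3.1
  exact mul_inv_eq_iff_eq_mul.1 hfin

theorem pCore_C : pCore 2 ↥(Subgroup.centralizer ({d1 * d2} : Set G)) ≤ (E X).subgroupOf (Subgroup.centralizer ({d1 * d2} : Set G)) := by
  have hK := X.pol.card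
  have h1 : pCore 2 (MulAut (SU 4 K 2)) = ⊥ := by
    apply pCore_mulAut (simple_SU4 hK) (center_SU4 hK)
    intro h
    haveI : Fact (Nat.Prime 2) := ⟨Nat.prime_two⟩
    obtain ⟨n, hn⟩ := IsPGroup.iff_card.1 h
    rw [card_SU4 hK] at hn
    have : 5 ∣ 2 ^ n := by rw [← hn]; norm_num
    have := Nat.Prime.dvd_of_dvd_pow (by norm_num) this
    norm_num at this
  rw [← A_ker X]
  refine (H91.LargeAbs.pCore_eq_ker (A X) (A_surj X) h1 ?_).le
  rw [A_ker X]
  apply IsPGroup.of_card (n := 10)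
  rw [Nat.card_congr (Subgroup.subgroupOfEquivOfLe ((E_le_K X).trans (K_le_C X))).toEquiv, card_E X]
  norm_num

theorem gFit_C : generalizedFittingSubgroup ↥(Subgroup.centralizer ({d1 * d2} : Set G)) =
    (E X).subgroupOf (Subgroup.centralizer ({d1 * d2} : Set G)) := by
  apply H58.J2Q.gFitting_eq_of (E_normal X)
  · apply IsPGroup.of_card (n := 10)
    rw [Nat.card_congr (Subgroup.subgroupOfEquivOfLe ((E_le_K X).trans (K_le_C X))).toEquiv, card_E X]
    norm_num
  · intro c hc
    rw [Subgroup.mem_subgroupOf]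
    apply V_le_E X
    apply cent_E X
    intro y hy
    rw [Subgroup.mem_centralizer_iff] at hc
    have := hc ⟨y, (E_le_K X).trans (K_le_C X) hy⟩ (by
      show _ ∈ (E X).subgroupOf _
      rw [Subgroup.mem_subgroupOf]; exact hy)
    exact (congrArg Subtype.val this).symm
  · exact pCore_C X

theorem structure_E (hE : D.ncard = 3510) : ∃ (E' : Type) (_ : Group E') (_ : Finite E'), Cfsg.IsExtraspecial 2 E' ∧ Nat.card E' = 2 ^ 9 ∧
    Nonempty (↥(E X) ≃* Multiplicative (ZMod 2) × E') := by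
  haveI : Fact (Nat.Prime 2) := ⟨Nat.prime_two⟩
  have s1 := X.tri.sq d1 X.h1
  have s2 := X.tri.sq d2 X.h2.1
  have m1 : d1 ∈ E X := V_le_E X (Subgroup.subset_closure (by simp))
  have m2 : d2 ∈ E X := V_le_E X (Subgroup.subset_closure (by simp))
  have mj : d1 * d2 ∈ E X := (E X).mul_mem m1 m2
  have hd1 : d1 ≠ 1 := fun e => X.one (e ▸ X.h1)
  have hd2 : d2 ≠ 1 := fun e => X.one (e ▸ X.h2.1)
  have hjj : d1 * d2 * (d1 * d2) = 1 := by
    calc d1 * d2 * (d1 * d2) = d1 * (d2 * d1) * d2 := by group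
      _ = (d1 * d1) * (d2 * d2) := by rw [← X.h2.2.2.eq]; group
      _ = 1 := by rw [s1, s2, one_mul]
  have hcE : ∀ x : ↥(E X), Commute (x : G) d1 ∧ Commute (x : G) d2 := fun x => mem_cent2.1 (E_le_K X x.2)
  obtain ⟨M, hjM, hdM, hMn, htop⟩ := exists_compl (P := ↥(E X)) (j := ⟨d1 * d2, mj⟩) (d := ⟨d1, m1⟩) (by
    intro x
    rcases E_sq_cases X hE x.2 with h | h
    · exact Or.inl (Subtype.ext h)
    · exact Or.inr (Subtype.ext h)) (Subtype.ext hjj) (by
    intro x
    exact Subtype.ext ((hcE x).1.mul_right (hcE x).2)) (fun h => hd1 (congrArg Subtype.val h)) (by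
    intro h
    have h2 : d1 = d1 * d2 := congrArg Subtype.val h
    exact hd2 (mul_eq_left.1 h2.symm)) (Subtype.ext s1)
  obtain ⟨⟨e⟩, hcard⟩ := split_equiv (P := ↥(E X)) (d := ⟨d1, m1⟩) (fun x => Subtype.ext (hcE x).1) (fun h => hd1 (congrArg Subtype.val h))
    (Subtype.ext s1) M hdM htop
  rw [card_E X] at hcard
  have hM : Nat.card ↥M = 2 ^ 9 := by omega
  -- the centre of M
  have hcen : ∀ z : ↥M, z ∈ Subgroup.center ↥M ↔ ((z : ↥(E X)) : G) = 1 ∨ ((z : ↥(E X)) : G) = d1 * d2 := by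
    intro z
    constructor
    · intro hz
      have hzE : ∀ y ∈ E X, Commute ((z : ↥(E X)) : G) y := by
        intro y hy
        have hyt : (⟨y, hy⟩ : ↥(E X)) ∈ M ⊔ Subgroup.zpowers (⟨d1, m1⟩ : ↥(E X)) := by rw [htop]; trivial
        obtain ⟨m, hm, s, hs, hms⟩ := Subgroup.mem_sup_of_normal_left.1 hyt
        have e1 : y = (m : G) * (s : G) := congrArg Subtype.val hms.symm
        have e2 : Commute ((z : ↥(E X)) : G) (m : G) := by
          have := Subgroup.mem_center_iff.1 hz ⟨m, hm⟩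
          exact (congrArg (fun q : ↥M => ((q : ↥(E X)) : G)) this).symm
        have e3 : Commute ((z : ↥(E X)) : G) (s : G) := by
          obtain ⟨k, rfl⟩ := Subgroup.mem_zpowers_iff.1 hs
          rw [SubgroupClass.coe_zpow]
          exact (hcE z).1.zpow_right k
        rw [e1]; exact e2.mul_right e3
      have hzV := V_cases X (cent_E X hzE)
      rcases hzV with h | h | h | h
      · exact Or.inl h
      · exfalso
        apply hdM
        have : (⟨d1, m1⟩ : ↥(E X)) = z := Subtype.ext h.symm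
        rw [this]; exact z.2
      · exfalso
        apply hdM
        have : (⟨d1, m1⟩ : ↥(E X)) = z * ⟨d1 * d2, mj⟩ := by
          apply Subtype.ext
          show d1 = ((z : ↥(E X)) : G) * (d1 * d2)
          rw [h, X.h2.2.2.eq, ← mul_assoc, s2, one_mul]
        rw [this]; exact M.mul_mem z.2 hjM
      · exact Or.inr h
    · intro hz
      rw [Subgroup.mem_center_iff]
      intro g
      apply Subtype.ext
      apply Subtype.ext
      show ((g : ↥(E X)) : G) * ((z : ↥(E X)) : G) = ((z : ↥(E X)) : G) * ((g : ↥(E X)) : G)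
      rcases hz with h | h
      · rw [h]; group
      · rw [h]; exact (hcE g).1.mul_right (hcE g).2
  have hzc : Nat.card ↥(Subgroup.center ↥M) = 2 := by
    have e1 : Subgroup.center ↥M = Subgroup.zpowers (⟨⟨d1 * d2, mj⟩, hjM⟩ : ↥M) := by
      have hz2 : (⟨⟨d1 * d2, mj⟩, hjM⟩ : ↥M) * ⟨⟨d1 * d2, mj⟩, hjM⟩ = 1 := Subtype.ext (Subtype.ext hjj)
      apply le_antisymm
      · intro z hz
        rcases (hcen z).1 hz with h | h
        · have : z = 1 := Subtype.ext (Subtype.ext h)
          rw [this]; exact Subgroup.one_mem _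
        · have : z = ⟨⟨d1 * d2, mj⟩, hjM⟩ := Subtype.ext (Subtype.ext h)
          rw [this]; exact Subgroup.mem_zpowers _
      · rw [Subgroup.zpowers_le, hcen]
        exact Or.inr rfl
    rw [e1, Nat.card_zpowers]
    apply orderOf_eq_prime
    · rw [pow_two]; exact Subtype.ext (Subtype.ext hjj)
    · intro h
      have h2 : d1 * d2 = 1 := congrArg (fun q : ↥M => ((q : ↥(E X)) : G)) h
      have h3 : d1 = d2 := by
        calc d1 = d1 * (d2 * d2) := by rw [s2, mul_one]
          _ = (d1 * d2) * d2 := by group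
          _ = d2 := by rw [h2, one_mul]
      exact X.h2.2.1 h3.symm
  have hle : commutator ↥M ≤ Subgroup.center ↥M := by
    rw [commutator_def, Subgroup.commutator_le]
    intro a _ b _
    rw [hcen, commutatorElement_def]
    show ((a : ↥(E X)) : G) * b * ((a : ↥(E X)) : G)⁻¹ * ((b : ↥(E X)) : G)⁻¹ = 1 ∨
      ((a : ↥(E X)) : G) * b * ((a : ↥(E X)) : G)⁻¹ * ((b : ↥(E X)) : G)⁻¹ = d1 * d2
    -- commutators are products of squares modulo j
    have sqc : ∀ x : ↥M, ((x : ↥(E X)) : G) * x = 1 ∨ ((x : ↥(E X)) : G) * x = d1 * d2 := fun x => E_sq_cases X hE (x : ↥(E X)).2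
    have e1 : ((a : ↥(E X)) : G) * b * ((a : ↥(E X)) : G)⁻¹ * ((b : ↥(E X)) : G)⁻¹ =
        (((a : ↥(E X)) : G) * b * (((a : ↥(E X)) : G) * b)) * ((((b : ↥(E X)) : G))⁻¹ * ((((a : ↥(E X)) : G) * a)⁻¹) * ((b : ↥(E X)) : G)) * (((b : ↥(E X)) : G) * b)⁻¹ := by group
    have e2 := sqc (a * b)
    have e3 := sqc a
    have e4 := sqc b
    have hji : (d1 * d2)⁻¹ = d1 * d2 := inv_eq_of_mul_eq_one_left hjj
    have hcb : ((b : ↥(E X)) : G) * (d1 * d2) = d1 * d2 * ((b : ↥(E X)) : G) := (hcE b).1.mul_right (hcE b).2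
    have e2' : ((a : ↥(E X)) : G) * b * (((a : ↥(E X)) : G) * b) = 1 ∨ ((a : ↥(E X)) : G) * b * (((a : ↥(E X)) : G) * b) = d1 * d2 := e2
    have e5 : (((b : ↥(E X)) : G))⁻¹ * ((((a : ↥(E X)) : G) * a)⁻¹) * ((b : ↥(E X)) : G) = 1 ∨
        (((b : ↥(E X)) : G))⁻¹ * ((((a : ↥(E X)) : G) * a)⁻¹) * ((b : ↥(E X)) : G) = d1 * d2 := by
      rcases e3 with h | h
      · left; rw [h]; group
      · right; rw [h, hji, mul_assoc, ← hcb, inv_mul_cancel_left]
    have e6 : (((b : ↥(E X)) : G) * b)⁻¹ = 1 ∨ (((b : ↥(E X)) : G) * b)⁻¹ = d1 * d2 := by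
      rcases e4 with h | h
      · left; rw [h, _root_.inv_one]
      · right; rw [h, hji]
    rw [e1]
    rcases e2' with h | h <;> rcases e5 with h' | h' <;> rcases e6 with h'' | h'' <;> rw [h, h', h''] <;>
      simp only [one_mul, mul_one, hjj, true_or, or_true]
  have hex := H3.Extraspecial.isExtraspecial_of hle hzc (H3.ExtraspecialUnique.exists_noncomm_of_card hzc (by rw [hM]; norm_num))
  obtain ⟨E', i1, i2, ⟨e'⟩⟩ := Finite.exists_type_univ_nonempty_mulEquiv.{_, 0} ↥M
  refine ⟨E', i1, inferInstance, ?_, ?_, ⟨e.trans (MulEquiv.prodCongr (MulEquiv.refl _) e')⟩⟩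
  · exact H56.Heis.isExtraspecial_congr e' hex
  · rw [← Nat.card_congr e'.toEquiv, hM]

end dat
end H43.FJg
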