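import Mathlib
import Cfsg.Agent.Lib.H43.FJg
import Cfsg.Agent.Lib.H92.Out22

/-!
The centralizer of `d₁d₂` in the automorphism group: automorphisms acting trivially on the
fibres are inner, action on `SU_4(2)`.
-/

set_option autoImplicit false
set_option linter.unusedSectionVars false
set_option linter.unusedVariables false
set_option linter.style.haveILetI false
open Cfsg Matrix

namespace H43.FJh
open H92.Herm H92.UTransv H92.PV H92.UInvol H92.PolPSU H92.Tri H92.Pol H92.Lev H92.Types H92.RelList H92.Geo H92.Inv H92.Setup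
open H92.Simple H92.M22 H92.M23 H92.M23b H43.FJa H43.FJb H43.FJc H43.FJd H43.FJe H43.FJg H92.Exact1 H92.Exact1c H92.AutC H92.Out22

section frob
variable {K : Type} [Field K] [Fintype K]

theorem sq_add (hK : Fintype.card K = 4) (a b : K) : (a + b) ^ 2 = a ^ 2 + b ^ 2 := by
  have h := add_self hK (a * b)
  linear_combination h

theorem frob_add (hK : Fintype.card K = 4) (e f : Fin 3 → Fin 6 → K) (x y : Fin 6 → K) : frob e f (x + y) = frob e f x + frob e f y := by
  unfold frob
  simp only [B_add_left, sq_add hK, add_smul, Finset.sum_add_distrib]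
  abel

theorem exists_three (hK : Fintype.card K = 4) {u : Fin 6 → K} (hu : Iso u) : ∃ x y : Fin 6 → K, B x x = 0 ∧ B y y = 0 ∧ B x u = 0 ∧ B y u = 0 ∧
    B x y = 0 ∧ ∀ a b c : K, a • u + b • x + c • y = 0 → a = 0 ∧ b = 0 ∧ c = 0 := by
  have hli1 : LinearIndependent K ![u] := by
    rw [Fintype.linearIndependent_iff]
    intro g hg i
    simp only [Fin.sum_univ_one] at hg
    have h1 : g 0 • u = 0 := hg
    fin_cases i
    exact (smul_eq_zero.1 h1).resolve_right hu.1
  obtain ⟨x, hx1, hx2⟩ := exists_extend hK (k := 1) (n := 6) (by norm_num) ![u] hli1 (by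
    intro i j
    fin_cases i; fin_cases j; exact hu.2)
  obtain ⟨y, hy1, hy2⟩ := exists_extend hK (k := 2) (n := 6) (by norm_num) _ hx1 hx2
  refine ⟨x, y, hy2 1 1, hy2 2 2, hy2 1 0, hy2 2 0, hy2 1 2, ?_⟩
  intro a b c habc
  rw [Fintype.linearIndependent_iff] at hy1
  have := hy1 ![a, b, c] (by
    rw [Fin.sum_univ_three]
    exact habc)
  exact ⟨this 0, this 1, this 2⟩

theorem not_frob (hK : Fintype.card K = 4) {e f : Fin 3 → Fin 6 → K} (he : Hyp e f) (M : SU 6 K 2) {u : Fin 6 → K} (hu : Iso u)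
    (H : ∀ x, Iso x → B x u = 0 → ∃ a c : K, act M (frob e f x) = a • x + c • u) : False := by
  obtain ⟨x, y, xx, yy, xu, yu, xy, hli⟩ := exists_three hK hu
  obtain ⟨w, hw0, hw1, hw⟩ := exists_omega hK
  have yx : B y x = 0 := B_symm_zero hK xy
  have ux : B u x = 0 := B_symm_zero hK xu
  have uy : B u y = 0 := B_symm_zero hK yu
  have hx : Iso x := by
    refine ⟨?_, xx⟩
    rintro rfl
    have := hli 0 1 0 (by simp)
    exact one_ne_zero this.2.1
  have hy : Iso y := by
    refine ⟨?_, yy⟩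
    rintro rfl
    have := hli 0 0 1 (by simp)
    exact one_ne_zero this.2.2
  have hxy : Iso (x + y) := by
    refine ⟨?_, ?_⟩
    · intro h0
      have := hli 0 1 1 (by rw [zero_smul, zero_add, one_smul, one_smul]; exact h0)
      exact one_ne_zero this.2.1
    · rw [B_add_left, B_add_right hK, B_add_right hK, xx, yy, xy, yx]; ring
  have hxwy : Iso (x + w • y) := by
    refine ⟨?_, ?_⟩
    · intro h0
      have := hli 0 1 w (by rw [zero_smul, zero_add, one_smul]; exact h0)
      exact one_ne_zero this.2.1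
    · rw [B_add_left, B_add_right hK, B_add_right hK, B_smul_left, B_smul_right, B_smul_left, B_smul_right, xx, yy, xy, yx]; ring
  obtain ⟨a0, c0, e0⟩ := H u hu hu.2
  obtain ⟨a, c, e1⟩ := H x hx xu
  obtain ⟨a', c', e2⟩ := H y hy yu
  obtain ⟨a2, c2, e3⟩ := H (x + y) hxy (by rw [B_add_left, xu, yu, add_zero])
  obtain ⟨a3, c3, e4⟩ := H (x + w • y) hxwy (by rw [B_add_left, B_smul_left, xu, yu]; ring)
  rw [frob_add hK, map_add, e1, e2] at e3
  rw [frob_add hK, frob_smul hK he, map_add, map_smul, e1, e2] at e4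
  have i1 := hli (c + c' - c2) (a - a2) (a' - a2) (by
    have h0 : a • x + c • u + (a' • y + c' • u) - (a2 • (x + y) + c2 • u) = 0 := by rw [e3, sub_self]
    rw [← h0]
    simp only [sub_smul, add_smul, smul_add]
    abel)
  have i2 := hli (c + w ^ 2 * c' - c3) (a - a3) (w ^ 2 * a' - a3 * w) (by
    have h0 : a • x + c • u + w ^ 2 • (a' • y + c' • u) - (a3 • (x + w • y) + c3 • u) = 0 := by rw [e4, sub_self]
    rw [← h0]
    simp only [sub_smul, add_smul, smul_add, smul_smul]
    abel)
  obtain ⟨-, j1, j2⟩ := i1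
  obtain ⟨-, j3, j4⟩ := i2
  have ha : a = 0 := by
    have h1 : a * (w * (w - 1)) = 0 := by linear_combination j4 - w ^ 2 * j2 + w ^ 2 * j1 - w * j3
    rcases mul_eq_zero.1 h1 with h2 | h2
    · exact h2
    · rcases mul_eq_zero.1 h2 with h3 | h3
      · exact absurd h3 hw0
      · exact absurd (sub_eq_zero.1 h3) hw1
  rw [ha, zero_smul, zero_add] at e1
  have hb0 : a0 + c0 ≠ 0 := by
    intro h0
    have h1 : act M (frob e f u) = 0 := by rw [e0, ← add_smul, h0, zero_smul]
    exact ((frob_iso hK he hu).act M).1 h1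
  set s := c * (a0 + c0)⁻¹ with hs
  have hs4 : (s ^ 2) ^ 2 = s := by rw [← pow_mul]; exact pow_four hK s
  have e5 : act M (frob e f x) = act M (frob e f (s ^ 2 • u)) := by
    rw [frob_smul hK he, hs4, map_smul, e0, e1, ← add_smul, smul_smul, hs, mul_assoc, inv_mul_cancel₀ hb0, mul_one]
  have e6 : frob e f x = frob e f (s ^ 2 • u) := by
    rw [← act_inv_act M (frob e f x), e5, act_inv_act]
  have e7 : x = s ^ 2 • u := by
    rw [← frob_frob hK he x, e6, frob_frob hK he]
  have := hli (-(s ^ 2)) 1 0 (by rw [zero_smul, add_zero, one_smul]; conv_lhs => rw [e7]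
                                 rw [neg_smul, neg_add_cancel])
  exact one_ne_zero this.2.1

end frob

section img
variable {A B : Type*} [Group A] [Group B] (π : A →* B)

theorem pol_image {K : Type} [Field K] [Fintype K] {E : Set A} {τ : (Fin 6 → K) → A} (hT : Tri E) (hinj : Set.InjOn π E) (P : Pol K E τ) :
    Pol K (π '' E) (fun v => π (τ v)) := by
  refine ⟨P.card, fun v hv => ⟨_, P.mem v hv, rfl⟩, ?_, ?_, ?_, ?_, ?_, ?_⟩
  · rintro _ ⟨x, hx, rfl⟩
    obtain ⟨v, hv, rfl⟩ := P.surj x hx
    exact ⟨v, hv, rfl⟩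
  · intro u v hu hv
    rw [← P.inj u v hu hv]
    exact ⟨fun h => hinj (P.mem u hu) (P.mem v hv) h, fun h => by rw [h]⟩
  · intro u v hu hv
    rw [comm_iff_of_injOn π hT hinj (P.mem u hu) (P.mem v hv), P.comm u v hu hv]
  · intro u v hu hv
    rw [← P.conj u v hu hv]; simp
  · intro M
    obtain ⟨k, hk, h⟩ := P.lift M
    refine ⟨π k, ?_, fun v hv => ?_⟩
    · rw [← MonoidHom.map_closure]; exact Subgroup.mem_map_of_mem _ hk
    · rw [← h v hv]; simp
  · intro l hl
    rw [← P.prod l hl]
    have e : (l.map (fun v => π (τ v))).prod = π (l.map τ).prod := by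
      rw [map_list_prod, List.map_map]; rfl
    rw [e]
    have hcl : (l.map τ).prod ∈ Subgroup.closure E := by
      apply Subgroup.list_prod_mem
      intro x hx
      obtain ⟨v, hv, rfl⟩ := List.mem_map.1 hx
      exact Subgroup.subset_closure (P.mem v (hl v hv))
    constructor
    · intro h x hx
      have h1 := h (π x) ⟨x, hx, rfl⟩
      have h2 : (l.map τ).prod * x * (l.map τ).prod⁻¹ = x := by
        apply hinj (conj_closure hT hcl hx) hx
        rw [map_mul, map_mul, h1.eq, map_inv, mul_inv_cancel_right]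
      exact mul_inv_eq_iff_eq_mul.1 h2
    · rintro h _ ⟨x, hx, rfl⟩
      exact (h x hx).map π

end img

variable {G : Type*} [Group G]

theorem finite_aut [Finite G] : Finite (MulAut G) :=
  Finite.of_injective (fun φ : MulAut G => (φ : G → G)) (fun a b hab => MulEquiv.ext (fun x => congrFun hab x))

section dat
variable [Finite G] {D : Set G} {d1 d2 : G} {K : Type} [Field K] [Fintype K] {τ : (Fin 6 → K) → G} {u v : Fin 6 → K} {b : Fin 4 → Fin 6 → K}
  {f : ↥(Subgroup.centralizer ({d1, d2} : Set G)) →* ↥(S0 u)} (X : Dat D d1 d2 τ u v b f)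
include X

theorem conj_inj : Function.Injective (MulAut.conj : G →* MulAut G) := conj_injective X.Z

/-- automorphisms acting trivially on the fibres are inner -/
theorem inner_of (hE : D.ncard = 3510) (hst : ∀ φ : MulAut G, ∀ d ∈ D, φ d ∈ D) (φ : MulAut G) (h1 : φ d1 = d1)
    (hx : ∀ x y, Iso x → B x u = 0 → Iso y → φ (τ x) = τ y → ∃ a c : K, y = a • x + c • u) : ∃ g : G, MulAut.conj g = φ := by
  have hfin : Finite (MulAut G) := finite_aut
  have hinj := conj_inj X
  have hLG := lg_image (MulAut.conj : G →* MulAut G) X.tri hinj.injOn X.lg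
  have hd : MulAut.conj d1 ∈ (MulAut.conj : G →* MulAut G) '' D := ⟨d1, X.h1, rfl⟩
  have hCi := C_image (MulAut.conj : G →* MulAut G) X.tri hinj.injOn X.h1
  have hT : Tri (C ((MulAut.conj : G →* MulAut G) '' D) (MulAut.conj d1)) := tri_C hLG.lev.tri hd
  have P : Pol K (C ((MulAut.conj : G →* MulAut G) '' D) (MulAut.conj d1)) (fun v => MulAut.conj (τ v)) := by
    rw [hCi]
    exact pol_image (MulAut.conj : G →* MulAut G) X.triC hinj.injOn X.pol
  have hN := nm_conj hst φ
  have hφd : Commute φ (MulAut.conj d1) := by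
    have h2 := conj_map φ d1
    rw [h1] at h2
    exact mul_inv_eq_iff_eq_mul.1 h2
  obtain ⟨g, hg, h2 | ⟨e, f', he, hβ⟩⟩ := rigid_or hLG hd hT P hN.1 hN.2 hφd
  · -- linear case
    have hgE : g ∈ Subgroup.closure ((MulAut.conj : G →* MulAut G) '' D) := Subgroup.closure_mono (C_subset _ _) hg
    have hgd : Commute g (MulAut.conj d1) := centralizes_of_closure (fun y hy => hy.2.2.symm) hg
    have hgi : ∃ x : G, MulAut.conj x = g := by
      rw [← MonoidHom.map_closure] at hgE
      obtain ⟨x, -, hxg⟩ := hgE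
      exact ⟨x, hxg⟩
    obtain ⟨x, rfl⟩ := hgi
    have hgN : (MulAut.conj x)⁻¹ * φ ∈ H92.Inv2.Nm ((MulAut.conj : G →* MulAut G) '' D) := nm_conj hst _
    have fin : ∀ ψ : MulAut G, (∀ y ∈ (MulAut.conj : G →* MulAut G) '' D, Commute ψ y) → ψ = 1 := by
      intro ψ hψ
      apply aut_eq_one X.cl
      intro d hd
      apply hinj
      rw [← conj_map, (hψ _ ⟨d, hd, rfl⟩).eq, mul_inv_cancel_right]
    rcases zeta hLG.lev.tri hLG.geo hd hgN.1 (hgd.inv_left.mul_left hφd) h2 with h3 | h3
    · exact ⟨x, eq_of_inv_mul_eq_one (fin _ h3)⟩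
    · refine ⟨x * d1, ?_⟩
      have h4 := fin _ h3
      have h5 : (MulAut.conj d1)⁻¹ = MulAut.conj d1 := by
        rw [← map_inv, H92.Tri.inv_eq X.tri X.h1]
      apply eq_of_inv_mul_eq_one
      rw [map_mul, _root_.mul_inv_rev, h5, mul_assoc]
      exact h4
  · exfalso
    obtain ⟨M, hM⟩ := exists_mat hT P hg
    apply not_frob X.pol.card he M X.iu
    intro x hix hxu
    have h3 : MulAut.conj (φ (τ x)) = MulAut.conj (τ (act M (frob e f' x))) := by
      rw [← conj_map, ← hM _ (frob_iso X.pol.card he hix), ← hβ x hix]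
      group
    exact hx x _ hix hxu ((frob_iso X.pol.card he hix).act M) (hinj h3)

end dat
end H43.FJh
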