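import Mathlib
import Cfsg.Agent.Lib.H43.FJh
import Cfsg.Agent.Lib.H92.Uniq

/-!
The centralizer of `d₁d₂` in the automorphism group: action on `SU_4(2)`.
-/

set_option autoImplicit false
set_option linter.unusedSectionVars false
set_option linter.unusedVariables false
set_option linter.style.haveILetI false
open Cfsg Matrix

namespace H43.FJi
open H92.Herm H92.UTransv H92.PV H92.UInvol H92.PolPSU H92.Tri H92.Pol H92.Lev H92.Types H92.RelList H92.Geo H92.Inv H92.Setup
open H92.Simple H92.M22 H92.M23 H92.M23b H43.FJa H43.FJb H43.FJc H43.FJd H43.FJe H43.FJg H92.Exact1 H92.Exact1c H92.AutC H92.Out22 H43.FJh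

variable {G : Type*} [Group G]

/-- the centralizer -/
abbrev CA (d1 d2 : G) : Subgroup (MulAut G) := Subgroup.centralizer ({MulAut.conj (d1 * d2)} : Set (MulAut G))

section dat
variable [Finite G] {D : Set G} {d1 d2 : G} {K : Type} [Field K] [Fintype K] {τ : (Fin 6 → K) → G} {u v : Fin 6 → K} {b : Fin 4 → Fin 6 → K}
  {f : ↥(Subgroup.centralizer ({d1, d2} : Set G)) →* ↥(S0 u)} (X : Dat D d1 d2 τ u v b f) (hst : ∀ φ : MulAut G, ∀ d ∈ D, φ d ∈ D)
include X

theorem mem_CA {φ : MulAut G} : φ ∈ CA d1 d2 ↔ φ (d1 * d2) = d1 * d2 := by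
  rw [Subgroup.mem_centralizer_singleton_iff]
  constructor
  · intro h
    apply conj_inj X
    rw [← conj_map, h, mul_inv_cancel_right]
  · intro h
    have := conj_map φ (d1 * d2)
    rw [h] at this
    exact mul_inv_eq_iff_eq_mul.1 this

include hst

theorem A_cases {φ : MulAut G} (h : φ ∈ CA d1 d2) : (φ d1 = d1 ∧ φ d2 = d2) ∨ (φ d1 = d2 ∧ φ d2 = d1) := by
  rw [mem_CA X, map_mul] at h
  have hd1 := X.h1
  have hd2 := X.h2
  have hne : φ d1 ≠ φ d2 := fun e => hd2.2.1 (φ.injective e).symm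
  have hcc : Commute (φ d1) (φ d2) := hd2.2.2.map φ
  have hu := unique_short X.lg.lev 2 (by norm_num) (by omega) [φ d1, φ d2] [d1, d2] (by simp [hne]) (by
    intro x hx
    simp only [List.mem_cons, List.not_mem_nil, or_false] at hx
    rcases hx with rfl | rfl
    · exact hst _ _ hd1
    · exact hst _ _ hd2.1) (by
    intro a ha b hb
    simp only [List.mem_cons, List.not_mem_nil, or_false] at ha hb
    rcases ha with rfl | rfl <;> rcases hb with rfl | rfl <;> first | exact Commute.refl _ | exact hcc | exact hcc.symm) rfl (by simp [hd2.2.1.symm]) (by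
    intro x hx
    simp only [List.mem_cons, List.not_mem_nil, or_false] at hx
    rcases hx with rfl | rfl
    · exact hd1
    · exact hd2.1) (by
    intro a ha b hb
    simp only [List.mem_cons, List.not_mem_nil, or_false] at ha hb
    rcases ha with rfl | rfl <;> rcases hb with rfl | rfl <;> first | exact Commute.refl _ | exact hd2.2.2 | exact hd2.2.2.symm) rfl (by
    simpa using h)
  have e1 := (hu (φ d1)).1 (by simp)
  have e2 := (hu (φ d2)).1 (by simp)
  simp only [List.mem_cons, List.not_mem_nil, or_false] at e1 e2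
  rcases e1 with e1 | e1 <;> rcases e2 with e2 | e2
  · exact absurd (e1.trans e2.symm) hne
  · exact Or.inl ⟨e1, e2⟩
  · exact Or.inr ⟨e1, e2⟩
  · exact absurd (e1.trans e2.symm) hne

theorem map_mem_K {φ : MulAut G} (h : φ ∈ CA d1 d2) {g : G} (hg : g ∈ Subgroup.centralizer ({d1, d2} : Set G)) :
    φ g ∈ Subgroup.centralizer ({d1, d2} : Set G) := by
  obtain ⟨h1, h2⟩ := mem_cent2.1 hg
  rw [mem_cent2]
  have k1 := h1.map φ
  have k2 := h2.map φ
  rcases A_cases X hst h with ⟨a, b⟩ | ⟨a, b⟩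
  · rw [a] at k1; rw [b] at k2; exact ⟨k1, k2⟩
  · rw [a] at k1; rw [b] at k2; exact ⟨k2, k1⟩

/-- action on the joint centralizer -/
def cjA (φ : ↥(CA d1 d2)) : ↥(Subgroup.centralizer ({d1, d2} : Set G)) →* ↥(Subgroup.centralizer ({d1, d2} : Set G)) where
  toFun k := ⟨(φ : MulAut G) (k : G), map_mem_K X hst φ.2 k.2⟩
  map_one' := by apply Subtype.ext; simp
  map_mul' a b := by
    apply Subtype.ext
    show (φ : MulAut G) ((a : G) * b) = (φ : MulAut G) a * (φ : MulAut G) b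
    rw [map_mul]

theorem cjA_coe (φ : ↥(CA d1 d2)) (k : ↥(Subgroup.centralizer ({d1, d2} : Set G))) : (cjA X hst φ k : G) = (φ : MulAut G) (k : G) := rfl

theorem cjA_mul (φ ψ : ↥(CA d1 d2)) (k : ↥(Subgroup.centralizer ({d1, d2} : Set G))) : cjA X hst (φ * ψ) k = cjA X hst φ (cjA X hst ψ k) := rfl

theorem cjA_one (k : ↥(Subgroup.centralizer ({d1, d2} : Set G))) : cjA X hst 1 k = k := rfl

theorem cjA_inv (φ : ↥(CA d1 d2)) (k : ↥(Subgroup.centralizer ({d1, d2} : Set G))) : cjA X hst φ (cjA X hst φ⁻¹ k) = k := by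
  rw [← cjA_mul, mul_inv_cancel, cjA_one]

theorem cjA_inv' (φ : ↥(CA d1 d2)) (k : ↥(Subgroup.centralizer ({d1, d2} : Set G))) : cjA X hst φ⁻¹ (cjA X hst φ k) = k := by
  rw [← cjA_mul, inv_mul_cancel, cjA_one]

theorem ker_cjA (φ : ↥(CA d1 d2)) (k : ↥(Subgroup.centralizer ({d1, d2} : Set G))) (hk : Ps X k = 1) : Ps X (cjA X hst φ k) = 1 := by
  have hs : Function.Surjective ((Ps X).comp (cjA X hst φ)) := by
    intro y
    obtain ⟨k, rfl⟩ := Ps_surj X y
    exact ⟨cjA X hst φ⁻¹ k, by rw [MonoidHom.comp_apply, cjA_inv]⟩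
  have hn : ((Ps X).ker.map ((Ps X).comp (cjA X hst φ))).Normal := Subgroup.Normal.map inferInstance _ hs
  haveI := simple_SU4 X.pol.card
  have hd : Nat.card ↥((Ps X).ker.map ((Ps X).comp (cjA X hst φ))) ∣ Nat.card ↥(Ps X).ker := Subgroup.card_map_dvd _ _
  rcases hn.eq_bot_or_eq_top with h | h
  · have : Ps X (cjA X hst φ k) ∈ (Ps X).ker.map ((Ps X).comp (cjA X hst φ)) := ⟨k, hk, rfl⟩
    rw [h] at this
    exact Subgroup.mem_bot.1 this
  · exfalso
    rw [h, Subgroup.card_top, card_SU4 X.pol.card, card_ker X] at hd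
    norm_num at hd

theorem cjA_congr (φ : ↥(CA d1 d2)) {k k' : ↥(Subgroup.centralizer ({d1, d2} : Set G))} (h : Ps X k = Ps X k') :
    Ps X (cjA X hst φ k) = Ps X (cjA X hst φ k') := by
  have h1 : Ps X (k⁻¹ * k') = 1 := by rw [map_mul, map_inv, h, inv_mul_cancel]
  have h2 := ker_cjA X hst φ _ h1
  rw [map_mul, map_inv, map_mul, map_inv] at h2
  exact inv_mul_eq_one.1 h2

theorem exists_autA (φ : ↥(CA d1 d2)) : ∃ α : MulAut (SU 4 K 2), ∀ k, α (Ps X k) = Ps X (cjA X hst φ k) := by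
  let s := Function.surjInv (Ps_surj X)
  have hs : ∀ y, Ps X (s y) = y := Function.surjInv_eq (Ps_surj X)
  have key : ∀ c : ↥(CA d1 d2), ∀ k, Ps X (cjA X hst c (s (Ps X k))) = Ps X (cjA X hst c k) := by
    intro c k
    exact cjA_congr X hst c (hs _)
  refine ⟨{ toFun := fun y => Ps X (cjA X hst φ (s y)), invFun := fun y => Ps X (cjA X hst φ⁻¹ (s y)), left_inv := ?_, right_inv := ?_, map_mul' := ?_ }, ?_⟩
  · intro y
    show Ps X (cjA X hst φ⁻¹ (s (Ps X (cjA X hst φ (s y))))) = y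
    rw [key, cjA_inv', hs]
  · intro y
    show Ps X (cjA X hst φ (s (Ps X (cjA X hst φ⁻¹ (s y))))) = y
    rw [key, cjA_inv, hs]
  · intro y y'
    rw [← map_mul, ← map_mul]
    apply cjA_congr
    rw [map_mul, hs, hs, hs]
  · intro k
    exact key φ k

/-- the action on `SU_4(2)` -/
noncomputable def AA : ↥(CA d1 d2) →* MulAut (SU 4 K 2) where
  toFun c := Classical.choose (exists_autA X hst c)
  map_one' := by
    apply MulEquiv.ext
    intro y
    obtain ⟨k, rfl⟩ := Ps_surj X y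
    rw [Classical.choose_spec (exists_autA X hst 1), cjA_one]; rfl
  map_mul' c c' := by
    apply MulEquiv.ext
    intro y
    obtain ⟨k, rfl⟩ := Ps_surj X y
    rw [Classical.choose_spec (exists_autA X hst (c * c')), MulAut.mul_apply, Classical.choose_spec (exists_autA X hst c'),
      Classical.choose_spec (exists_autA X hst c), cjA_mul]

theorem AA_spec (c : ↥(CA d1 d2)) (k : ↥(Subgroup.centralizer ({d1, d2} : Set G))) :
    AA X hst c (Ps X k) = Ps X (cjA X hst c k) := Classical.choose_spec (exists_autA X hst c) k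

omit hst in
theorem conj_mem_CA {c : G} (hc : c ∈ Subgroup.centralizer ({d1 * d2} : Set G)) : MulAut.conj c ∈ CA d1 d2 := by
  rw [mem_CA X, MulAut.conj_apply]
  rw [Subgroup.mem_centralizer_singleton_iff] at hc
  rw [hc, mul_inv_cancel_right]

omit hst in
theorem mem_C_of_conj {c : G} (hc : MulAut.conj c ∈ CA d1 d2) : c ∈ Subgroup.centralizer ({d1 * d2} : Set G) := by
  rw [mem_CA X, MulAut.conj_apply] at hc
  rw [Subgroup.mem_centralizer_singleton_iff]
  exact mul_inv_eq_iff_eq_mul.1 hc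

theorem AA_conj (c : ↥(Subgroup.centralizer ({d1 * d2} : Set G))) : AA X hst ⟨MulAut.conj (c : G), conj_mem_CA X c.2⟩ = A X c := by
  apply MulEquiv.ext
  intro y
  obtain ⟨k, rfl⟩ := Ps_surj X y
  rw [AA_spec, A_spec]
  congr 1

theorem AA_surj : Function.Surjective (AA X hst) := by
  intro α
  obtain ⟨c, rfl⟩ := A_surj X α
  exact ⟨_, AA_conj X hst c⟩

/-- the radical -/
noncomputable def Q : Subgroup (MulAut G) := (AA X hst).ker.map (CA d1 d2).subtype

theorem mem_Q {φ : MulAut G} : φ ∈ Q X hst ↔ ∃ h : φ ∈ CA d1 d2, AA X hst ⟨φ, h⟩ = 1 := by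
  constructor
  · rintro ⟨k, hk, rfl⟩
    exact ⟨k.2, hk⟩
  · rintro ⟨h, hk⟩
    exact ⟨⟨φ, h⟩, hk, rfl⟩

theorem Q_le : Q X hst ≤ CA d1 d2 := by
  rintro g ⟨k, hk, rfl⟩
  exact k.2

theorem Q_sub : (Q X hst).subgroupOf (CA d1 d2) = (AA X hst).ker := by
  ext φ
  rw [Subgroup.mem_subgroupOf, mem_Q, MonoidHom.mem_ker]
  constructor
  · rintro ⟨h, h'⟩; exact h'
  · intro h; exact ⟨φ.2, h⟩

/-- members of the radical act trivially modulo `E` -/
theorem Q_spec {φ : MulAut G} (hφ : φ ∈ Q X hst) (k : ↥(Subgroup.centralizer ({d1, d2} : Set G))) :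
    ∃ e ∈ E X, φ (k : G) = k * e := by
  obtain ⟨h, h1⟩ := (mem_Q X hst).1 hφ
  have h2 := AA_spec X hst ⟨φ, h⟩ k
  rw [h1, MulAut.one_apply] at h2
  refine ⟨(k : G)⁻¹ * φ (k : G), ?_, by group⟩
  rw [mem_E]
  refine ⟨k⁻¹ * cjA X hst ⟨φ, h⟩ k, rfl, ?_⟩
  rw [map_mul, map_inv, ← h2, inv_mul_cancel]

theorem conj_mem_Q {g : G} : MulAut.conj g ∈ Q X hst ↔ g ∈ E X := by
  rw [mem_Q]
  constructor
  · rintro ⟨h, h1⟩
    have hg := mem_C_of_conj X h
    have h2 := AA_conj X hst ⟨g, hg⟩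
    have h3 : (⟨g, hg⟩ : ↥(Subgroup.centralizer ({d1 * d2} : Set G))) ∈ (A X).ker := by
      rw [MonoidHom.mem_ker, ← h2]; exact h1
    rw [A_ker, Subgroup.mem_subgroupOf] at h3
    exact h3
  · intro hg
    have hgC := (E_le_K X).trans (K_le_C X) hg
    refine ⟨conj_mem_CA X hgC, ?_⟩
    rw [AA_conj X hst ⟨g, hgC⟩, ← MonoidHom.mem_ker, A_ker, Subgroup.mem_subgroupOf]
    exact hg

/-- orders -/
theorem exists_odd (hE : D.ncard = 3510) (hout : ∃ φ : MulAut G, ∀ g : G, MulAut.conj g ≠ φ) : ∃ φ ∈ CA d1 d2, sgA D hst φ = -1 := by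
  obtain ⟨φ, hφ⟩ := hout
  have hd1 := X.h1
  have hd2 := X.h2
  have hs : sgA D hst φ = -1 := by
    rcases Int.units_eq_one_or (sgA D hst φ) with h1 | h1
    · obtain ⟨g, hg⟩ := inner_of_even X.lg hE X.cl X.Z hst φ h1
      exact absurd hg (hφ g)
    · exact h1
  have hne : φ d1 ≠ φ d2 := fun e => hd2.2.1 (φ.injective e).symm
  have hcc : Commute (φ d1) (φ d2) := hd2.2.2.map φ
  obtain ⟨g, -, hg⟩ := H92.Uniq.trans_list2 X.lg.lev [φ d1, φ d2] [d1, d2] rfl (by simp) (by simp [hne]) (by simp [hd2.2.1.symm]) (by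
    intro x hx
    simp only [List.mem_cons, List.not_mem_nil, or_false] at hx
    rcases hx with rfl | rfl
    · exact hst _ _ hd1
    · exact hst _ _ hd2.1) (by
    intro x hx
    simp only [List.mem_cons, List.not_mem_nil, or_false] at hx
    rcases hx with rfl | rfl
    · exact hd1
    · exact hd2.1) (by
    intro a ha b hb
    simp only [List.mem_cons, List.not_mem_nil, or_false] at ha hb
    rcases ha with rfl | rfl <;> rcases hb with rfl | rfl <;> first | exact Commute.refl _ | exact hcc | exact hcc.symm) (by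
    intro a ha b hb
    simp only [List.mem_cons, List.not_mem_nil, or_false] at ha hb
    rcases ha with rfl | rfl <;> rcases hb with rfl | rfl <;> first | exact Commute.refl _ | exact hd2.2.2 | exact hd2.2.2.symm)
  simp only [List.map_cons, List.map_nil, List.cons.injEq, and_true] at hg
  refine ⟨MulAut.conj g * φ, ?_, ?_⟩
  · rw [mem_CA X, MulAut.mul_apply, map_mul, MulAut.conj_apply]
    calc g * (φ d1 * φ d2) * g⁻¹ = (g * φ d1 * g⁻¹) * (g * φ d2 * g⁻¹) := by group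
      _ = d1 * d2 := by rw [hg.1, hg.2]
  · rw [map_mul, even_of_inner X.lg hE X.cl X.Z hst, hs, one_mul]

theorem card_CA (hE : D.ncard = 3510) (hout : ∃ φ : MulAut G, ∀ g : G, MulAut.conj g ≠ φ) : Nat.card ↥(CA d1 d2) = 2 * (2 * (1024 * 25920)) := by
  have hfin : Finite (MulAut G) := finite_aut
  obtain ⟨φ, hφ, hs⟩ := exists_odd X hst hE hout
  have h1 := Subgroup.card_mul_index ((sgA D hst).comp (CA d1 d2).subtype).ker
  have hsurj : Function.Surjective ((sgA D hst).comp (CA d1 d2).subtype) := by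
    intro x
    rcases Int.units_eq_one_or x with h2 | h2
    · exact ⟨1, by rw [map_one, h2]⟩
    · exact ⟨⟨φ, hφ⟩, by rw [h2]; exact hs⟩
  rw [Subgroup.index_ker, MonoidHom.range_eq_top.2 hsurj, Subgroup.card_top] at h1
  have h3 : Nat.card ℤˣ = 2 := by rw [Nat.card_eq_fintype_card]; rfl
  have h4 : Nat.card ↥((sgA D hst).comp (CA d1 d2).subtype).ker = Nat.card ↥(Subgroup.centralizer ({d1 * d2} : Set G)) := by
    symm
    apply Nat.card_congr
    refine Equiv.ofBijective (fun c => ⟨⟨MulAut.conj (c : G), conj_mem_CA X c.2⟩, ?_⟩) ⟨?_, ?_⟩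
    · rw [MonoidHom.mem_ker]
      exact even_of_inner X.lg hE X.cl X.Z hst c
    · intro a b hab
      apply Subtype.ext
      apply conj_inj X
      exact congrArg (fun q : ↥((sgA D hst).comp (CA d1 d2).subtype).ker => ((q : ↥(CA d1 d2)) : MulAut G)) hab
    · rintro ⟨⟨ψ, hψ⟩, hk⟩
      obtain ⟨g, hg⟩ := inner_of_even X.lg hE X.cl X.Z hst ψ hk
      have hgC : g ∈ Subgroup.centralizer ({d1 * d2} : Set G) := mem_C_of_conj X (by rw [hg]; exact hψ)
      exact ⟨⟨g, hgC⟩, Subtype.ext (Subtype.ext hg)⟩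
  rw [h3, h4, card_C X] at h1
  rw [← h1, mul_comm]

theorem card_Q (hE : D.ncard = 3510) (hout : ∃ φ : MulAut G, ∀ g : G, MulAut.conj g ≠ φ) : Nat.card ↥(Q X hst) = 2048 := by
  have hfin : Finite (MulAut G) := finite_aut
  have h1 := Subgroup.card_mul_index (AA X hst).ker
  rw [Subgroup.index_ker, MonoidHom.range_eq_top.2 (AA_surj X hst), Subgroup.card_top, card_aut X, card_CA X hst hE hout] at h1
  have h2 : Nat.card ↥(Q X hst) = Nat.card ↥(AA X hst).ker :=
    (Nat.card_congr ((AA X hst).ker.equivMapOfInjective _ (Subgroup.subtype_injective _)).toEquiv).symm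
  rw [h2]
  omega

theorem Q_conj {φ ψ : MulAut G} (hφ : φ ∈ CA d1 d2) (hψ : ψ ∈ Q X hst) : φ * ψ * φ⁻¹ ∈ Q X hst := by
  obtain ⟨h, h1⟩ := (mem_Q X hst).1 hψ
  rw [mem_Q]
  refine ⟨(CA d1 d2).mul_mem ((CA d1 d2).mul_mem hφ h) ((CA d1 d2).inv_mem hφ), ?_⟩
  have : (⟨φ * ψ * φ⁻¹, (CA d1 d2).mul_mem ((CA d1 d2).mul_mem hφ h) ((CA d1 d2).inv_mem hφ)⟩ : ↥(CA d1 d2)) = ⟨φ, hφ⟩ * ⟨ψ, h⟩ * ⟨φ, hφ⟩⁻¹ := rfl
  rw [this, map_mul, map_mul, map_inv, h1, mul_one, mul_inv_cancel]

end dat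
end H43.FJi
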