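import Mathlib
import Cfsg.Agent.Lib.H43.FJg
import Cfsg.Agent.Lib.H92.Uniq
import Cfsg.Agent.Lib.H92.Witt

/-!
Generation and irreducibility of the radical `E`, hexads.
-/

set_option autoImplicit false
set_option linter.unusedSectionVars false
set_option linter.unusedVariables false
set_option linter.style.haveILetI false
open Cfsg Matrix

namespace H43.FJj
open H92.Herm H92.UTransv H92.PV H92.UInvol H92.PolPSU H92.Tri H92.Pol H92.Lev H92.Types H92.RelList H92.Geo H92.Inv H92.Setup
open H92.Simple H92.M22 H92.M23 H92.M23b H43.FJa H43.FJb H43.FJc H43.FJd H43.FJe H43.FJg H92.Exact1 H92.ULift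

section vec
variable {K : Type} [Field K] [Fintype K] (hK : Fintype.card K = 4) {u v : Fin 6 → K} {b : Fin 4 → Fin 6 → K} (h : Fm u v b)
include hK h

/-- induction on the orthogonal space -/
theorem perp_ind (p : (Fin 6 → K) → Prop) (hadd : ∀ x y, B x u = 0 → B y u = 0 → p x → p y → p (x + y))
    (hiso : ∀ x, Iso x → B x u = 0 → p x) : ∀ x, B x u = 0 → p x := by
  have hu0 : u ≠ 0 := by
    rintro rfl
    have := h.uv
    simp at this
  have hu : Iso u := ⟨hu0, h.uu⟩
  have p0 : p 0 := by
    have h1 : u + u = 0 := by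
      have : (1 : K) • u + (1 : K) • u = 0 := by rw [← add_smul, add_self hK, zero_smul]
      rwa [one_smul] at this
    rw [← h1]
    exact hadd u u h.uu h.uu (hiso u hu h.uu) (hiso u hu h.uu)
  have pu : ∀ c : K, p (c • u) := by
    intro c
    by_cases hc : c = 0
    · rw [hc, zero_smul]; exact p0
    · refine hiso _ ⟨smul_ne_zero hc hu0, ?_⟩ ?_
      · rw [B_smul_left, B_smul_right, h.uu]; ring
      · rw [B_smul_left, h.uu]; ring
  obtain ⟨w, hw0, hw1, hw⟩ := exists_omega hK
  have hw3 := pow_three hK hw0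
  have h2 : (2 : K) = 0 := by have := add_self hK (1 : K); linear_combination this
  have pb : ∀ (c : K) (i : Fin 4), p (c • b i) := by
    intro c i
    by_cases hc : c = 0
    · rw [hc, zero_smul]; exact p0
    obtain ⟨j, hij⟩ : ∃ j : Fin 4, i ≠ j := by
      fin_cases i
      · exact ⟨1, by decide⟩
      all_goals exact ⟨0, by decide⟩
    have hii := h.bb i i
    have hjj := h.bb j j
    have hij' := h.bb i j
    have hji' := h.bb j i
    rw [if_pos rfl] at hii hjj
    rw [if_neg hij] at hij'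
    rw [if_neg hij.symm] at hji'
    have c3 := pow_three hK hc
    have w6 : w ^ 6 = 1 := by rw [show (6 : ℕ) = 3 * 2 from rfl, pow_mul, hw3, one_pow]
    have key : ∀ s : K, s ^ 3 = 1 → p ((c * s) • b i + c • b j) := by
      intro s hs
      apply hiso
      · refine ⟨?_, ?_⟩
        · intro h0
          have h3 : B ((c * s) • b i + c • b j) (b j) = c := by
            rw [B_add_left, B_smul_left, B_smul_left, hij', hjj]; ring
          rw [h0] at h3
          simp at h3
          exact hc h3.symm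
        · rw [B_add_left, B_add_right hK, B_add_right hK, B_smul_left, B_smul_right, B_smul_left, B_smul_right, B_smul_left, B_smul_right,
            B_smul_left, B_smul_right, hii, hjj, hij', hji']
          linear_combination c ^ 3 * hs + c ^ 3 * h2
      · rw [B_add_left, B_smul_left, B_smul_left, h.bu, h.bu]; ring
    have e : c • b i = ((c * w) • b i + c • b j) + ((c * w ^ 2) • b i + c • b j) := by
      have e1 : ((c * w) • b i + c • b j) + ((c * w ^ 2) • b i + c • b j) = (c * (w + w ^ 2)) • b i + (c + c) • b j := by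
        rw [mul_add, add_smul, add_smul]; abel
      rw [e1, add_self hK, zero_smul, add_zero]
      congr 1
      linear_combination (-c) * hw + c * h2
    rw [e]
    apply hadd
    · rw [B_add_left, B_smul_left, B_smul_left, h.bu, h.bu]; ring
    · rw [B_add_left, B_smul_left, B_smul_left, h.bu, h.bu]; ring
    · exact key w hw3
    · apply key
      rw [← pow_mul]; exact w6
  intro x hx
  rw [perp_coord hK h hx]
  have hbu : ∀ (c : K) (i : Fin 4), B (c • b i) u = 0 := by
    intro c i
    rw [B_smul_left, h.bu]; ring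
  apply hadd
  · rw [B_smul_left, h.uu]; ring
  · exact L_u hK h _
  · exact pu _
  · show p (∑ i, (fun i => B x (b i)) i • b i)
    rw [Fin.sum_univ_four]
    refine hadd _ _ ?_ (hbu _ _) (hadd _ _ ?_ (hbu _ _) (hadd _ _ (hbu _ _) (hbu _ _) (pb _ _) (pb _ _)) (pb _ _)) (pb _ _)
    · rw [B_add_left, B_add_left, hbu, hbu, hbu]; ring
    · rw [B_add_left, hbu, hbu]; ring

/-- members of `S0 u` move isotropic vectors of the orthogonal space -/
theorem exists_move {x x' : Fin 6 → K} (hx : Iso x) (hxu : B x u = 0) (hli : LinearIndependent K ![x, u])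
    (hx' : Iso x') (hxu' : B x' u = 0) (hli' : LinearIndependent K ![x', u]) :
    ∃ M : ↥(S0 u), act (M : SU 6 K 2) x = x' := by
  have hu0 : u ≠ 0 := by
    rintro rfl
    have := h.uv
    simp at this
  have hu : Iso u := ⟨hu0, h.uu⟩
  have key : ∀ x : Fin 6 → K, Iso x → B x u = 0 → LinearIndependent K ![x, u] → ∃ e f : Fin 3 → Fin 6 → K, Hyp e f ∧ e 1 = u ∧ e 2 = x := by
    intro x hx hxu hli
    obtain ⟨z, hz1, hz2⟩ := exists_extend hK (k := 2) (n := 6) (by norm_num) ![x, u] hli (by
      intro i j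
      fin_cases i <;> fin_cases j
      · exact hx.2
      · exact hxu
      · exact B_symm_zero hK hxu
      · exact h.uu)
    have hli3 : LinearIndependent K ![z, u, x] := by
      rw [Fintype.linearIndependent_iff] at hz1 ⊢
      intro g hg
      have h1 := hz1 ![g 2, g 1, g 0] (by
        rw [Fin.sum_univ_three] at hg ⊢
        have hg' : g 0 • z + g 1 • u + g 2 • x = 0 := hg
        show g 2 • x + g 1 • u + g 0 • z = 0
        rw [← hg']; abel)
      intro i
      fin_cases i
      · exact h1 2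
      · exact h1 1
      · exact h1 0
    obtain ⟨f, hf⟩ := exists_dual hK ![z, u, x] hli3 (by
      have a0 : B z x = 0 := hz2 2 0
      have a1 : B z u = 0 := hz2 2 1
      have a2 : B z z = 0 := hz2 2 2
      intro i j
      fin_cases i <;> fin_cases j
      · exact a2
      · exact a1
      · exact a0
      · exact B_symm_zero hK a1
      · exact h.uu
      · exact B_symm_zero hK hxu
      · exact B_symm_zero hK a0
      · exact hxu
      · exact hx.2)
    exact ⟨_, f, hf, rfl, rfl⟩
  obtain ⟨e, f, he, e1, e2⟩ := key x hx hxu hli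
  obtain ⟨e', f', he', e1', e2'⟩ := key x' hx' hxu' hli'
  obtain ⟨M, s, hs, h1, h2⟩ := H92.Witt.exists_SU hK he he'
  have m1 := h1 1
  have m2 := h1 2
  rw [e1, e1', if_neg (by decide), one_smul] at m1
  rw [e2, e2', if_neg (by decide), one_smul] at m2
  exact ⟨⟨M, m1⟩, m2⟩

end vec

variable {G : Type*} [Group G]

section dat
variable [Finite G] {D : Set G} {d1 d2 : G} {K : Type} [Field K] [Fintype K] {τ : (Fin 6 → K) → G} {u v : Fin 6 → K} {b : Fin 4 → Fin 6 → K}
  {f : ↥(Subgroup.centralizer ({d1, d2} : Set G)) →* ↥(S0 u)} (X : Dat D d1 d2 τ u v b f)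
include X

/-- products of pairs in a fibre -/
theorem pair_mem {x : Fin 6 → K} (hx : Iso x) (hxu : B x u = 0) (hli : LinearIndependent K ![x, u]) (a : K) :
    τ (x + a • u) * τ x ∈ E X := by
  rw [mem_E]
  refine ⟨⟨τ (x + a • u), tau_mem X (iso_add X hx hxu hli a) (perp_add X hxu a)⟩ * ⟨τ x, tau_mem X hx hxu⟩, rfl, ?_⟩
  rw [map_mul, ← Ps_fibre X hx hxu hli a, Ps_tau X hx hxu, T_mul_self X.pol.card]

theorem act_pair {x : Fin 6 → K} (hx : Iso x) (hxu : B x u = 0) (hli : LinearIndependent K ![x, u]) {z : Fin 6 → K} (hz : B z u = 0) :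
    act ((f (⟨τ (x + (1 : K) • u), tau_mem X (iso_add X hx hxu hli 1) (perp_add X hxu 1)⟩ * ⟨τ x, tau_mem X hx hxu⟩) : ↥(S0 u)) : SU 6 K 2) z =
      z + B z x • u := by
  have hK := X.pol.card
  have i1 := iso_add X hx hxu hli 1
  rw [map_mul, f_tau X i1 (perp_add X hxu 1), f_tau X hx hxu]
  show act (T (x + (1 : K) • u) * T x) z = _
  rw [one_smul] at i1 ⊢
  rw [act_mul, act_T hK hx.2, act_T hK i1.2, B_add_left, B_smul_left, B_add_right hK, B_add_right hK, hz, hx.2, hxu, add_zero, add_zero,
    mul_zero, add_zero, smul_add, ← add_assoc, add_assoc z, ← add_smul, add_self hK, zero_smul, add_zero]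

/-- generation of the radical -/
theorem gen_E : E X ≤ Subgroup.closure ({y | ∃ x : Fin 6 → K, Iso x ∧ B x u = 0 ∧ LinearIndependent K ![x, u] ∧ y = τ (x + (1 : K) • u) * τ x} ∪
    ({d1, d2} : Set G)) := by
  have hK := X.pol.card
  set S : Set G := {y | ∃ x : Fin 6 → K, Iso x ∧ B x u = 0 ∧ LinearIndependent K ![x, u] ∧ y = τ (x + (1 : K) • u) * τ x} ∪
    ({d1, d2} : Set G) with hS
  have hVS : Subgroup.closure ({d1, d2} : Set G) ≤ Subgroup.closure S := Subgroup.closure_mono Set.subset_union_right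
  have key : ∀ w, B w u = 0 → ∃ n : ↥(Subgroup.centralizer ({d1, d2} : Set G)), (n : G) ∈ Subgroup.closure S ∧
      ∀ z, B z u = 0 → act ((f n : ↥(S0 u)) : SU 6 K 2) z = z + B z w • u := by
    apply perp_ind hK X.fm
    · rintro x y hx hy ⟨n, hn, hn'⟩ ⟨m, hm, hm'⟩
      refine ⟨n * m, Subgroup.mul_mem _ hn hm, ?_⟩
      intro z hz
      have hfu : ∀ g, act (f g : SU 6 K 2) u = u := fun g => (f g).2
      rw [map_mul]
      show act (((f n : ↥(S0 u)) : SU 6 K 2) * ((f m : ↥(S0 u)) : SU 6 K 2)) z = _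
      rw [act_mul, hm' z hz, map_add, map_smul, hfu, hn' z hz, B_add_right hK, add_smul]
      abel
    · intro x hx hxu
      by_cases hli : LinearIndependent K ![x, u]
      · refine ⟨⟨τ (x + (1 : K) • u), tau_mem X (iso_add X hx hxu hli 1) (perp_add X hxu 1)⟩ * ⟨τ x, tau_mem X hx hxu⟩, ?_, ?_⟩
        · apply Subgroup.subset_closure
          left
          exact ⟨x, hx, hxu, hli, rfl⟩
        · intro z hz
          exact act_pair X hx hxu hli hz
      · refine ⟨1, Subgroup.one_mem _, ?_⟩
        intro z hz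
        have h1 : τ x = τ u := by
          by_contra hne
          exact hli (indep_of_ne X.triC X.pol hx X.iu hne)
        obtain ⟨a, ha⟩ := (X.pol.inj _ _ hx X.iu).1 h1
        rw [map_one]
        show act (1 : SU 6 K 2) z = _
        rw [act_one, ha, B_smul_right, hz, mul_zero, zero_smul, add_zero]
  intro y hy
  obtain ⟨k, rfl, hk⟩ := (mem_E X).1 hy
  have hfu : ∀ g, act (f g : SU 6 K 2) u = u := fun g => (f g).2
  set v' := act (f k : SU 6 K 2) v with hv'
  have uv' : B u v' = 1 := by
    have := B_act (f k : SU 6 K 2) u v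
    rw [hfu, X.fm.uv] at this
    exact this
  have hw : B (v + v') u = 0 := by
    rw [B_add_left, B_symm_one hK X.fm.uv, B_symm_one hK uv']
    exact add_self hK 1
  obtain ⟨n, hn, hn'⟩ := key _ hw
  have hact : ∀ z, B z u = 0 → act (f k : SU 6 K 2) z = z + B z (v + v') • u := by
    intro z hz
    obtain ⟨c, hc⟩ := (Ps_one_iff X k).1 hk z hz
    have h1 := B_act (f k : SU 6 K 2) z v
    rw [← hv', hc, B_add_left, B_smul_left, uv', mul_one] at h1
    rw [hc]
    congr 2
    rw [B_add_right hK]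
    have h2 := add_self hK (B z v')
    linear_combination h1 - h2
  have hfin : ((n⁻¹ * k : ↥(Subgroup.centralizer ({d1, d2} : Set G))) : G) ∈ Subgroup.closure ({d1, d2} : Set G) := by
    apply mem_V X
    apply fix_perp hK X.fm
    intro z hz
    rw [map_mul, map_inv]
    show act (((f n : ↥(S0 u)) : SU 6 K 2)⁻¹ * ((f k : ↥(S0 u)) : SU 6 K 2)) z = z
    rw [act_mul, hact z hz, ← hn' z hz, act_inv_act]
  have h3 : (k : G) = (n : G) * ((n⁻¹ * k : ↥(Subgroup.centralizer ({d1, d2} : Set G))) : G) := by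
    push_cast
    group
  rw [h3]
  exact Subgroup.mul_mem _ hn (hVS hfin)

/-- irreducibility -/
theorem irr (N : Subgroup G) (hVN : Subgroup.closure ({d1, d2} : Set G) ≤ N) (hNE : N ≤ E X)
    (hKN : ∀ k ∈ Subgroup.centralizer ({d1, d2} : Set G), ∀ n ∈ N, k * n * k⁻¹ ∈ N) :
    N ≤ Subgroup.closure ({d1, d2} : Set G) ∨ N = E X := by
  have hK := X.pol.card
  by_cases hle : N ≤ Subgroup.closure ({d1, d2} : Set G)
  · exact Or.inl hle
  right
  apply le_antisymm hNE
  obtain ⟨n, hn, hnV⟩ := Set.not_subset.1 hle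
  have hnE := hNE hn
  have hnK := E_le_K X hnE
  have hex : ∃ x, Iso x ∧ B x u = 0 ∧ ¬ Commute n (τ x) := by
    by_contra hcon
    push Not at hcon
    exact hnV (mem_V_of_comm X hnK hcon)
  obtain ⟨x, hx, hxu, hnx⟩ := hex
  have hli : LinearIndependent K ![x, u] := by
    by_contra hli
    apply hnx
    have h1 : τ x = τ u := by
      by_contra hne
      exact hli (indep_of_ne X.triC X.pol hx X.iu hne)
    rw [h1, X.tu]
    exact (mem_cent2.1 hnK).2
  obtain ⟨k, hkn, hk⟩ := (mem_E X).1 hnE
  obtain ⟨c, hc⟩ := (Ps_one_iff X k).1 hk x hxu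
  have h1 := X.spec k x hx
  rw [hc, hkn] at h1
  have hc0 : c ≠ 0 := by
    rintro rfl
    apply hnx
    rw [zero_smul, add_zero] at h1
    exact mul_inv_eq_iff_eq_mul.1 h1
  have sx : τ x * τ x = 1 := X.triC.sq _ (X.pol.mem x hx)
  have ix : (τ x)⁻¹ = τ x := inv_eq_of_mul_eq_one_left sx
  have hpn : τ (x + c • u) * τ x ∈ N := by
    rw [← h1]
    have h2 := hKN (τ x) (tau_mem X hx hxu) n⁻¹ (N.inv_mem hn)
    rw [ix] at h2
    have h3 := N.mul_mem hn h2
    have h4 : n * τ x * n⁻¹ * τ x = n * (τ x * n⁻¹ * τ x) := by group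
    rw [h4]; exact h3
  have hall : ∀ y, Iso y → B y u = 0 → LinearIndependent K ![y, u] → τ (y + (1 : K) • u) * τ y ∈ N := by
    intro y hy hyu hliy
    have hcy : Iso (c • y) := ⟨smul_ne_zero hc0 hy.1, by rw [B_smul_left, B_smul_right, hy.2]; ring⟩
    have hcyu : B (c • y) u = 0 := by rw [B_smul_left, hyu]; ring
    have hlicy : LinearIndependent K ![c • y, u] := by
      rw [LinearIndependent.pair_iff] at hliy ⊢
      intro s t hst
      rw [smul_smul] at hst
      have := hliy (s * c) t hst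
      exact ⟨(mul_eq_zero.1 this.1).resolve_right hc0, this.2⟩
    obtain ⟨M, hM⟩ := exists_move hK X.fm hx hxu hli hcy hcyu hlicy
    obtain ⟨k, hk⟩ := X.surj M
    have h2 := hKN (k : G) k.2 _ hpn
    have e1 : (k : G) * τ x * (k : G)⁻¹ = τ y := by
      rw [X.spec k x hx, hk, hM]
      rw [X.pol.inj _ _ hcy hy]
      exact ⟨c, rfl⟩
    have e2 : (k : G) * τ (x + c • u) * (k : G)⁻¹ = τ (y + (1 : K) • u) := by
      rw [X.spec k _ (iso_add X hx hxu hli c), hk, map_add, map_smul, hM, show act (M : SU 6 K 2) u = u from M.2]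
      rw [X.pol.inj _ _ (iso_add X hcy hcyu hlicy c) (iso_add X hy hyu hliy 1)]
      exact ⟨c, by rw [smul_add, one_smul]⟩
    have e3 : (k : G) * (τ (x + c • u) * τ x) * (k : G)⁻¹ = τ (y + (1 : K) • u) * τ y := by
      rw [← e1, ← e2]; group
    rw [← e3]; exact h2
  refine (gen_E X).trans ?_
  rw [Subgroup.closure_le]
  rintro g (⟨y, hy, hyu, hliy, rfl⟩ | hg)
  · exact hall y hy hyu hliy
  · exact hVN (Subgroup.subset_closure hg)

/-! ### hexads -/

theorem exists_hexad : ∃ p : Fin 4 → G, Rel D [d1, d2, p 0, p 1, p 2, p 3] ∧ ∀ i j, p i * p j ∈ E X := by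
  have hK := X.pol.card
  obtain ⟨w, hw0, hw1, hw⟩ := exists_omega hK
  have hw3 := pow_three hK hw0
  have hli1 : LinearIndependent K ![u] := by
    rw [Fintype.linearIndependent_iff]
    intro g hg i
    simp only [Fin.sum_univ_one] at hg
    have h1 : g 0 • u = 0 := hg
    fin_cases i
    exact (smul_eq_zero.1 h1).resolve_right X.iu.1
  obtain ⟨x, hx1, hx2⟩ := exists_extend hK (k := 1) (n := 6) (by norm_num) ![u] hli1 (by
    intro i j
    fin_cases i; fin_cases j; exact X.iu.2)
  have hxu : B x u = 0 := hx2 1 0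
  have hux : B u x = 0 := B_symm_zero hK hxu
  have hx : Iso x := ⟨hx1.ne_zero 1, hx2 1 1⟩
  have hsn : (Fin.snoc ![u] x : Fin 2 → Fin 6 → K) = ![u, x] := by
    funext i
    fin_cases i <;> rfl
  have hli' : LinearIndependent K ![u, x] := by
    rw [← hsn]; exact hx1
  have hli : LinearIndependent K ![x, u] := by
    rw [LinearIndependent.pair_iff] at hli' ⊢
    intro s t hst
    have := hli' t s (by rw [add_comm]; exact hst)
    exact ⟨this.2, this.1⟩
  have hli5 := pts_li hK hw0 hw1 hw hli'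
  have hiso : ∀ i, Iso (pts w u x i) := by
    intro i
    refine ⟨?_, pts_orth hK X.iu.2 hx.2 hux i i⟩
    have : ∃ j : Fin 5, i ≠ j := by
      fin_cases i
      · exact ⟨1, by decide⟩
      all_goals exact ⟨0, by decide⟩
    obtain ⟨j, hj⟩ := this
    exact (hli5 i j hj).ne_zero 0
  have hord := pts_orth (w := w) hK X.iu.2 hx.2 hux
  have hmem : ∀ z, z ∈ List.ofFn (fun i => τ (pts w u x i)) ↔ ∃ i, τ (pts w u x i) = z := by
    intro z; rw [List.mem_ofFn]
  have hrel : Rel (C D d1) (List.ofFn (fun i => τ (pts w u x i))) := by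
    refine ⟨?_, ?_, ?_, ?_⟩
    · rw [List.nodup_ofFn]
      intro i j hij
      by_contra h
      exact ne_of_indep X.triC X.pol (hiso i) (hiso j) (hli5 i j h) hij
    · intro z hz
      obtain ⟨i, rfl⟩ := (hmem z).1 hz
      exact X.pol.mem _ (hiso i)
    · intro z hz z' hz'
      obtain ⟨i, rfl⟩ := (hmem z).1 hz
      obtain ⟨j, rfl⟩ := (hmem z').1 hz'
      exact (X.pol.comm _ _ (hiso i) (hiso j)).2 (hord i j)
    · have h1 := X.pol.prod (List.ofFn (pts w u x)) (by
        intro p hp
        rw [List.mem_ofFn] at hp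
        obtain ⟨i, rfl⟩ := hp
        exact hiso i)
      rw [List.map_ofFn, List.map_ofFn] at h1
      apply h1.2
      have h2 := T_line hK hw X.iu.2 hx.2 hux
      have h3 : (List.ofFn (T ∘ pts w u x)).prod = 1 := by
        simp only [List.ofFn_succ, List.ofFn_zero, List.prod_cons, List.prod_nil, mul_one, Function.comp]
        rw [← h2]
        simp only [mul_assoc]
        rfl
      rw [h3]; exact Subgroup.one_mem _
  have hrel6 : Rel D (d1 :: List.ofFn (fun i => τ (pts w u x i))) := by
    rcases rel_lift X.lg X.h1 hrel with hr | hr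
    · exfalso
      rcases X.lg.lev.rel_min _ hr.nodup hr.mem hr.comm hr.cent with h5 | h5
      · simp at h5
      · simp at h5
    · exact hr
  refine ⟨fun i => τ (pts w u x (Fin.succ i)), ?_, ?_⟩
  · have e : (d1 :: List.ofFn (fun i => τ (pts w u x i))) = [d1, d2, τ (pts w u x (Fin.succ (0 : Fin 4))), τ (pts w u x (Fin.succ (1 : Fin 4))),
        τ (pts w u x (Fin.succ (2 : Fin 4))), τ (pts w u x (Fin.succ (3 : Fin 4)))] := by
      simp only [List.ofFn_succ, List.ofFn_zero]
      have : τ (pts w u x 0) = d2 := X.tu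
      rw [this]; rfl
    rw [← e]; exact hrel6
  · -- all points lie in the fibre of x
    have hpu : ∀ i : Fin 4, B (pts w u x (Fin.succ i)) u = 0 := fun i => hord _ 0
    have hPs : ∀ i : Fin 4, Ps X ⟨τ (pts w u x (Fin.succ i)), tau_mem X (hiso _) (hpu i)⟩ = Ps X ⟨τ x, tau_mem X hx hxu⟩ := by
      intro i
      have hsm : ∀ (s : K) (hs : s ≠ 0) (y : Fin 6 → K) (hy : Iso y) (hyu : B y u = 0), y = u + s • x → 
          Ps X ⟨τ y, tau_mem X hy hyu⟩ = Ps X ⟨τ x, tau_mem X hx hxu⟩ := by
        intro s hs y hy hyu he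
        rw [Ps_fibre X hx hxu hli s⁻¹]
        congr 1
        apply Subtype.ext
        show τ y = τ (x + s⁻¹ • u)
        rw [X.pol.inj _ _ hy (iso_add X hx hxu hli s⁻¹)]
        refine ⟨s, ?_⟩
        rw [smul_add, smul_smul, mul_inv_cancel₀ hs, one_smul, he, add_comm]
      fin_cases i
      · rfl
      · exact hsm 1 one_ne_zero (pts w u x 2) (hiso 2) (hpu 1) (by rw [one_smul]; rfl)
      · exact hsm w hw0 (pts w u x 3) (hiso 3) (hpu 2) rfl
      · exact hsm (w ^ 2) (pow_ne_zero 2 hw0) (pts w u x 4) (hiso 4) (hpu 3) rfl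
    intro i j
    rw [mem_E]
    refine ⟨⟨τ (pts w u x (Fin.succ i)), tau_mem X (hiso _) (hpu i)⟩ * ⟨τ (pts w u x (Fin.succ j)), tau_mem X (hiso _) (hpu j)⟩, rfl, ?_⟩
    rw [map_mul, hPs, hPs, Ps_tau X hx hxu, T_mul_self hK]

omit X in
theorem rel_conj {D : Set G} (ht : Tri D) (hcl : Subgroup.closure D = ⊤) {l : List G} (h : Rel D l) (g : G) : Rel D (l.map (fun x => g * x * g⁻¹)) := by
  have hinj : Function.Injective (fun x : G => g * x * g⁻¹) := (MulAut.conj g).injective
  refine ⟨(List.nodup_map_iff hinj).2 h.nodup, ?_, ?_, ?_⟩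
  · intro x hx
    obtain ⟨y, hy, rfl⟩ := List.mem_map.1 hx
    exact conj_closure ht (by rw [hcl]; trivial) (h.mem y hy)
  · intro x hx x' hx'
    obtain ⟨y, hy, rfl⟩ := List.mem_map.1 hx
    obtain ⟨y', hy', rfl⟩ := List.mem_map.1 hx'
    exact (h.comm y hy y' hy').map (MulAut.conj g)
  · intro e he
    have e1 : (l.map (fun x => g * x * g⁻¹)).prod = g * l.prod * g⁻¹ := by
      have := map_list_prod (MulAut.conj g) l
      rw [MulAut.conj_apply] at this
      exact this.symm
    rw [e1]
    have h1 := h.cent (g⁻¹ * e * g) (by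
      have := conj_closure (g := g⁻¹) ht (by rw [hcl]; trivial) he
      rwa [inv_inv] at this)
    have h2 := h1.map (MulAut.conj g)
    rw [MulAut.conj_apply, MulAut.conj_apply] at h2
    have h3 : g * (g⁻¹ * e * g) * g⁻¹ = e := by group
    rwa [h3] at h2

/-- an element exchanging pairs in a hexad -/
theorem swap_hex {p : Fin 4 → G} (hr : Rel D [d1, d2, p 0, p 1, p 2, p 3]) (hp : ∀ i j, p i * p j ∈ E X) :
    ∃ g : G, g * (p 0 * p 1) * g⁻¹ = d1 * d2 ∧ g * (d1 * d2) * g⁻¹ ∈ E X := by
  have hnd := hr.nodup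
  have hmemD : ∀ y ∈ [d1, d2, p 0, p 1, p 2, p 3], y ∈ D := hr.mem
  have hcomm := hr.comm
  have hnd' := hnd
  simp only [List.nodup_cons, List.mem_cons, List.not_mem_nil, or_false, not_or, List.nodup_nil, and_true, not_false_eq_true] at hnd'
  obtain ⟨⟨n12, n1a, n1b, n1c, n1d⟩, ⟨n2a, n2b, n2c, n2d⟩, ⟨nab, nac, nad⟩, ⟨nbc, nbd⟩, ncd⟩ := hnd'
  obtain ⟨g, -, hg⟩ := H92.Uniq.trans_list2 X.lg.lev [p 0, p 1, d1] [d1, d2, p 0] rfl (by simp) (by
    simp only [List.nodup_cons, List.mem_cons, List.not_mem_nil, or_false, not_or, List.nodup_nil, and_true, not_false_eq_true]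
    exact ⟨⟨nab, fun h => n1a h.symm⟩, fun h => n1b h.symm⟩) (by
    simp only [List.nodup_cons, List.mem_cons, List.not_mem_nil, or_false, not_or, List.nodup_nil, and_true, not_false_eq_true]
    exact ⟨⟨n12, n1a⟩, n2a⟩) (by
    intro x hx
    apply hmemD
    simp only [List.mem_cons, List.not_mem_nil, or_false] at hx ⊢
    tauto) (by
    intro x hx
    apply hmemD
    simp only [List.mem_cons, List.not_mem_nil, or_false] at hx ⊢
    tauto) (by
    intro x hx y hy
    apply hcomm
    · simp only [List.mem_cons, List.not_mem_nil, or_false] at hx ⊢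
      tauto
    · simp only [List.mem_cons, List.not_mem_nil, or_false] at hy ⊢
      tauto) (by
    intro x hx y hy
    apply hcomm
    · simp only [List.mem_cons, List.not_mem_nil, or_false] at hx ⊢
      tauto
    · simp only [List.mem_cons, List.not_mem_nil, or_false] at hy ⊢
      tauto)
  simp only [List.map_cons, List.map_nil, List.cons.injEq, and_true] at hg
  obtain ⟨g1, g2, g3⟩ := hg
  have hrg := rel_conj X.tri X.cl hr g
  have hu := block_unique X.lg hr hrg rfl rfl [d1, d2, p 0] (by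
    simp only [List.nodup_cons, List.mem_cons, List.not_mem_nil, or_false, not_or, List.nodup_nil, and_true, not_false_eq_true]
    exact ⟨⟨n12, n1a⟩, n2a⟩) rfl (by
    intro x hx
    simp only [List.mem_cons, List.not_mem_nil, or_false] at hx ⊢
    tauto) (by
    intro x hx
    simp only [List.mem_cons, List.not_mem_nil, or_false] at hx
    simp only [List.map_cons, List.map_nil, List.mem_cons, List.not_mem_nil, or_false]
    rcases hx with rfl | rfl | rfl
    · right; right; left; exact g1.symm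
    · right; right; right; left; exact g2.symm
    · left; exact g3.symm)
  have hq := (hu (g * d2 * g⁻¹)).2 (by simp)
  have hinj : ∀ a b : G, g * a * g⁻¹ = g * b * g⁻¹ → a = b := fun a b hab => mul_left_cancel (mul_right_cancel hab)
  refine ⟨g, ?_, ?_⟩
  · rw [← g1, ← g2]; group
  have e1 : g * (d1 * d2) * g⁻¹ = p 0 * (g * d2 * g⁻¹) := by
    calc g * (d1 * d2) * g⁻¹ = (g * d1 * g⁻¹) * (g * d2 * g⁻¹) := by group
      _ = _ := by rw [g3]
  rw [e1]
  simp only [List.mem_cons, List.not_mem_nil, or_false] at hq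
  rcases hq with h0 | h0 | h0 | h0 | h0 | h0
  · exact absurd (hinj _ _ (h0.trans g1.symm)) n2a
  · exact absurd (hinj _ _ (h0.trans g2.symm)) n2b
  · exact absurd (hinj _ _ (h0.trans g3.symm)) (fun h => n12 h.symm)
  · rw [h0]; exact hp 0 1
  · rw [h0]; exact hp 0 2
  · rw [h0]; exact hp 0 3

end dat
end H43.FJj
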