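import Mathlib
import Cfsg.Agent.Lib.H43.FJi
import Cfsg.Agent.Lib.H43.FJj

/-!
The radical of the centralizer of `d₁d₂` in the automorphism group is a large extraspecial group.
-/

set_option autoImplicit false
set_option linter.unusedSectionVars false
set_option linter.unusedVariables false
set_option linter.style.haveILetI false
open Cfsg Matrix

namespace H43.FJk
open H92.Herm H92.UTransv H92.PV H92.UInvol H92.PolPSU H92.Tri H92.Pol H92.Lev H92.Types H92.RelList H92.Geo H92.Inv H92.Setup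
open H92.Simple H92.M22 H92.M23 H92.M23b H43.FJa H43.FJb H43.FJc H43.FJd H43.FJe H43.FJg H92.Exact1 H92.Exact1c H92.AutC H92.Out22 H43.FJh
open H43.FJi H43.FJj

variable {G : Type*} [Group G]

section dat
variable [Finite G] {D : Set G} {d1 d2 : G} {K : Type} [Field K] [Fintype K] {τ : (Fin 6 → K) → G} {u v : Fin 6 → K} {b : Fin 4 → Fin 6 → K}
  {f : ↥(Subgroup.centralizer ({d1, d2} : Set G)) →* ↥(S0 u)} (X : Dat D d1 d2 τ u v b f) (hst : ∀ φ : MulAut G, ∀ d ∈ D, φ d ∈ D)
include X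

theorem jj : d1 * d2 * (d1 * d2) = 1 := by
  have s1 := X.tri.sq d1 X.h1
  have s2 := X.tri.sq d2 X.h2.1
  calc d1 * d2 * (d1 * d2) = d1 * (d2 * d1) * d2 := by group
    _ = (d1 * d1) * (d2 * d2) := by rw [← X.h2.2.2.eq]; group
    _ = 1 := by rw [s1, s2, one_mul]

theorem jE : d1 * d2 ∈ E X := by
  have m1 : d1 ∈ E X := V_le_E X (Subgroup.subset_closure (by simp))
  have m2 : d2 ∈ E X := V_le_E X (Subgroup.subset_closure (by simp))
  exact (E X).mul_mem m1 m2

theorem V_cent {x g : G} (hx : x ∈ E X) (hg : g ∈ Subgroup.closure ({d1, d2} : Set G)) : x * g = g * x := by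
  have hk := mem_cent2.1 (E_le_K X hx)
  exact V_le X hg hk.1 hk.2

theorem jV : d1 * d2 ∈ Subgroup.closure ({d1, d2} : Set G) :=
  Subgroup.mul_mem _ (Subgroup.subset_closure (by simp)) (Subgroup.subset_closure (by simp))

theorem jcomm {x : G} (hx : x ∈ E X) : x * (d1 * d2) = d1 * d2 * x := V_cent X hx (jV X)

theorem j_ne : d1 * d2 ≠ 1 := by
  intro h2
  have s2 := X.tri.sq d2 X.h2.1
  have h3 : d1 = d2 := by
    calc d1 = d1 * (d2 * d2) := by rw [s2, mul_one]
      _ = (d1 * d2) * d2 := by group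
      _ = d2 := by rw [h2, one_mul]
  exact X.h2.2.1 h3.symm

theorem E_comm_cases (hE : D.ncard = 3510) {a b : G} (ha : a ∈ E X) (hb : b ∈ E X) : a * b * a⁻¹ * b⁻¹ = 1 ∨ a * b * a⁻¹ * b⁻¹ = d1 * d2 := by
  have hjj := jj X
  have e1 : a * b * a⁻¹ * b⁻¹ = (a * b * (a * b)) * (b⁻¹ * (a * a)⁻¹ * b) * (b * b)⁻¹ := by group
  have e2 := E_sq_cases X hE ((E X).mul_mem ha hb)
  have e3 := E_sq_cases X hE ha
  have e4 := E_sq_cases X hE hb
  have hji : (d1 * d2)⁻¹ = d1 * d2 := inv_eq_of_mul_eq_one_left hjj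
  have hcb := jcomm X hb
  have e5 : b⁻¹ * (a * a)⁻¹ * b = 1 ∨ b⁻¹ * (a * a)⁻¹ * b = d1 * d2 := by
    rcases e3 with h | h
    · left; rw [h]; group
    · right; rw [h, hji, mul_assoc, ← hcb, inv_mul_cancel_left]
  have e6 : (b * b)⁻¹ = 1 ∨ (b * b)⁻¹ = d1 * d2 := by
    rcases e4 with h | h
    · left; rw [h, _root_.inv_one]
    · right; rw [h, hji]
  rw [e1]
  rcases e2 with h | h <;> rcases e5 with h' | h' <;> rcases e6 with h'' | h'' <;> rw [h, h', h''] <;>
    simp only [one_mul, mul_one, hjj, true_or, or_true]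

theorem E_conj_cases (hE : D.ncard = 3510) {a b : G} (ha : a ∈ E X) (hb : b ∈ E X) : a * b * a⁻¹ = b ∨ a * b * a⁻¹ = b * (d1 * d2) := by
  rcases E_comm_cases X hE ha hb with h | h
  · left; exact mul_inv_eq_one.1 h
  · right
    have : a * b * a⁻¹ = d1 * d2 * b := mul_inv_eq_iff_eq_mul.1 h
    rw [this, jcomm X hb]

theorem vec_of_Ps {x y : Fin 6 → K} (hx : Iso x) (hxu : B x u = 0) (hy : Iso y) (hyu : B y u = 0)
    (he : Ps X ⟨τ x, tau_mem X hx hxu⟩ = Ps X ⟨τ y, tau_mem X hy hyu⟩) : ∃ a c : K, y = a • x + c • u := by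
  have hK := X.pol.card
  rw [Ps_tau X hx hxu, Ps_tau X hy hyu] at he
  have he' : T (bar b x) = T (bar b y) := he
  have bx : B (bar b x) (bar b x) = 0 := by rw [B_bar X hxu hxu]; exact hx.2
  have by' : B (bar b y) (bar b y) = 0 := by rw [B_bar X hyu hyu]; exact hy.2
  have e1 := perp_coord hK X.fm hxu
  have e2 := perp_coord hK X.fm hyu
  by_cases hby : bar b y = 0
  · refine ⟨0, B y v, ?_⟩
    rw [zero_smul, zero_add]
    have h0 : (fun i => B y (b i)) = (0 : Fin 4 → K) := hby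
    rw [h0] at e2
    have : L b (0 : Fin 4 → K) = 0 := by simp [L]
    rwa [this, add_zero] at e2
  · obtain ⟨a, ha⟩ := T_eq hK by' bx hby he'.symm
    have e3 : L b (fun i => B y (b i)) = a • L b (fun i => B x (b i)) := by
      rw [← L_smul hK X.fm]; congr 1
    refine ⟨a, B y v - a * B x v, ?_⟩
    have e2' : L b (fun i => B x (b i)) = x - B x v • u := by
      rw [eq_sub_iff_add_eq, add_comm]; exact e1.symm
    have e5 : y = B y v • u + a • (x - B x v • u) := by
      rw [← e2', ← e3]; exact e2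
    rw [sub_smul, mul_smul]
    rw [smul_sub] at e5
    exact e5.trans (by abel)

include hst

theorem pairA (hE : D.ncard = 3510) {a b : G} (ha : a ∈ D) (hb : b ∈ C D a) {φ : MulAut G} (h : φ (a * b) = a * b) :
    (φ a = a ∧ φ b = b) ∨ (φ a = b ∧ φ b = a) := by
  obtain ⟨K', _, _, τ', u', v', b', f', X'⟩ := exists_dat X.lg hE X.cl X.Z X.one ha hb
  exact A_cases X' hst ((mem_CA X').2 h)

theorem Q_fix (hE : D.ncard = 3510) {φ : MulAut G} (hφ : φ ∈ Q X hst) (h1 : φ d1 = d1) : ∃ e ∈ E X, φ = MulAut.conj e := by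
  obtain ⟨g, hg⟩ := inner_of X hE hst φ h1 (by
    intro x y hx hxu hy hxy
    obtain ⟨e, he, h2⟩ := Q_spec X hst hφ ⟨τ x, tau_mem X hx hxu⟩
    have hyK : τ y ∈ Subgroup.centralizer ({d1, d2} : Set G) := by
      rw [← hxy]; exact map_mem_K X hst (Q_le X hst hφ) (tau_mem X hx hxu)
    have hyu : B y u = 0 := by
      rw [← X.pol.comm _ _ hy X.iu, X.tu]
      exact (mem_cent2.1 hyK).2
    apply vec_of_Ps X hx hxu hy hyu
    obtain ⟨k, hk, hk1⟩ := (mem_E X).1 he
    have h3 : (⟨τ y, tau_mem X hy hyu⟩ : ↥(Subgroup.centralizer ({d1, d2} : Set G))) = ⟨τ x, tau_mem X hx hxu⟩ * k := by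
      apply Subtype.ext
      show τ y = τ x * (k : G)
      rw [hk, ← hxy]; exact h2
    rw [h3, map_mul, hk1, mul_one])
  refine ⟨g, ?_, hg.symm⟩
  rw [← conj_mem_Q X hst, hg]; exact hφ

theorem Q_cases (hE : D.ncard = 3510) {φ : MulAut G} (hφ : φ ∈ Q X hst) : (∃ e ∈ E X, φ = MulAut.conj e) ∨ (φ d1 = d2 ∧ φ d2 = d1) := by
  rcases A_cases X hst (Q_le X hst hφ) with h | h
  · exact Or.inl (Q_fix X hst hE hφ h.1)
  · exact Or.inr h

theorem Q_map_E {φ : MulAut G} (hφ : φ ∈ CA d1 d2) {x : G} (hx : x ∈ E X) : φ x ∈ E X := by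
  obtain ⟨k, rfl, hk⟩ := (mem_E X).1 hx
  rw [mem_E]
  exact ⟨cjA X hst ⟨φ, hφ⟩ k, rfl, ker_cjA X hst _ _ hk⟩

/-- action of the radical on `E` -/
theorem Q_E (hE : D.ncard = 3510) {φ : MulAut G} (hφ : φ ∈ Q X hst) {x : G} (hx : x ∈ E X) : φ x = x ∨ φ x = x * (d1 * d2) := by
  rcases Q_cases X hst hE hφ with ⟨e, he, rfl⟩ | ⟨hs1, hs2⟩
  · rw [MulAut.conj_apply]
    exact E_conj_cases X hE he hx
  have hjj := jj X
  have hji : (d1 * d2)⁻¹ = d1 * d2 := inv_eq_of_mul_eq_one_left hjj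
  have hφC := Q_le X hst hφ
  have hφj : φ (d1 * d2) = d1 * d2 := (mem_CA X).1 hφC
  let N : Subgroup G :=
    { carrier := {x | x ∈ E X ∧ (φ x = x ∨ φ x = x * (d1 * d2))}
      one_mem' := ⟨Subgroup.one_mem _, Or.inl (map_one _)⟩
      mul_mem' := by
        rintro a c ⟨ha, ha'⟩ ⟨hc, hc'⟩
        refine ⟨(E X).mul_mem ha hc, ?_⟩
        rw [map_mul]
        have hcj := jcomm X hc
        rcases ha' with h | h <;> rcases hc' with h' | h'
        · left; rw [h, h']
        · right; rw [h, h', mul_assoc]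
        · right; rw [h, h', mul_assoc, ← hcj, mul_assoc]
        · left
          rw [h, h']
          calc a * (d1 * d2) * (c * (d1 * d2)) = a * ((d1 * d2) * c) * (d1 * d2) := by group
            _ = a * c * ((d1 * d2) * (d1 * d2)) := by rw [← hcj]; group
            _ = a * c := by rw [hjj, mul_one]
      inv_mem' := by
        rintro a ⟨ha, ha'⟩
        refine ⟨(E X).inv_mem ha, ?_⟩
        rw [map_inv]
        rcases ha' with h | h
        · left; rw [h]
        · right; rw [h, _root_.mul_inv_rev, hji, ← jcomm X ((E X).inv_mem ha)] }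
  have hmemN : ∀ y, y ∈ N ↔ y ∈ E X ∧ (φ y = y ∨ φ y = y * (d1 * d2)) := fun y => Iff.rfl
  have hVN : Subgroup.closure ({d1, d2} : Set G) ≤ N := by
    rw [Subgroup.closure_le]
    have s1 := X.tri.sq d1 X.h1
    have s2 := X.tri.sq d2 X.h2.1
    rintro y (rfl | hy)
    · refine ⟨V_le_E X (Subgroup.subset_closure (by simp)), Or.inr ?_⟩
      rw [hs1, ← mul_assoc, s1, one_mul]
    · rw [Set.mem_singleton_iff] at hy
      subst hy
      refine ⟨V_le_E X (Subgroup.subset_closure (by simp)), Or.inr ?_⟩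
      rw [hs2, X.h2.2.2.eq, ← mul_assoc, s2, one_mul]
  have hNE : N ≤ E X := fun y hy => hy.1
  have hKN : ∀ k ∈ Subgroup.centralizer ({d1, d2} : Set G), ∀ n ∈ N, k * n * k⁻¹ ∈ N := by
    rintro k hk n ⟨hn, hn'⟩
    have hknE : k * n * k⁻¹ ∈ E X := E_conj X (K_le_C X hk) hn
    refine ⟨hknE, ?_⟩
    obtain ⟨e, he, h2⟩ := Q_spec X hst hφ ⟨k, hk⟩
    have h2' : φ k = k * e := h2
    have hkj : k * (d1 * d2) = d1 * d2 * k := Subgroup.mem_centralizer_singleton_iff.1 (K_le_C X hk)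
    rw [map_mul, map_mul, map_inv, h2']
    have h3 : e * n * e⁻¹ = n ∨ e * n * e⁻¹ = n * (d1 * d2) := E_conj_cases X hE he hn
    have h4 : e * φ n * e⁻¹ = n ∨ e * φ n * e⁻¹ = n * (d1 * d2) := by
      rcases hn' with h | h
      · rw [h]; exact h3
      · rw [h]
        have h5 : e * (n * (d1 * d2)) * e⁻¹ = (e * n * e⁻¹) * (d1 * d2) := by
          have := jcomm X ((E X).inv_mem he)
          calc e * (n * (d1 * d2)) * e⁻¹ = e * n * ((d1 * d2) * e⁻¹) := by group
            _ = e * n * (e⁻¹ * (d1 * d2)) := by rw [this]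
            _ = _ := by group
        rw [h5]
        rcases h3 with h3 | h3
        · right; rw [h3]
        · left; rw [h3, mul_assoc, hjj, mul_one]
    have h6 : k * e * φ n * (k * e)⁻¹ = k * (e * φ n * e⁻¹) * k⁻¹ := by group
    rw [h6]
    have hkj' : (d1 * d2) * k⁻¹ = k⁻¹ * (d1 * d2) := by
      calc (d1 * d2) * k⁻¹ = k⁻¹ * (k * (d1 * d2)) * k⁻¹ := by group
        _ = k⁻¹ * (d1 * d2 * k) * k⁻¹ := by rw [hkj]
        _ = _ := by group
    rcases h4 with h | h
    · left; rw [h]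
    · right; rw [h]
      calc k * (n * (d1 * d2)) * k⁻¹ = k * n * ((d1 * d2) * k⁻¹) := by group
        _ = k * n * (k⁻¹ * (d1 * d2)) := by rw [hkj']
        _ = _ := by group
  rcases irr X N hVN hNE hKN with h | h
  swap
  · have : x ∈ N := by rw [h]; exact hx
    exact this.2
  exfalso
  -- the square is inner
  have hφφ : φ * φ ∈ Q X hst := (Q X hst).mul_mem hφ hφ
  obtain ⟨e, he, hee⟩ := Q_fix X hst hE hφφ (by rw [MulAut.mul_apply, hs1, hs2])
  have hsq : ∀ y ∈ E X, φ (φ y) = y ∨ φ (φ y) = y * (d1 * d2) := by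
    intro y hy
    have h1 : φ (φ y) = e * y * e⁻¹ := by
      rw [← MulAut.mul_apply, hee, MulAut.conj_apply]
    rw [h1]
    exact E_conj_cases X hE he hy
  have hcl : ∀ y ∈ E X, φ y * y⁻¹ ∈ N := by
    intro y hy
    have hφy := Q_map_E X hst hφC hy
    have hz : y * (φ y)⁻¹ ∈ E X := (E X).mul_mem hy ((E X).inv_mem hφy)
    refine ⟨(E X).mul_mem hφy ((E X).inv_mem hy), ?_⟩
    rw [map_mul, map_inv]
    have h1 := E_sq_cases X hE hz
    -- φφy (φy)⁻¹ = c z z (φ y y⁻¹)
    have key : ∀ c : G, φ (φ y) = y * c → c * (φ y) = (φ y) * c → φ (φ y) * (φ y)⁻¹ = (y * (φ y)⁻¹) * (y * (φ y)⁻¹) * (φ y * y⁻¹) * c := by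
      intro c hc hcc
      have hcc' : c * (φ y)⁻¹ = (φ y)⁻¹ * c := by
        calc c * (φ y)⁻¹ = (φ y)⁻¹ * (φ y * c) * (φ y)⁻¹ := by group
          _ = (φ y)⁻¹ * (c * φ y) * (φ y)⁻¹ := by rw [hcc]
          _ = _ := by group
      calc φ (φ y) * (φ y)⁻¹ = y * (c * (φ y)⁻¹) := by rw [hc]; group
        _ = y * ((φ y)⁻¹ * c) := by rw [hcc']
        _ = _ := by group
    have hy2 : φ y * y⁻¹ ∈ E X := (E X).mul_mem hφy ((E X).inv_mem hy)
    have hjy := jcomm X hy2
    rcases hsq y hy with h2 | h2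
    · rw [key 1 (by rw [h2, mul_one]) (by group), mul_one]
      rcases h1 with h3 | h3
      · left; rw [h3, one_mul]
      · right; rw [h3, hjy]
    · rw [key (d1 * d2) h2 (jcomm X hφy).symm]
      rcases h1 with h3 | h3
      · right; rw [h3, one_mul]
      · left; rw [h3, ← hjy, mul_assoc, hjj, mul_one]
  have hV : ∀ y ∈ E X, y ∉ N → φ y = d1 * y ∨ φ y = d2 * y := by
    intro y hy hyN
    have h1 := V_cases X (h (hcl y hy))
    rcases h1 with h1 | h1 | h1 | h1
    · exfalso; apply hyN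
      exact ⟨hy, Or.inl (mul_inv_eq_one.1 h1)⟩
    · left; exact mul_inv_eq_iff_eq_mul.1 h1
    · right; exact mul_inv_eq_iff_eq_mul.1 h1
    · exfalso; apply hyN
      refine ⟨hy, Or.inr ?_⟩
      rw [jcomm X hy]
      exact mul_inv_eq_iff_eq_mul.1 h1
  have hex : ∃ x0 ∈ E X, x0 ∉ N := by
    by_contra hcon
    push Not at hcon
    have h1 : (E X : Set G) ⊆ {1, d1, d2, d1 * d2} := by
      intro y hy
      have := V_cases X (h (hcon y hy))
      simpa using this
    have h2 := Set.ncard_le_ncard h1 (Set.toFinite _)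
    have h3 : (E X : Set G).ncard = 1024 := card_E X
    have h4 : ({1, d1, d2, d1 * d2} : Set G).ncard ≤ 4 := by
      refine (Set.ncard_insert_le _ _).trans (Nat.succ_le_succ ?_)
      refine (Set.ncard_insert_le _ _).trans (Nat.succ_le_succ ?_)
      refine (Set.ncard_insert_le _ _).trans (Nat.succ_le_succ ?_)
      rw [Set.ncard_singleton]
    omega
  obtain ⟨x0, hx0, hx0N⟩ := hex
  have hprod : ∀ y ∈ E X, y ∉ N → y * x0 ∈ N := by
    intro y hy hyN
    refine ⟨(E X).mul_mem hy hx0, ?_⟩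
    rw [map_mul]
    have hy1 : y * d1 = d1 * y := V_cent X hy (Subgroup.subset_closure (by simp))
    have hy2 : y * d2 = d2 * y := V_cent X hy (Subgroup.subset_closure (by simp))
    have s1 := X.tri.sq d1 X.h1
    have s2 := X.tri.sq d2 X.h2.1
    have hj := jcomm X ((E X).mul_mem hy hx0)
    rcases hV y hy hyN with h1 | h1 <;> rcases hV x0 hx0 hx0N with h2 | h2
    · left; rw [h1, h2]
      calc d1 * y * (d1 * x0) = d1 * (y * d1) * x0 := by group
        _ = (d1 * d1) * y * x0 := by rw [hy1]; group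
        _ = y * x0 := by rw [s1, one_mul]
    · right; rw [h1, h2, hj]
      calc d1 * y * (d2 * x0) = d1 * (y * d2) * x0 := by group
        _ = _ := by rw [hy2]; group
    · right; rw [h1, h2, hj]
      calc d2 * y * (d1 * x0) = d2 * (y * d1) * x0 := by group
        _ = (d2 * d1) * y * x0 := by rw [hy1]; group
        _ = _ := by rw [← X.h2.2.2.eq]; group
    · left; rw [h1, h2]
      calc d2 * y * (d2 * x0) = d2 * (y * d2) * x0 := by group
        _ = (d2 * d2) * y * x0 := by rw [hy2]; group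
        _ = y * x0 := by rw [s2, one_mul]
  have h1 : (E X : Set G) ⊆ {1, d1, d2, d1 * d2} ∪ (fun y => y * x0⁻¹) '' {1, d1, d2, d1 * d2} := by
    intro y hy
    by_cases hyN : y ∈ N
    · left
      have := V_cases X (h hyN)
      simpa using this
    · right
      refine ⟨y * x0, ?_, by group⟩
      have := V_cases X (h (hprod y hy hyN))
      simpa using this
  have h2 := Set.ncard_le_ncard h1 (Set.toFinite _)
  have h3 : (E X : Set G).ncard = 1024 := card_E X
  have h4 : ({1, d1, d2, d1 * d2} : Set G).ncard ≤ 4 := by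
    refine (Set.ncard_insert_le _ _).trans (Nat.succ_le_succ ?_)
    refine (Set.ncard_insert_le _ _).trans (Nat.succ_le_succ ?_)
    refine (Set.ncard_insert_le _ _).trans (Nat.succ_le_succ ?_)
    rw [Set.ncard_singleton]
  have h5 := Set.ncard_union_le ({1, d1, d2, d1 * d2} : Set G) ((fun y => y * x0⁻¹) '' {1, d1, d2, d1 * d2})
  have h6 := Set.ncard_image_le (f := fun y => y * x0⁻¹) (Set.toFinite ({1, d1, d2, d1 * d2} : Set G))
  omega

/-- an element of the radical exchanging the pair -/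
theorem exists_swap (hE : D.ncard = 3510) (hout : ∃ φ : MulAut G, ∀ g : G, MulAut.conj g ≠ φ) : ∃ φ ∈ Q X hst, φ d1 = d2 ∧ φ d2 = d1 := by
  have hfin : Finite (MulAut G) := finite_aut
  by_contra hcon
  push Not at hcon
  have h1 : Q X hst ≤ (E X).map (MulAut.conj : G →* MulAut G) := by
    intro φ hφ
    rcases Q_cases X hst hE hφ with ⟨e, he, rfl⟩ | ⟨a, b⟩
    · exact ⟨e, he, rfl⟩
    · exact absurd b (hcon φ hφ a)
  have h2 := Subgroup.card_le_of_le h1
  rw [card_Q X hst hE hout] at h2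
  have h3 : Nat.card ↥((E X).map (MulAut.conj : G →* MulAut G)) ≤ 1024 := by
    rw [← card_E X]
    exact Nat.card_le_card_of_surjective _ ((MulAut.conj : G →* MulAut G).subgroupMap_surjective (E X))
  omega

theorem Q_comm (hE : D.ncard = 3510) {φ ψ : MulAut G} (hφ : φ ∈ Q X hst) (hψ : ψ ∈ Q X hst) :
    φ * ψ = ψ * φ ∨ φ * ψ = ψ * φ * MulAut.conj (d1 * d2) := by
  have hjc : ∀ χ ∈ Q X hst, χ * MulAut.conj (d1 * d2) = MulAut.conj (d1 * d2) * χ := by
    intro χ hχ
    exact Subgroup.mem_centralizer_singleton_iff.1 (Q_le X hst hχ)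
  have key : ∀ χ ∈ Q X hst, ∀ e ∈ E X, χ * MulAut.conj e = MulAut.conj e * χ ∨ χ * MulAut.conj e = MulAut.conj e * χ * MulAut.conj (d1 * d2) := by
    intro χ hχ e he
    have h1 := conj_map χ e
    have h2 : χ * MulAut.conj e = MulAut.conj (χ e) * χ := mul_inv_eq_iff_eq_mul.1 h1
    rw [h2]
    rcases Q_E X hst hE hχ he with h3 | h3
    · left; rw [h3]
    · right; rw [h3, map_mul, mul_assoc, ← hjc χ hχ, mul_assoc]
  rcases Q_cases X hst hE hψ with ⟨e, he, rfl⟩ | ⟨a, b⟩
  · exact key φ hφ e he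
  rcases Q_cases X hst hE hφ with ⟨e, he, rfl⟩ | ⟨a', b'⟩
  · rcases key ψ hψ e he with h | h
    · left; exact h.symm
    · right
      have hjj : MulAut.conj (d1 * d2) * MulAut.conj (d1 * d2) = (1 : MulAut G) := by rw [← map_mul, jj X, map_one]
      rw [h, mul_assoc, hjj, mul_one]
  · -- both exchange the pair
    have hq : φ⁻¹ * ψ ∈ Q X hst := (Q X hst).mul_mem ((Q X hst).inv_mem hφ) hψ
    obtain ⟨e, he, hee⟩ := Q_fix X hst hE hq (by
      rw [MulAut.mul_apply, a, ← a', MulAut.inv_apply_self])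
    have hψe : ψ = φ * MulAut.conj e := by rw [← hee]; group
    have hjj : MulAut.conj (d1 * d2) * MulAut.conj (d1 * d2) = (1 : MulAut G) := by rw [← map_mul, jj X, map_one]
    rcases key φ hφ e he with h | h
    · left
      rw [hψe]
      calc φ * (φ * MulAut.conj e) = φ * (MulAut.conj e * φ) := by rw [h]
        _ = _ := by group
    · right
      rw [hψe]
      calc φ * (φ * MulAut.conj e) = φ * (MulAut.conj e * φ * MulAut.conj (d1 * d2)) := by rw [h]
        _ = _ := by group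

/-- centralizer of the radical -/
theorem cent_Q (hE : D.ncard = 3510) (hout : ∃ φ : MulAut G, ∀ g : G, MulAut.conj g ≠ φ) {φ : MulAut G}
    (h : ∀ ψ ∈ Q X hst, φ * ψ = ψ * φ) : φ = 1 ∨ φ = MulAut.conj (d1 * d2) := by
  have hK := X.pol.card
  have hfix : ∀ e ∈ E X, φ e = e := by
    intro e he
    apply conj_inj X
    rw [← conj_map, h _ ((conj_mem_Q X hst).2 he), mul_inv_cancel_right]
  have f1 : φ d1 = d1 := hfix _ (V_le_E X (Subgroup.subset_closure (by simp)))
  have f2 : φ d2 = d2 := hfix _ (V_le_E X (Subgroup.subset_closure (by simp)))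
  obtain ⟨g, hg⟩ := inner_of X hE hst φ f1 (by
    intro x y hx hxu hy hxy
    by_cases hli : LinearIndependent K ![x, u]
    · have i1 := iso_add X hx hxu hli 1
      have hp := hfix _ (pair_mem X hx hxu hli 1)
      have hc : τ x ∈ C D (τ (x + (1 : K) • u)) := by
        refine ⟨(X.pol.mem _ hx).1, ?_, ?_⟩
        · intro he
          obtain ⟨s, hs⟩ := (X.pol.inj _ _ i1 hx).1 he.symm
          rw [LinearIndependent.pair_iff] at hli
          have h3 := hli (1 - s) 1 (by
            rw [sub_smul, one_smul K x]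
            have : x + (1 : K) • u - s • x = 0 := by rw [hs, sub_self]
            rw [← this]; abel)
          exact one_ne_zero h3.2
        · rw [X.pol.comm _ _ i1 hx, B_add_left, B_smul_left, hx.2, B_symm_zero hK hxu]; ring
      rcases pairA X hst hE (X.pol.mem _ i1).1 hc hp with h1 | h1
      · obtain ⟨s, hs⟩ := (X.pol.inj _ _ hy hx).1 (by rw [← hxy, h1.2])
        exact ⟨s, 0, by rw [hs, zero_smul, add_zero]⟩
      · obtain ⟨s, hs⟩ := (X.pol.inj _ _ hy i1).1 (by rw [← hxy, h1.2])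
        exact ⟨s, s, by rw [hs, smul_add, one_smul]⟩
    · have h1 : τ x = τ u := by
        by_contra hne
        exact hli (indep_of_ne X.triC X.pol hx X.iu hne)
      obtain ⟨a, ha⟩ := (X.pol.inj _ _ hy X.iu).1 (by rw [← hxy, h1, X.tu, f2])
      exact ⟨0, a, by rw [zero_smul, zero_add, ha]⟩)
  have hgV := cent_E X (c := g) (by
    intro y hy
    have h1 := hfix y hy
    rw [← hg, MulAut.conj_apply] at h1
    exact mul_inv_eq_iff_eq_mul.1 h1)
  obtain ⟨ψ, hψ, p1, p2⟩ := exists_swap X hst hE hout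
  have hψg : ψ g = g := by
    apply conj_inj X
    rw [← conj_map, hg, ← h ψ hψ, mul_inv_cancel_right]
  rcases V_cases X hgV with h1 | h1 | h1 | h1
  · left; rw [← hg, h1, map_one]
  · exfalso
    rw [h1, p1] at hψg
    exact X.h2.2.1 hψg
  · exfalso
    rw [h1, p2] at hψg
    exact X.h2.2.1 hψg.symm
  · right; rw [← hg, h1]

end dat
end H43.FJk
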