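import Mathlib
import Cfsg.Prelude.Def_MonsterType
import Cfsg.Agent.Lib.H43.FJk

/-!
The radical of the centralizer of `d₁d₂` in the automorphism group is a large extraspecial group: conclusion.
-/

set_option autoImplicit false
set_option linter.unusedSectionVars false
set_option linter.unusedVariables false
set_option linter.style.haveILetI false
open Cfsg Matrix

namespace H43.FJl
open H92.Herm H92.UTransv H92.PV H92.UInvol H92.PolPSU H92.Tri H92.Pol H92.Lev H92.Types H92.RelList H92.Geo H92.Inv H92.Setup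
open H92.Simple H92.M22 H92.M23 H92.M23b H43.FJa H43.FJb H43.FJc H43.FJd H43.FJe H43.FJg H92.Exact1 H92.Exact1c H92.AutC H92.Out22 H43.FJh
open H43.FJi H43.FJj H43.FJk

variable {G : Type*} [Group G]

section dat
variable [Finite G] {D : Set G} {d1 d2 : G} {K : Type} [Field K] [Fintype K] {τ : (Fin 6 → K) → G} {u v : Fin 6 → K} {b : Fin 4 → Fin 6 → K}
  {f : ↥(Subgroup.centralizer ({d1, d2} : Set G)) →* ↥(S0 u)} (X : Dat D d1 d2 τ u v b f) (hst : ∀ φ : MulAut G, ∀ d ∈ D, φ d ∈ D)
include X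

theorem cj_ne : MulAut.conj (d1 * d2) ≠ (1 : MulAut G) := by
  intro h
  exact j_ne X (conj_inj X (h.trans (map_one _).symm))

theorem cjj : MulAut.conj (d1 * d2) * MulAut.conj (d1 * d2) = (1 : MulAut G) := by rw [← map_mul, jj X, map_one]

include hst

theorem cj_mem : MulAut.conj (d1 * d2) ∈ Q X hst := (conj_mem_Q X hst).2 (jE X)

variable (hE : D.ncard = 3510) (hout : ∃ φ : MulAut G, ∀ g : G, MulAut.conj g ≠ φ)
include hE hout

theorem mem_center (z : ↥(Q X hst)) : z ∈ Subgroup.center ↥(Q X hst) ↔ (z : MulAut G) = 1 ∨ (z : MulAut G) = MulAut.conj (d1 * d2) := by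
  constructor
  · intro hz
    apply cent_Q X hst hE hout
    intro ψ hψ
    have := Subgroup.mem_center_iff.1 hz ⟨ψ, hψ⟩
    exact (congrArg Subtype.val this).symm
  · intro hz
    rw [Subgroup.mem_center_iff]
    intro g
    apply Subtype.ext
    show (g : MulAut G) * (z : MulAut G) = (z : MulAut G) * (g : MulAut G)
    rcases hz with h | h
    · rw [h, one_mul, mul_one]
    · rw [h]
      exact Subgroup.mem_centralizer_singleton_iff.1 (Q_le X hst g.2)

theorem card_center : Nat.card ↥(Subgroup.center ↥(Q X hst)) = 2 := by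
  have hfin : Finite (MulAut G) := finite_aut
  have hz2 : (⟨MulAut.conj (d1 * d2), cj_mem X hst⟩ : ↥(Q X hst)) * ⟨MulAut.conj (d1 * d2), cj_mem X hst⟩ = 1 := Subtype.ext (cjj X)
  have e1 : Subgroup.center ↥(Q X hst) = Subgroup.zpowers (⟨MulAut.conj (d1 * d2), cj_mem X hst⟩ : ↥(Q X hst)) := by
    apply le_antisymm
    · intro z hz
      rcases (mem_center X hst hE hout z).1 hz with h | h
      · have : z = 1 := Subtype.ext h
        rw [this]; exact Subgroup.one_mem _
      · have : z = ⟨MulAut.conj (d1 * d2), cj_mem X hst⟩ := Subtype.ext h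
        rw [this]; exact Subgroup.mem_zpowers _
    · rw [Subgroup.zpowers_le, mem_center X hst hE hout]
      exact Or.inr rfl
  rw [e1, Nat.card_zpowers]
  haveI : Fact (Nat.Prime 2) := ⟨Nat.prime_two⟩
  apply orderOf_eq_prime
  · rw [pow_two]; exact hz2
  · intro h
    exact cj_ne X (congrArg Subtype.val h)

theorem center_map : (Subgroup.center ↥(Q X hst)).map (Q X hst).subtype = Subgroup.zpowers (MulAut.conj (d1 * d2)) := by
  ext φ
  constructor
  · rintro ⟨z, hz, rfl⟩
    rcases (mem_center X hst hE hout z).1 hz with h | h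
    · show (z : MulAut G) ∈ _
      rw [h]; exact Subgroup.one_mem _
    · show (z : MulAut G) ∈ _
      rw [h]; exact Subgroup.mem_zpowers _
  · intro h
    have hle : Subgroup.zpowers (MulAut.conj (d1 * d2)) ≤ (Subgroup.center ↥(Q X hst)).map (Q X hst).subtype := by
      rw [Subgroup.zpowers_le]
      exact ⟨⟨MulAut.conj (d1 * d2), cj_mem X hst⟩, (mem_center X hst hE hout _).2 (Or.inr rfl), rfl⟩
    exact hle h

theorem extra : IsExtraspecial 2 ↥(Q X hst) := by
  have hfin : Finite (MulAut G) := finite_aut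
  haveI : Fact (Nat.Prime 2) := ⟨Nat.prime_two⟩
  have hle : commutator ↥(Q X hst) ≤ Subgroup.center ↥(Q X hst) := by
    rw [commutator_def, Subgroup.commutator_le]
    intro a _ b _
    rw [mem_center X hst hE hout, commutatorElement_def]
    show (a : MulAut G) * (b : MulAut G) * (a : MulAut G)⁻¹ * (b : MulAut G)⁻¹ = 1 ∨ (a : MulAut G) * (b : MulAut G) * (a : MulAut G)⁻¹ * (b : MulAut G)⁻¹ = MulAut.conj (d1 * d2)
    have hjc : ∀ χ ∈ Q X hst, χ * MulAut.conj (d1 * d2) = MulAut.conj (d1 * d2) * χ := by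
      intro χ hχ
      exact Subgroup.mem_centralizer_singleton_iff.1 (Q_le X hst hχ)
    rcases Q_comm X hst hE a.2 b.2 with h | h
    · left; rw [h]; group
    · right
      rw [h, hjc _ ((Q X hst).mul_mem b.2 a.2)]
      group
  have hzc := card_center X hst hE hout
  exact H3.Extraspecial.isExtraspecial_of hle hzc (H3.ExtraspecialUnique.exists_noncomm_of_card hzc (by rw [card_Q X hst hE hout]; norm_num))

theorem cent_eq : Subgroup.centralizer ((Q X hst : Subgroup (MulAut G)) : Set (MulAut G)) = (Subgroup.center ↥(Q X hst)).map (Q X hst).subtype := by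
  apply le_antisymm
  · intro φ hφ
    rw [Subgroup.mem_centralizer_iff] at hφ
    rw [center_map X hst hE hout]
    rcases cent_Q X hst hE hout (fun ψ hψ => (hφ ψ hψ).symm) with h | h
    · rw [h]; exact Subgroup.one_mem _
    · rw [h]; exact Subgroup.mem_zpowers _
  · rintro φ ⟨z, hz, rfl⟩
    rw [Subgroup.mem_centralizer_iff]
    intro ψ hψ
    have := Subgroup.mem_center_iff.1 hz ⟨ψ, hψ⟩
    exact congrArg Subtype.val this

theorem cent_center : Subgroup.centralizer ((((Subgroup.center ↥(Q X hst)).map (Q X hst).subtype : Subgroup (MulAut G))) : Set (MulAut G)) = CA d1 d2 := by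
  rw [center_map X hst hE hout]
  apply le_antisymm
  · exact Subgroup.centralizer_le (Set.singleton_subset_iff.2 (Subgroup.mem_zpowers _))
  · intro φ hφ
    rw [Subgroup.mem_centralizer_singleton_iff] at hφ
    rw [Subgroup.mem_centralizer_iff]
    intro ψ hψ
    obtain ⟨k, rfl⟩ := Subgroup.mem_zpowers_iff.1 hψ
    have : Commute φ (MulAut.conj (d1 * d2)) := hφ
    exact (this.zpow_right k).symm

theorem norm_Q : CA d1 d2 ≤ Subgroup.normalizer ((Q X hst : Subgroup (MulAut G)) : Set (MulAut G)) := by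
  intro φ hφ
  rw [Subgroup.mem_normalizer_iff]
  intro ψ
  constructor
  · intro hψ; exact Q_conj X hst hφ hψ
  · intro hψ
    have := Q_conj X hst ((CA d1 d2).inv_mem hφ) hψ
    have e : φ⁻¹ * (φ * ψ * φ⁻¹) * φ⁻¹⁻¹ = ψ := by group
    rwa [e] at this

theorem pgroup_Q : IsPGroup 2 ↥(Q X hst) := by
  have hfin : Finite (MulAut G) := finite_aut
  apply IsPGroup.of_card (n := 11)
  rw [card_Q X hst hE hout]; norm_num

/-- no subgroup of odd order -/
theorem odd_bot (O : Subgroup (MulAut G)) (hodd : Odd (Nat.card O)) (hQO : Q X hst ≤ Subgroup.normalizer (O : Set (MulAut G))) : O = ⊥ := by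
  have hfin : Finite (MulAut G) := finite_aut
  have hnorm : ∀ ψ ∈ Q X hst, ∀ k ∈ O, ψ * k * ψ⁻¹ ∈ O := fun ψ hψ k hk => (Subgroup.mem_normalizer_iff.1 (hQO hψ) k).1 hk
  have hcj := cj_mem X hst
  -- the part commuting with j
  have f2 : ∀ k ∈ O, MulAut.conj (d1 * d2) * k = k * MulAut.conj (d1 * d2) → k = 1 := by
    have h1 : O ⊓ CA d1 d2 = ⊥ := by
      apply H91.LargeExtra.eq_bot_of_le_centralizer (pgroup_Q X hst hE hout) (cent_eq X hst hE hout)
        ((cent_center X hst hE hout).le.trans (norm_Q X hst hE hout))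
      · exact Odd.of_dvd_nat hodd (Subgroup.card_dvd_of_le inf_le_left)
      · intro ψ hψ
        rw [Subgroup.mem_normalizer_iff]
        intro k
        have hψC := Q_le X hst hψ
        constructor
        · rintro ⟨h1, h2⟩
          exact ⟨hnorm ψ hψ k h1, (CA d1 d2).mul_mem ((CA d1 d2).mul_mem hψC h2) ((CA d1 d2).inv_mem hψC)⟩
        · rintro ⟨h1, h2⟩
          have e : ψ⁻¹ * (ψ * k * ψ⁻¹) * ψ⁻¹⁻¹ = k := by group
          refine ⟨?_, ?_⟩
          · have := hnorm ψ⁻¹ ((Q X hst).inv_mem hψ) _ h1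
            rwa [e] at this
          · have := (CA d1 d2).mul_mem ((CA d1 d2).mul_mem ((CA d1 d2).inv_mem hψC) h2) ((CA d1 d2).inv_mem ((CA d1 d2).inv_mem hψC))
            rwa [e] at this
      · rw [cent_center X hst hE hout]; exact inf_le_right
    intro k hk hkj
    have : k ∈ O ⊓ CA d1 d2 := ⟨hk, Subgroup.mem_centralizer_singleton_iff.2 hkj.symm⟩
    rw [h1] at this
    exact Subgroup.mem_bot.1 this
  -- elements of order dividing four
  have h4 : ∀ k ∈ O, k ^ 4 = 1 → k = 1 := by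
    intro k hk hk4
    have h1 : orderOf k ∣ 4 := orderOf_dvd_of_pow_eq_one hk4
    have h2 : orderOf k ∣ Nat.card O := by
      have := orderOf_dvd_natCard (⟨k, hk⟩ : ↥O)
      rwa [Subgroup.orderOf_mk] at this
    have h3 : Nat.Coprime 4 (Nat.card O) := by
      have : Nat.Coprime 2 (Nat.card O) := (Nat.coprime_two_left).2 hodd
      exact Nat.Coprime.pow_left 2 this
    have h5 : orderOf k ∣ 1 := by
      have := Nat.dvd_gcd h1 h2
      rwa [h3.gcd_eq_one] at this
    exact orderOf_eq_one_iff.1 (Nat.dvd_one.1 h5)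
  -- the part commuting with a conjugate of j
  have f1 : ∀ e : G, (∃ g : G, g * e * g⁻¹ = d1 * d2 ∧ g * (d1 * d2) * g⁻¹ ∈ E X) → ∀ k ∈ O, MulAut.conj e * k = k * MulAut.conj e → k = 1 := by
    rintro e ⟨g, hg1, hg2⟩ k hk hke
    have hkfix : k e = e := by
      apply conj_inj X
      rw [← conj_map, ← hke, mul_inv_cancel_right]
    set k' : MulAut G := MulAut.conj g * k * (MulAut.conj g)⁻¹ with hk'
    have hk'C : k' ∈ CA d1 d2 := by
      rw [mem_CA X, ← hg1, hk', MulAut.mul_apply, MulAut.mul_apply, ← map_inv, MulAut.conj_apply, MulAut.conj_apply]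
      have : g⁻¹ * (g * e * g⁻¹) * g⁻¹⁻¹ = e := by group
      rw [this, hkfix]
    have hy : k' (g * (d1 * d2) * g⁻¹) * (g * (d1 * d2) * g⁻¹)⁻¹ ∈ E X :=
      (E X).mul_mem (Q_map_E X hst hk'C hg2) ((E X).inv_mem hg2)
    have hy4 : (k' (g * (d1 * d2) * g⁻¹) * (g * (d1 * d2) * g⁻¹)⁻¹) ^ 4 = 1 := by
      have h1 := E_sq_cases X hE hy
      have e4 : ∀ y : G, y ^ 4 = (y * y) * (y * y) := fun y => by
        rw [show (4 : ℕ) = 2 * 2 from rfl, pow_mul, pow_two, pow_two]
      rw [e4]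
      rcases h1 with h1 | h1
      · rw [h1, one_mul]
      · rw [h1, jj X]
    have hkk : k * MulAut.conj (d1 * d2) * k⁻¹ * (MulAut.conj (d1 * d2))⁻¹ = MulAut.conj (g⁻¹ * (k' (g * (d1 * d2) * g⁻¹) * (g * (d1 * d2) * g⁻¹)⁻¹) * g) := by
      have e1 : MulAut.conj (g⁻¹ * (k' (g * (d1 * d2) * g⁻¹) * (g * (d1 * d2) * g⁻¹)⁻¹) * g) =
          (MulAut.conj g)⁻¹ * (MulAut.conj (k' (g * (d1 * d2) * g⁻¹)) * (MulAut.conj (g * (d1 * d2) * g⁻¹))⁻¹) * MulAut.conj g := by
        simp only [map_mul, map_inv]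
      rw [e1, ← conj_map, hk']
      simp only [map_mul, map_inv]
      group
    have hkO : k * MulAut.conj (d1 * d2) * k⁻¹ * (MulAut.conj (d1 * d2))⁻¹ ∈ O := by
      have e1 : k * MulAut.conj (d1 * d2) * k⁻¹ * (MulAut.conj (d1 * d2))⁻¹ = k * (MulAut.conj (d1 * d2) * k⁻¹ * (MulAut.conj (d1 * d2))⁻¹) := by group
      rw [e1]
      exact O.mul_mem hk (hnorm _ hcj _ (O.inv_mem hk))
    have h5 := h4 _ hkO (by
      rw [hkk, ← map_pow]
      have e2 : ∀ y : G, (g⁻¹ * y * g) ^ 4 = g⁻¹ * y ^ 4 * g := by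
        intro y
        have := conj_pow (i := 4) (a := g⁻¹) (b := y)
        rw [inv_inv] at this
        exact this
      rw [e2, hy4, mul_one, inv_mul_cancel, map_one])
    apply f2 k hk
    have h6 : k * MulAut.conj (d1 * d2) * k⁻¹ = MulAut.conj (d1 * d2) := mul_inv_eq_one.1 h5
    exact (mul_inv_eq_iff_eq_mul.1 h6).symm
  obtain ⟨p, hr, hp⟩ := exists_hexad X
  have hr' : Rel D [d1, d2, p 2, p 3, p 0, p 1] := by
    have hperm : [d1, d2, p 2, p 3, p 0, p 1].Perm [d1, d2, p 0, p 1, p 2, p 3] := by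
      apply List.Perm.cons
      apply List.Perm.cons
      have : [p 2, p 3, p 0, p 1] = [p 2, p 3] ++ [p 0, p 1] := rfl
      rw [this]
      exact List.perm_append_comm
    have hpc : [d1, d2, p 2, p 3, p 0, p 1].Pairwise Commute := by
      apply List.pairwise_of_forall_mem_list
      intro a ha c hc
      exact hr.comm a (hperm.mem_iff.1 ha) c (hperm.mem_iff.1 hc)
    refine ⟨hperm.nodup_iff.2 hr.nodup, fun x hx => hr.mem x (hperm.mem_iff.1 hx),
      fun x hx y hy => hr.comm x (hperm.mem_iff.1 hx) y (hperm.mem_iff.1 hy), ?_⟩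
    intro e he
    rw [hperm.prod_eq' hpc]
    exact hr.cent e he
  have g1 := swap_hex X hr hp
  have g2 := swap_hex X (p := ![p 2, p 3, p 0, p 1]) hr' (by
    intro i j
    fin_cases i <;> fin_cases j <;> exact hp _ _)
  have g2' : ∃ g : G, g * (p 2 * p 3) * g⁻¹ = d1 * d2 ∧ g * (d1 * d2) * g⁻¹ ∈ E X := g2
  have hprod : d1 * (d2 * (p 0 * (p 1 * (p 2 * p 3)))) = 1 := by
    have h6 := H92.QS.central_one X.cl X.Z _ hr.cent
    simpa using h6
  have hpp : p 0 * p 1 * (d1 * d2) = p 2 * p 3 := by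
    have hj := jcomm X (hp 0 1)
    have sp : (p 0 * p 1) * (p 0 * p 1) = 1 := by
      have c01 : Commute (p 0) (p 1) := hr.comm _ (by simp) _ (by simp)
      have s0 := X.tri.sq (p 0) (hr.mem _ (by simp))
      have s1 := X.tri.sq (p 1) (hr.mem _ (by simp))
      calc (p 0 * p 1) * (p 0 * p 1) = p 0 * (p 1 * p 0) * p 1 := by group
        _ = (p 0 * p 0) * (p 1 * p 1) := by rw [← c01.eq]; group
        _ = 1 := by rw [s0, s1, one_mul]
    calc p 0 * p 1 * (d1 * d2) = (p 0 * p 1 * (d1 * d2)) * 1 := by rw [mul_one]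
      _ = (d1 * d2 * (p 0 * p 1)) * (d1 * (d2 * (p 0 * (p 1 * (p 2 * p 3))))) := by rw [hprod, hj]
      _ = (d1 * d2) * ((p 0 * p 1) * (d1 * d2)) * ((p 0 * p 1) * (p 2 * p 3)) := by group
      _ = (d1 * d2 * (d1 * d2)) * ((p 0 * p 1) * (p 0 * p 1)) * (p 2 * p 3) := by rw [hj]; group
      _ = p 2 * p 3 := by rw [jj X, sp, one_mul, one_mul]
  have hp01 : MulAut.conj (p 0 * p 1) ∈ Q X hst := (conj_mem_Q X hst).2 (hp 0 1)
  have hss : MulAut.conj (p 0 * p 1) * MulAut.conj (p 0 * p 1) = (1 : MulAut G) := by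
    have c01 : Commute (p 0) (p 1) := hr.comm _ (by simp) _ (by simp)
    have s0 := X.tri.sq (p 0) (hr.mem _ (by simp))
    have s1 := X.tri.sq (p 1) (hr.mem _ (by simp))
    rw [← map_mul]
    have : (p 0 * p 1) * (p 0 * p 1) = 1 := by
      calc (p 0 * p 1) * (p 0 * p 1) = p 0 * (p 1 * p 0) * p 1 := by group
        _ = (p 0 * p 0) * (p 1 * p 1) := by rw [← c01.eq]; group
        _ = 1 := by rw [s0, s1, one_mul]
    rw [this, map_one]
  apply H91.LargeAbs.eq_bot_of_four hodd (s := MulAut.conj (p 0 * p 1)) (t := MulAut.conj (d1 * d2)) hss (cjj X)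
    (by rw [← map_mul, ← map_mul, jcomm X (hp 0 1)]) (fun k hk => hnorm _ hp01 k hk) (fun k hk => hnorm _ hcj k hk)
    (fun k hk h => f1 _ g1 k hk h) f2
  intro k hk h
  rw [← map_mul, hpp] at h
  exact f1 _ g2' k hk h

theorem large : IsLargeExtraspecial (Q X hst) :=
  ⟨extra X hst hE hout, cent_eq X hst hE hout, (cent_center X hst hE hout).le.trans (norm_Q X hst hE hout), fun O h1 h2 => odd_bot X hst hE hout O h1 h2⟩

theorem gFit : generalizedFittingSubgroup ↥(CA d1 d2) = (Q X hst).subgroupOf (CA d1 d2) := by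
  have hfin : Finite (MulAut G) := finite_aut
  have hK := X.pol.card
  have hp : IsPGroup 2 ↥(AA X hst).ker := by
    rw [← Q_sub X hst]
    exact (pgroup_Q X hst hE hout).of_equiv (Subgroup.subgroupOfEquivOfLe (Q_le X hst)).symm
  apply H58.J2Q.gFitting_eq_of
  · rw [Q_sub]; infer_instance
  · exact (pgroup_Q X hst hE hout).of_equiv (Subgroup.subgroupOfEquivOfLe (Q_le X hst)).symm
  · intro c hc
    rw [Subgroup.mem_subgroupOf]
    rcases cent_Q X hst hE hout (φ := (c : MulAut G)) (by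
      intro ψ hψ
      rw [Subgroup.mem_centralizer_iff] at hc
      have := hc ⟨ψ, Q_le X hst hψ⟩ (by
        show _ ∈ (Q X hst).subgroupOf _
        rw [Subgroup.mem_subgroupOf]; exact hψ)
      exact (congrArg Subtype.val this).symm) with h | h
    · rw [h]; exact Subgroup.one_mem _
    · rw [h]; exact cj_mem X hst
  · rw [Q_sub]
    have h1 : pCore 2 (MulAut (SU 4 K 2)) = ⊥ := by
      apply pCore_mulAut (simple_SU4 hK) (center_SU4 hK)
      intro h
      haveI : Fact (Nat.Prime 2) := ⟨Nat.prime_two⟩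
      obtain ⟨n, hn⟩ := IsPGroup.iff_card.1 h
      rw [card_SU4 hK] at hn
      have : 5 ∣ 2 ^ n := by rw [← hn]; norm_num
      have := Nat.Prime.dvd_of_dvd_pow (by norm_num) this
      norm_num at this
    exact (H91.LargeAbs.pCore_eq_ker (AA X hst) (AA_surj X hst) h1 hp).le

omit hE hout in
theorem quot (h : ((Q X hst).subgroupOf (CA d1 d2)).Normal) : Nonempty (↥(CA d1 d2) ⧸ (Q X hst).subgroupOf (CA d1 d2) ≃* MulAut (PSU 4 K 2)) :=
  ⟨((QuotientGroup.quotientMulEquivOfEq (Q_sub X hst)).trans (QuotientGroup.quotientKerEquivOfSurjective (AA X hst) (AA_surj X hst))).trans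
    (MulAut.congr (psuEquiv X.pol.card).symm)⟩

end dat

theorem exists_outer (hcard : Nat.card (Out G) = 2) : ∃ φ : MulAut G, ∀ g : G, MulAut.conj g ≠ φ := by
  by_contra hcon
  push Not at hcon
  have h1 : Inn G = ⊤ := by
    rw [eq_top_iff]
    intro φ _
    exact hcon φ
  have : Subsingleton (Out G) := by
    rw [show Out G = (MulAut G ⧸ Inn G) from rfl, h1]
    exact QuotientGroup.subsingleton_quotient_top
  rw [Nat.card_of_subsingleton (1 : Out G)] at hcard
  norm_num at hcard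

theorem outer_congr {H : Type*} [Group H] (e : G ≃* H) (h : ∃ φ : MulAut G, ∀ g : G, MulAut.conj g ≠ φ) :
    ∃ φ : MulAut H, ∀ g : H, MulAut.conj g ≠ φ := by
  obtain ⟨φ, hφ⟩ := h
  refine ⟨MulAut.congr e φ, ?_⟩
  intro g hg
  apply hφ (e.symm g)
  apply MulEquiv.ext
  intro x
  have h1 := congrArg (fun q : MulAut H => e.symm (q (e x))) hg
  simp only [MulAut.conj_apply, map_mul, map_inv, MulEquiv.symm_apply_apply] at h1
  rw [MulAut.conj_apply, h1]
  simp [MulAut.congr]

end H43.FJl
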