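import Cfsg.Agent.Lib.H43.J4M
import Cfsg.Agent.Lib.H43.J4B.Main
import Cfsg.Agent.Lib.H9.MultM24

/-! The subgroup generated by `x` and `y` in a group with the relations of J4 is M24. -/

set_option autoImplicit false
set_option maxRecDepth 100000

noncomputable section

open scoped Pointwise

namespace H43.J4Arg

open Cfsg H8.GolayCode H8.GolayCount H8.GolayBasic H8.M24Mem H8.M24Chain H32.M24Kit H43.J4M H34.TC

universe u

/-! ### trios -/

theorem fs_oct {m : ℕ} (h1 : m < 2 ^ 24) (h2 : cw (m % 4096) = m) (h3 : pop m = 8) : fs m ∈ octads :=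
  ⟨fs_mem_GS h1 h2, by rw [card_fs h1]; exact h3⟩

theorem T0_mem : T0 ∈ trios := by
  have h1 : fs m1 ∈ octads := fs_oct (by norm_num [m1]) (by decide +kernel) (by decide +kernel)
  have h2 : fs m2 ∈ octads := fs_oct (by norm_num [m2]) (by decide +kernel) (by decide +kernel)
  have h3 : fs m3 ∈ octads := fs_oct (by norm_num [m3]) (by decide +kernel) (by decide +kernel)
  have n12 : fs m1 ≠ fs m2 := fun h => by
    have := fs_inj (by norm_num [m1]) (by norm_num [m2]) h
    revert this; decide
  have n13 : fs m1 ≠ fs m3 := fun h => by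
    have := fs_inj (by norm_num [m1]) (by norm_num [m3]) h
    revert this; decide
  have n23 : fs m2 ≠ fs m3 := fun h => by
    have := fs_inj (by norm_num [m2]) (by norm_num [m3]) h
    revert this; decide
  have hd : ∀ m n : ℕ, m &&& n = 0 → Disjoint (fs m) (fs n) := by
    intro m n h
    rw [Finset.disjoint_iff_inter_eq_empty, fs_inter, h]
    ext p
    simp [mem_fs]
  refine ⟨?_, ?_, ?_⟩
  · unfold T0
    rw [Finset.card_insert_of_notMem, Finset.card_insert_of_notMem, Finset.card_singleton]
    · simpa using n23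
    · simp [n12, n13]
  · intro o ho
    simp only [T0, Finset.mem_insert, Finset.mem_singleton] at ho
    rcases ho with rfl | rfl | rfl
    · exact h1
    · exact h2
    · exact h3
  · intro o ho o' ho' hne
    simp only [T0, Finset.mem_insert, Finset.mem_singleton] at ho ho'
    rcases ho with rfl | rfl | rfl <;> rcases ho' with rfl | rfl | rfl
    · exact absurd rfl hne
    · exact hd _ _ (by decide)
    · exact hd _ _ (by decide)
    · exact hd _ _ (by decide)
    · exact absurd rfl hne
    · exact hd _ _ (by decide)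
    · exact hd _ _ (by decide)
    · exact hd _ _ (by decide)
    · exact absurd rfl hne

theorem index_stab : (MulAction.stabilizer M24 T0).index = 3795 := by
  rw [MulAction.index_stabilizer]
  have : MulAction.orbit M24 T0 = trios := by
    ext U
    constructor
    · rintro ⟨g, rfl⟩
      exact H94.M24Forest.invTr g _ T0_mem
    · intro hU
      obtain ⟨g, hg⟩ := H94.M24Forest.trios_trans _ T0_mem _ hU
      exact ⟨g, hg⟩
  rw [this, H32.Octad.trios_ncard]

/-- a table permuting the three masks stabilises the trio -/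
theorem stab_of {c : ℕ} (h : okTab c = true)
    (h' : ({actN (tab c) m1, actN (tab c) m2, actN (tab c) m3} : Finset ℕ) = {m1, m2, m3}) :
    (⟨pm c, pm_mem c⟩ : M24) ∈ MulAction.stabilizer M24 T0 := by
  rw [MulAction.mem_stabilizer_iff, H94.M24Forest.smul_fam_eq]
  have h1 : T0 = ({m1, m2, m3} : Finset ℕ).image fs := by simp [T0]
  have h2 : T0.image (fun t => (⟨pm c, pm_mem c⟩ : M24) • t) =
      ({actN (tab c) m1, actN (tab c) m2, actN (tab c) m3} : Finset ℕ).image fs := by
    have e : ∀ n, pm c • fs n = fs (actN (tab c) n) := fun n => image_fs h n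
    simp [T0, e]
  rw [h2, h', ← h1]

/-! ### small group theory -/

section comm

variable {G : Type*} [Group G]

theorem comm_trivial {x y : G} (hc : Commute x y) (hx : x * x = 1) (hy : y ^ 3 = 1) (hxy : (x * y) ^ 23 = 1) :
    x = 1 ∧ y = 1 := by
  have hx2 : x ^ 2 = 1 := by rw [pow_two]; exact hx
  have h1 : x ^ 23 = x := by
    have : x ^ 23 = (x ^ 2) ^ 11 * x := by group
    rw [this, hx2, one_pow, one_mul]
  have h2 : y ^ 23 = y⁻¹ := by
    have : y ^ 23 = (y ^ 3) ^ 8 * y⁻¹ := by group
    rw [this, hy, one_pow, one_mul]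
  rw [hc.mul_pow, h1, h2, mul_inv_eq_one] at hxy
  subst hxy
  have h3 : x = 1 := by
    have : x ^ 3 = x ^ 2 * x := by group
    rw [this, hx2, one_mul] at hy
    exact hy
  exact ⟨h3, h3⟩

end comm

/-- letters in a group with two distinguished elements -/
def l3 {G : Type*} [Group G] (x y : G) (c : Nat) : G := match c with
  | 0 => x
  | 1 => y
  | 2 => y⁻¹
  | _ => 1

theorem l3_iotaA {G : Type*} [Group G] (x y : G) (hx : x * x = 1) : ∀ g, l3 x y (H43.J4A.iota g) = (l3 x y g)⁻¹
  | 0 => eq_inv_of_mul_eq_one_left hx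
  | 1 => rfl
  | 2 => (inv_inv y).symm
  | _ + 3 => inv_one.symm

theorem l3_iotaB {G : Type*} [Group G] (x y : G) (hx : x * x = 1) : ∀ g, l3 x y (H43.J4B.iota g) = (l3 x y g)⁻¹
  | 0 => eq_inv_of_mul_eq_one_left hx
  | 1 => rfl
  | 2 => (inv_inv y).symm
  | _ + 3 => inv_one.symm

theorem map_l3 {G H : Type*} [Group G] [Group H] (f : G →* H) (x y : G) (w : List Nat) :
    f ((w.map (l3 x y)).prod) = (w.map (l3 (f x) (f y))).prod := by
  rw [map_list_prod, List.map_map]
  congr 1
  apply List.map_congr_left
  intro c _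
  match c with
  | 0 => rfl
  | 1 => rfl
  | 2 => exact map_inv f y
  | _ + 3 => exact map_one f

theorem lM_eq : lM = l3 a b := by
  funext c
  match c with
  | 0 => rfl
  | 1 => rfl
  | 2 => rfl
  | _ + 3 => rfl

theorem gen_of {G : Type*} [Group G] {x y : G} (h : Subgroup.closure ({x, y} : Set G) = ⊤) :
    Subgroup.closure {z | ∃ g < 3, z = l3 x y g} = ⊤ := by
  rw [eq_top_iff, ← h, Subgroup.closure_le]
  rintro z hz
  rw [Set.mem_insert_iff, Set.mem_singleton_iff] at hz
  rcases hz with rfl | rfl
  · exact Subgroup.subset_closure ⟨0, by norm_num, rfl⟩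
  · exact Subgroup.subset_closure ⟨1, by norm_num, rfl⟩

/-- relation words of length two, three and 46 -/
theorem base_small {G : Type*} [Group G] {x y : G} (h : ∀ r ∈ H43.J4A.base, (r.map (l3 x y)).prod = 1) :
    x * x = 1 ∧ y ^ 3 = 1 ∧ (x * y) ^ 23 = 1 := by
  refine ⟨?_, ?_, ?_⟩
  · have := h [0, 0] (by decide)
    simpa [l3] using this
  · have := h [1, 1, 1] (by decide)
    simpa [l3, pow_succ, mul_assoc] using this
  · have h1 := h ((List.replicate 23 [0, 1]).flatten) (by decide)
    have h2 : ∀ n : ℕ, ((((List.replicate n [0, 1]).flatten).map (l3 x y)).prod : G) = (x * y) ^ n := by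
      intro n
      induction n with
      | zero => simp
      | succ n ih =>
        rw [List.replicate_succ, List.flatten_cons, List.map_append, List.prod_append, ih, pow_succ']
        simp [l3]
    rw [h2] at h1
    exact h1

/-- the quotient argument: with the additional relation `(yxyxyxy)^6 = 1` everything is trivial -/
theorem quot_trivial {G : Type*} [Group G] {x y : G} (hgen : Subgroup.closure ({x, y} : Set G) = ⊤)
    (h : ∀ r ∈ H43.J4B.base, (r.map (l3 x y)).prod = 1) : x = 1 ∧ y = 1 := by
  have hA : ∀ r ∈ H43.J4A.base, (r.map (l3 x y)).prod = 1 := by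
    have : (H43.J4A.base.all fun r => H43.J4B.base.contains r) = true := by decide +kernel
    intro r hr
    exact h r (List.contains_iff_mem.1 ((List.all_eq_true.1 this) r hr))
  obtain ⟨h1, h2, h3⟩ := base_small hA
  obtain ⟨hf, hi⟩ := H43.J4B.upper (l3 x y) (Subgroup.zpowers x) (l3_iotaB x y h1) h (gen_of hgen) (by
    intro w hw
    have : w = [0] := by simpa [H43.J4B.hw] using hw
    rw [this]
    simp [wp, l3])
  have h4 : (Subgroup.zpowers x).index = 1 := le_antisymm hi (Nat.one_le_iff_ne_zero.2 hf.index_ne_zero)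
  rw [Subgroup.index_eq_one] at h4
  have h5 : y ∈ Subgroup.zpowers x := by rw [h4]; exact Subgroup.mem_top _
  obtain ⟨k, hk⟩ := h5
  have hc : Commute x y := by
    rw [← hk]; exact (Commute.refl x).zpow_right k
  exact comm_trivial hc h1 h2 h3

end H43.J4Arg
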