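import Cfsg.Agent.Lib.H43.J4RData

set_option autoImplicit false
set_option maxRecDepth 100000

namespace H43.J4R

theorem k4 : chk [1, 0, 1, 0, 2, 0, 2, 0, 1, 0, 1, 0, 2, 0, 2, 0, 1, 0, 1, 0, 2, 0, 2, 0, 1, 0, 1, 0, 2, 0, 2, 0, 1, 0, 1, 0, 2, 0, 2, 0] = true := by decide +kernel

theorem k5 : chk [2, 0, 1, 0, 2, 0, 1, 0, 2, 0, 1, 0, 1, 0, 2, 0, 1, 0, 2, 0, 1, 0, 2, 0, 1, 0, 1, 0, 2, 0, 1, 0, 2, 0, 1, 0, 2, 0, 1, 0, 1, 0, 2, 0, 1, 0, 2, 0, 1, 0, 2, 0, 1, 0, 1, 0] = true := by decide +kernel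

theorem k6 : chk [2, 0, 2, 0, 1, 0, 2, 0, 2, 0, 1, 0, 2, 0, 2, 0, 1, 0, 2, 0, 1, 0, 1, 0, 2, 0, 1, 0, 1, 0, 2, 0, 1, 0, 1, 0] = true := by decide +kernel

theorem k8 : chk [1, 0, 1, 0, 1, 0, 2, 0, 2, 0, 1, 0, 1, 3, 2, 0, 2, 0, 1, 0, 1, 0, 2, 0, 2, 0, 2, 3] = true := by decide +kernel

end H43.J4R
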