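import Cfsg.Agent.Lib.H43.J4RData

set_option autoImplicit false
set_option maxRecDepth 100000

namespace H43.J4R

theorem k9 : chk [0, 3, 0, 3] = true := by decide +kernel

theorem k10 : chk [0, 2, 0, 1, 0, 2, 0, 1, 3, 2, 0, 1, 0, 2, 0, 1, 0, 1, 0, 2, 0, 1, 0, 2, 0, 1, 3, 2, 0, 1, 0, 2, 0, 1, 0, 1, 0, 2, 0, 1, 0, 2, 0, 1, 3, 2, 0, 1, 0, 2, 0, 1, 0, 1] = true := by decide +kernel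

theorem k11 : chk [1, 1, 0, 1, 0, 1, 0, 1, 0, 1, 0, 1, 0, 1, 1, 0, 1, 0, 1, 0, 3, 0, 2, 0, 2, 0, 2, 2, 0, 2, 0, 2, 0, 2, 0, 2, 0, 2, 0, 2, 2, 3, 1, 0, 1, 0, 1, 0, 1, 1, 0, 1, 0, 1, 0, 1, 1, 0, 1, 0, 1, 0, 1, 1, 1, 0, 1, 0, 1, 0, 1, 0, 1, 0, 1, 0, 1, 1, 0, 1, 0, 1, 0, 3, 0, 2, 0, 2, 0, 2, 2, 0, 2, 0, 2, 0, 2, 0, 2, 0, 2, 0, 2, 2, 3, 1, 0, 1, 0, 1, 0, 1, 1, 0, 1, 0, 1, 0, 1, 1, 0, 1, 0, 1, 0, 1] = true := by decide +kernel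

end H43.J4R
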