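import Cfsg.Agent.Lib.H43.J4RC0
import Cfsg.Agent.Lib.H43.J4RC1
import Cfsg.Agent.Lib.H43.J4RC2

/-! The 112-dimensional representation of the presented Janko group J4 over F2: the generator `x` is not trivial. -/

set_option autoImplicit false
set_option maxRecDepth 100000

noncomputable section

namespace H43.J4R

/-- xor-linear functions -/
def Lin (f : Nat → Nat) : Prop := ∀ v w, f (v ^^^ w) = f v ^^^ f w

theorem bit_mul (a b r : Nat) (ha : a < 2) (hb : b < 2) : (a ^^^ b) * r = (a * r) ^^^ (b * r) := by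
  interval_cases a <;> interval_cases b <;> simp

theorem and_one_lt (v : Nat) : v &&& 1 < 2 := by
  rw [Nat.and_one_is_mod]; exact Nat.mod_lt _ (by norm_num)

theorem L_lin : ∀ ps, Lin (L ps)
  | [] => fun v w => (Nat.xor_self 0).symm
  | (i, r) :: rs => by
    intro v w
    have ih := L_lin rs v w
    show (((v ^^^ w) >>> i) &&& 1) * r ^^^ L rs (v ^^^ w) =
      (((v >>> i) &&& 1) * r ^^^ L rs v) ^^^ (((w >>> i) &&& 1) * r ^^^ L rs w)
    rw [ih, Nat.shiftRight_xor_distrib, Nat.and_xor_distrib_right, bit_mul _ _ _ (and_one_lt _) (and_one_lt _)]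
    ac_rfl

theorem L_lt : ∀ ps : List (Nat × Nat), (∀ p ∈ ps, p.2 < 2 ^ 112) → ∀ v, L ps v < 2 ^ 112
  | [], _, v => by show 0 < 2 ^ 112; norm_num
  | (i, r) :: rs, h, v => by
    show (((v >>> i) &&& 1) * r ^^^ L rs v) < 2 ^ 112
    apply Nat.xor_lt_two_pow
    · have h1 := and_one_lt (v >>> i)
      have h2 := h (i, r) List.mem_cons_self
      generalize (v >>> i) &&& 1 = c at h1
      interval_cases c
      · simp
      · simpa using h2
    · exact L_lt rs (fun p hp => h p (List.mem_cons_of_mem _ hp)) v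

theorem all_lt {ps : List (Nat × Nat)} (h : (ps.all fun p => Nat.blt p.2 (2 ^ 112)) = true) :
    ∀ p ∈ ps, p.2 < 2 ^ 112 := by
  intro p hp
  rw [List.all_eq_true] at h
  have := h p hp
  simpa using this

theorem stepF_zero (v : Nat) : stepF 0 v = Fx v := rfl
theorem stepF_one (v : Nat) : stepF 1 v = Fb v := rfl
theorem stepF_two (v : Nat) : stepF 2 v = Fc v := rfl
theorem stepF_three (n v : Nat) : stepF (n + 3) v = Ft v := rfl

theorem stepF_lin : ∀ c, Lin (stepF c)
  | 0 => fun v w => by rw [stepF_zero, stepF_zero, stepF_zero, Fx_eq, Fx_eq, Fx_eq]; exact L_lin _ v w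
  | 1 => fun v w => by rw [stepF_one, stepF_one, stepF_one, Fb_eq, Fb_eq, Fb_eq]; exact L_lin _ v w
  | 2 => fun v w => by rw [stepF_two, stepF_two, stepF_two, Fc_eq, Fc_eq, Fc_eq]; exact L_lin _ v w
  | n + 3 => fun v w => by rw [stepF_three, stepF_three, stepF_three, Ft_eq, Ft_eq, Ft_eq]; exact L_lin _ v w

theorem stepF_lt : ∀ c v, stepF c v < 2 ^ 112
  | 0, v => by rw [stepF_zero, Fx_eq]; exact L_lt _ (all_lt Rx_lt) v
  | 1, v => by rw [stepF_one, Fb_eq]; exact L_lt _ (all_lt Rb_lt) v
  | 2, v => by rw [stepF_two, Fc_eq]; exact L_lt _ (all_lt Rc_lt) v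
  | n + 3, v => by rw [stepF_three, Ft_eq]; exact L_lt _ (all_lt Rt_lt) v

theorem Lin.zero {f : Nat → Nat} (h : Lin f) : f 0 = 0 := by
  have := h 0 0
  rwa [Nat.xor_self, Nat.xor_self] at this

theorem run_nil (v : Nat) : run [] v = v := rfl

theorem run_cons' (c : Nat) (w : List Nat) (v : Nat) :
    run (c :: w) v = Nat.rec (motive := fun _ => Nat) 0 (fun j _ => run w (Nat.succ j)) (stepF c v) := rfl

theorem run_zero : ∀ w, run w 0 = 0
  | [] => rfl
  | c :: w => by
    rw [run_cons', (stepF_lin c).zero]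
    rfl

theorem run_cons (c : Nat) (w : List Nat) (v : Nat) : run (c :: w) v = run w (stepF c v) := by
  rw [run_cons']
  generalize stepF c v = z
  cases z with
  | zero =>
    rw [run_zero]
    rfl
  | succ n => rfl

theorem run_lin : ∀ w, Lin (run w)
  | [] => fun v w => rfl
  | c :: w => fun v u => by rw [run_cons, run_cons, run_cons, stepF_lin c, run_lin w]

theorem run_append (u w : List Nat) (v : Nat) : run (u ++ w) v = run w (run u v) := by
  induction u generalizing v with
  | nil => rfl
  | cons c u ih => rw [List.cons_append, run_cons, ih, run_cons]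

theorem lin_ext {f : Nat → Nat} (hf : Lin f) : ∀ n, (∀ i < n, f (2 ^ i) = 2 ^ i) → ∀ v < 2 ^ n, f v = v := by
  intro n
  induction n with
  | zero =>
    intro _ v hv
    have : v = 0 := by simpa using hv
    rw [this]; exact hf.zero
  | succ n ih =>
    intro h v hv
    have ih' := ih (fun i hi => h i (by omega))
    by_cases hv' : v < 2 ^ n
    · exact ih' v hv'
    · push Not at hv'
      have h1 : v ^^^ 2 ^ n < 2 ^ n := by
        apply Nat.lt_pow_two_of_testBit
        intro i hi
        rw [Nat.testBit_xor, Nat.testBit_two_pow]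
        by_cases hin : n = i
        · subst hin
          have : v.testBit n = true := by
            rw [Nat.testBit_eq_decide_div_mod_eq]
            have h2 : v / 2 ^ n = 1 := by
              apply le_antisymm
              · apply Nat.lt_succ_iff.1
                apply Nat.div_lt_of_lt_mul
                rw [pow_succ] at hv; omega
              · exact (Nat.one_le_div_iff (by positivity)).2 hv'
            rw [h2]; rfl
          rw [this]; simp
        · have : v.testBit i = false := Nat.testBit_lt_two_pow (lt_of_lt_of_le hv (Nat.pow_le_pow_right (by norm_num) (by omega)))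
          rw [this]; simp [hin]
      have h2 : v = (v ^^^ 2 ^ n) ^^^ 2 ^ n := by rw [Nat.xor_assoc, Nat.xor_self, Nat.xor_zero]
      conv_lhs => rw [h2]
      rw [hf, ih' _ h1, h n (by omega), ← h2]

theorem chk_aux (w : List Nat) : ∀ n : Nat,
    (Nat.rec (motive := fun _ => Bool) true
      (fun i acc => Bool.and (Nat.rec (motive := fun _ => Bool) false (fun j _ => Nat.beq (run w (Nat.succ j)) (Nat.succ j)) (Nat.pow 2 i)) acc) n) = true →
    ∀ i < n, run w (2 ^ i) = 2 ^ i := by
  intro n
  induction n with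
  | zero => intro _ i hi; omega
  | succ n ih =>
    intro h i hi
    have h' : Bool.and (Nat.rec (motive := fun _ => Bool) false (fun j _ => Nat.beq (run w (Nat.succ j)) (Nat.succ j)) (Nat.pow 2 n))
      (Nat.rec (motive := fun _ => Bool) true
        (fun i acc => Bool.and (Nat.rec (motive := fun _ => Bool) false (fun j _ => Nat.beq (run w (Nat.succ j)) (Nat.succ j)) (Nat.pow 2 i)) acc) n) = true := h
    obtain ⟨h1, h2⟩ := (Bool.and_eq_true_iff).1 h'
    rcases Nat.lt_succ_iff_lt_or_eq.1 hi with hi | rfl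
    · exact ih h2 i hi
    · obtain ⟨j, hj⟩ := Nat.exists_eq_succ_of_ne_zero (show Nat.pow 2 i ≠ 0 from (by positivity : (2 : ℕ) ^ i ≠ 0))
      rw [hj] at h1
      have h3 := Nat.eq_of_beq_eq_true h1
      show run w (Nat.pow 2 i) = Nat.pow 2 i
      rw [hj]; exact h3

theorem chk_sound {w : List Nat} (h : chk w = true) (v : Nat) (hv : v < 2 ^ 112) : run w v = v :=
  lin_ext (run_lin w) 112 (chk_aux w 112 h) v hv

/-- the vectors -/
abbrev S : Type := {v : Nat // v < 2 ^ 112}

theorem step2 {c d : Nat} (h : chk [c, d] = true) (v : S) : stepF d (stepF c v.1) = v.1 := by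
  have := chk_sound h v.1 v.2
  rwa [run_cons, run_cons, run_nil] at this

def mkP (c d : Nat) (h1 : chk [c, d] = true) (h2 : chk [d, c] = true) : Equiv.Perm S where
  toFun v := ⟨stepF c v.1, stepF_lt _ _⟩
  invFun v := ⟨stepF d v.1, stepF_lt _ _⟩
  left_inv v := Subtype.ext (step2 h1 v)
  right_inv v := Subtype.ext (step2 h2 v)

theorem k12 : chk [1, 2] = true := by decide +kernel
theorem k21 : chk [2, 1] = true := by decide +kernel

def lS (c : Nat) : Equiv.Perm S := match c with
  | 0 => mkP 0 0 k0 k0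
  | 1 => mkP 1 2 k12 k21
  | 2 => (mkP 1 2 k12 k21)⁻¹
  | _ => mkP 3 3 k7 k7

theorem lS_apply : ∀ (c : Nat), c < 4 → ∀ v : S, (lS c v).1 = stepF c v.1
  | 0, _, _ => rfl
  | 1, _, _ => rfl
  | 2, _, _ => rfl
  | 3, _, _ => rfl
  | _ + 4, h, _ => absurd h (by omega)

theorem prod_apply : ∀ (w : List Nat), (∀ c ∈ w, c < 4) → ∀ v : S, ((w.map lS).prod v).1 = run w.reverse v.1
  | [], _, v => rfl
  | c :: w, h, v => by
    rw [List.map_cons, List.prod_cons, Equiv.Perm.mul_apply, lS_apply c (h c List.mem_cons_self),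
      prod_apply w (fun d hd => h d (List.mem_cons_of_mem _ hd)), List.reverse_cons, run_append, run_cons, run_nil]

theorem prod_one {w : List Nat} (h : chk w.reverse = true) (hc : ∀ c ∈ w, c < 4) : (w.map lS).prod = 1 := by
  ext1 v
  apply Subtype.ext
  rw [prod_apply w hc, chk_sound h v.1 v.2]
  rfl

theorem rels_lt : ∀ w ∈ rels, ∀ c ∈ w, c < 4 := by
  have h : (rels.all fun w => w.all fun c => Nat.blt c 4) = true := by decide +kernel
  intro w hw c hc
  rw [List.all_eq_true] at h
  have h1 := h w hw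
  rw [List.all_eq_true] at h1
  simpa using h1 c hc

theorem rels_chk : ∀ w ∈ rels, chk w.reverse = true := by
  intro w hw
  simp only [rels, List.mem_cons, List.not_mem_nil, or_false] at hw
  rcases hw with rfl | rfl | rfl | rfl | rfl | rfl | rfl | rfl | rfl | rfl | rfl | rfl
  · exact k0
  · exact k1
  · exact k2
  · exact k3
  · exact k4
  · exact k5
  · exact k6
  · exact k7
  · exact k8
  · exact k9
  · exact k10
  · exact k11

/-- the code of a letter -/
def code (p : Cfsg.Spor.J4.Gen × Bool) : Nat := match p with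
  | (.x, _) => 0
  | (.y, true) => 1
  | (.y, false) => 2
  | (.t, _) => 3

theorem extra_eq : (Cfsg.Spor.J4.extra.map fun r => r.toWord.map code) = rels := by decide +kernel

theorem lift_word {K : Type*} [Group K] (l : Nat → K) (f : Cfsg.Spor.J4.Gen → K)
    (h : ∀ p, l (code p) = cond p.2 (f p.1) (f p.1)⁻¹) (r : FreeGroup Cfsg.Spor.J4.Gen) :
    FreeGroup.lift f r = ((r.toWord.map code).map l).prod := by
  conv_lhs => rw [← FreeGroup.mk_toWord (x := r)]
  rw [FreeGroup.lift_mk, List.map_map]
  congr 1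
  apply List.map_congr_left
  intro p _
  exact (h p).symm

theorem not_cox : Cfsg.Spor.coxRelators Cfsg.Spor.J4.edges = ∅ := by
  ext r
  simp [Cfsg.Spor.coxRelators, Cfsg.Spor.coxNodes, Cfsg.Spor.J4.edges]

/-- images of the generators -/
def fS : Cfsg.Spor.J4.Gen → Equiv.Perm S
  | .x => lS 0
  | .y => lS 1
  | .t => lS 3

theorem sq0 : lS 0 * lS 0 = 1 := by
  have := prod_one (w := [0, 0]) k0 (by simp)
  simpa using this

theorem sq3 : lS 3 * lS 3 = 1 := by
  have := prod_one (w := [3, 3]) k7 (by simp)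
  simpa using this

theorem code_fS : ∀ p, lS (code p) = cond p.2 (fS p.1) (fS p.1)⁻¹
  | (.x, true) => rfl
  | (.x, false) => eq_inv_of_mul_eq_one_left sq0
  | (.y, true) => rfl
  | (.y, false) => rfl
  | (.t, true) => rfl
  | (.t, false) => eq_inv_of_mul_eq_one_left sq3

theorem rel_fS : ∀ r ∈ Cfsg.Spor.coxRelators Cfsg.Spor.J4.edges ∪ {r | r ∈ Cfsg.Spor.J4.extra},
    FreeGroup.lift fS r = 1 := by
  intro r hr
  rw [not_cox, Set.empty_union, Set.mem_ofPred_eq] at hr
  rw [lift_word lS fS code_fS]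
  have h1 : r.toWord.map code ∈ rels := by
    rw [← extra_eq]
    exact List.mem_map.2 ⟨r, hr, rfl⟩
  exact prod_one (rels_chk _ h1) (rels_lt _ h1)

/-- the representation -/
def rho : Cfsg.Spor.J4 →* Equiv.Perm S := PresentedGroup.toGroup rel_fS

theorem x_ne_one : (PresentedGroup.of Cfsg.Spor.J4.Gen.x : Cfsg.Spor.J4) ≠ 1 := by
  intro h
  have h1 : rho (PresentedGroup.of Cfsg.Spor.J4.Gen.x) = 1 := by rw [h, map_one]
  have h2 : rho (PresentedGroup.of Cfsg.Spor.J4.Gen.x) = lS 0 := PresentedGroup.toGroup.of rel_fS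
  rw [h2] at h1
  have h3 := congrArg (fun f : Equiv.Perm S => (f ⟨1, by norm_num⟩).1) h1
  have h4 : stepF 0 1 = 1 := h3
  revert h4
  decide +kernel

end H43.J4R
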