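import Cfsg.Agent.Lib.H43.J4Main
import Cfsg.Agent.Lib.H43.J4Rep

/-! The subgroup generated by `x` and `y` in the presented Janko group J4 is M24. -/

set_option autoImplicit false
set_option maxRecDepth 100000

noncomputable section

namespace H43.J4Fin

open Cfsg Cfsg.Spor H43.J4Arg H43.J4R

/-- the relators -/
abbrev R : Set (FreeGroup Cfsg.Spor.J4.Gen) :=
  Cfsg.Spor.coxRelators Cfsg.Spor.J4.edges ∪ {r | r ∈ Cfsg.Spor.J4.extra}

def X : Cfsg.Spor.J4 := PresentedGroup.mk R (FreeGroup.of J4.Gen.x)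
def Y : Cfsg.Spor.J4 := PresentedGroup.mk R (FreeGroup.of J4.Gen.y)
def T : Cfsg.Spor.J4 := PresentedGroup.mk R (FreeGroup.of J4.Gen.t)

theorem mk_one {r : FreeGroup Cfsg.Spor.J4.Gen} (h : r ∈ Cfsg.Spor.J4.extra) : PresentedGroup.mk R r = 1 :=
  PresentedGroup.one_of_mem (Or.inr h)

def gen : Cfsg.Spor.J4.Gen → Cfsg.Spor.J4
  | .x => X
  | .y => Y
  | .t => T

theorem lift_gen (r : FreeGroup Cfsg.Spor.J4.Gen) : FreeGroup.lift gen r = PresentedGroup.mk R r := by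
  have h : FreeGroup.lift gen = PresentedGroup.mk R := by
    ext c
    rw [FreeGroup.lift_apply_of]
    cases c <;> rfl
  rw [h]

theorem XX : X * X = 1 := by
  have h := mk_one (r := J4.x ^ 2) (by simp [J4.extra])
  rw [map_pow, pow_two] at h
  exact h

theorem TT : T * T = 1 := by
  have h := mk_one (r := J4.t ^ 2) (by simp [J4.extra])
  rw [map_pow, pow_two] at h
  exact h

def lG (c : Nat) : Cfsg.Spor.J4 := match c with
  | 0 => X
  | 1 => Y
  | 2 => Y⁻¹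
  | _ => T

theorem code_gen : ∀ p, lG (code p) = cond p.2 (gen p.1) (gen p.1)⁻¹
  | (.x, true) => rfl
  | (.x, false) => eq_inv_of_mul_eq_one_left XX
  | (.y, true) => rfl
  | (.y, false) => rfl
  | (.t, true) => rfl
  | (.t, false) => eq_inv_of_mul_eq_one_left TT

theorem rels_one : ∀ w ∈ rels, (w.map lG).prod = 1 := by
  intro w hw
  rw [← extra_eq] at hw
  obtain ⟨r, hr, rfl⟩ := List.mem_map.1 hw
  rw [← lift_word lG gen code_gen, lift_gen]
  exact mk_one hr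

theorem hrel : ∀ r ∈ H43.J4A.base, (r.map (l3 X Y)).prod = 1 := by
  have hd : (H43.J4A.base.all fun r => (r == [1, 2] || rels.contains r) && (r.all fun c => Nat.blt c 3)) = true := by
    decide +kernel
  intro r hr
  have h := (List.all_eq_true.1 hd) r hr
  rw [Bool.and_eq_true, Bool.or_eq_true, List.all_eq_true] at h
  obtain ⟨h1, h2⟩ := h
  have h3 : r.map (l3 X Y) = r.map lG := by
    apply List.map_congr_left
    intro c hc
    have h4 : c < 3 := by simpa using h2 c hc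
    interval_cases c <;> rfl
  rw [h3]
  rcases h1 with h1 | h1
  · rw [beq_iff_eq] at h1
    rw [h1]
    simp [lG]
  · exact rels_one r (List.contains_iff_mem.1 h1)

theorem htx : Commute T X := by
  have h := mk_one (r := J4.t⁻¹ * J4.x⁻¹ * J4.t * J4.x) (by simp [J4.extra])
  have h' : T⁻¹ * X⁻¹ * T * X = 1 := by
    simp only [map_mul, map_inv] at h
    exact h
  show T * X = X * T
  have h2 : T * X = X * T * (T⁻¹ * X⁻¹ * T * X) := by group
  rw [h2, h', mul_one]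

theorem htw : Commute T ((w0.map (l3 X Y)).prod) := by
  have h := mk_one (r := J4.t⁻¹ * (J4.y * J4.x * J4.y * ((J4.x * (J4.y⁻¹)) ^ 2) * ((J4.x * J4.y) ^ 3))⁻¹ * J4.t *
    (J4.y * J4.x * J4.y * ((J4.x * (J4.y⁻¹)) ^ 2) * ((J4.x * J4.y) ^ 3))) (by simp [J4.extra])
  have h' : T⁻¹ * (Y * X * Y * ((X * Y⁻¹) ^ 2) * ((X * Y) ^ 3))⁻¹ * T * (Y * X * Y * ((X * Y⁻¹) ^ 2) * ((X * Y) ^ 3)) = 1 := by
    simp only [map_mul, map_inv, map_pow] at h
    exact h
  have hw : (w0.map (l3 X Y)).prod = Y * X * Y * ((X * Y⁻¹) ^ 2) * ((X * Y) ^ 3) := by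
    simp [w0, l3, pow_succ, mul_assoc]
  rw [hw]
  generalize Y * X * Y * ((X * Y⁻¹) ^ 2) * ((X * Y) ^ 3) = W at h'
  show T * W = W * T
  have h2 : T * W = W * T * (T⁻¹ * W⁻¹ * T * W) := by group
  rw [h2, h', mul_one]

def V : Cfsg.Spor.J4 := ((X * Y) ^ 3) * Y * ((X * Y) ^ 6) * Y

theorem h12 : (((Y * X * Y * X * Y * X * Y) ^ 3) * T * (V⁻¹ * T * V)) ^ 2 = 1 := by
  have h := mk_one (r := (((J4.y * J4.x * J4.y * J4.x * J4.y * J4.x * J4.y) ^ 3) * J4.t *
    ((((J4.x * J4.y) ^ 3) * J4.y * ((J4.x * J4.y) ^ 6) * J4.y)⁻¹ * J4.t *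
      (((J4.x * J4.y) ^ 3) * J4.y * ((J4.x * J4.y) ^ 6) * J4.y))) ^ 2) (by simp [J4.extra])
  simp only [map_mul, map_inv, map_pow] at h
  exact h

theorem hgen : Subgroup.closure ({X, Y, T} : Set Cfsg.Spor.J4) = ⊤ := by
  rw [eq_top_iff, ← PresentedGroup.closure_range_of R, Subgroup.closure_le]
  rintro _ ⟨c, rfl⟩
  cases c
  · exact Subgroup.subset_closure (Or.inl rfl)
  · exact Subgroup.subset_closure (Or.inr (Or.inl rfl))
  · exact Subgroup.subset_closure (Or.inr (Or.inr rfl))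

theorem main : Nonempty ((((Subgroup.closure ({Cfsg.Spor.J4.x, Cfsg.Spor.J4.y} : Set (FreeGroup Cfsg.Spor.J4.Gen))).map (PresentedGroup.mk (Cfsg.Spor.coxRelators Cfsg.Spor.J4.edges ∪ {r | r ∈ Cfsg.Spor.J4.extra})))) ≃* Cfsg.M24) := by
  have h : ((Subgroup.closure ({Cfsg.Spor.J4.x, Cfsg.Spor.J4.y} : Set (FreeGroup Cfsg.Spor.J4.Gen))).map (PresentedGroup.mk (Cfsg.Spor.coxRelators Cfsg.Spor.J4.edges ∪ {r | r ∈ Cfsg.Spor.J4.extra}))) =
      Subgroup.closure ({X, Y} : Set Cfsg.Spor.J4) := by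
    rw [MonoidHom.map_closure, Set.image_pair]
    rfl
  rw [h]
  exact H43.J4Arg.main X Y T V hgen hrel htx htw h12 x_ne_one

end H43.J4Fin
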