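import Cfsg.Agent.Lib.H8.M24Simple
import Cfsg.Agent.Lib.H32.M24Kit
import Cfsg.Agent.Lib.H94.M24Forest
import Cfsg.Agent.Lib.H43.J4A.Main

/-! Generators `a`, `b` of M24 satisfying the seven relations of the presentation of M24 used for J4. -/

set_option autoImplicit false
set_option maxRecDepth 100000

noncomputable section

open scoped Pointwise

namespace H43.J4M

open Cfsg H8.GolayCode H8.GolayBasic H8.M24Mem H8.M24Chain H32.M24Kit

def ca : ℕ := 46752582811499538609330377980456693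
def cb : ℕ := 569862965474048257211105369639750034
def cb' : ℕ := 931470414380324544603138623654037685

theorem oka : okTab ca = true := by decide +kernel
theorem okb : okTab cb = true := by decide +kernel

def a : M24 := ⟨pm ca, pm_mem ca⟩
def b : M24 := ⟨pm cb, pm_mem cb⟩

/-- letters -/
def lM (c : ℕ) : M24 := match c with
  | 0 => a
  | 1 => b
  | 2 => b⁻¹
  | _ => 1

def tM (c : ℕ) : ℕ := match c with
  | 0 => ca
  | 1 => cb
  | _ => cb'

theorem tab_b' : ∀ p, idx ((pm cb)⁻¹ p) = tab cb' (idx p) :=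
  tab_inv (pm_idx okb) (by decide +kernel)

theorem lM_idx : ∀ (c : ℕ), c < 3 → ∀ p : GolayPt, idx (((lM c : M24) : Equiv.Perm GolayPt) p) = tab (tM c) (idx p)
  | 0, _ => pm_idx oka
  | 1, _ => pm_idx okb
  | 2, _ => tab_b'
  | _ + 3, h => absurd h (by omega)

def tabW : List ℕ → ℕ → ℕ
  | [], i => i
  | c :: w, i => tab (tM c) (tabW w i)

theorem idx_prod : ∀ (w : List ℕ), (∀ c ∈ w, c < 3) → ∀ p : GolayPt,
    idx ((((w.map lM).prod : M24) : Equiv.Perm GolayPt) p) = tabW w (idx p)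
  | [], _, p => rfl
  | c :: w, h, p => by
    rw [List.map_cons, List.prod_cons, Subgroup.coe_mul, Equiv.Perm.mul_apply,
      lM_idx c (h c List.mem_cons_self), idx_prod w (fun d hd => h d (List.mem_cons_of_mem _ hd))]
    rfl

def chkW (w : List ℕ) (f : ℕ → ℕ) : Bool :=
  (w.all fun c => Nat.blt c 3) && (List.range 24).all fun i => Nat.beq (tabW w i) (f i)

theorem chkW_sound {w : List ℕ} {f : ℕ → ℕ} (h : chkW w f = true) (g : Equiv.Perm GolayPt)
    (hg : ∀ p, idx (g p) = f (idx p)) : (((w.map lM).prod : M24) : Equiv.Perm GolayPt) = g := by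
  unfold chkW at h
  rw [Bool.and_eq_true, List.all_eq_true, List.all_eq_true] at h
  ext1 p
  apply idx_injective
  rw [idx_prod w (fun c hc => (by simpa using h.1 c hc)), hg]
  exact Nat.eq_of_beq_eq_true (h.2 (idx p) (List.mem_range.2 (idx_lt p)))

theorem rel_one : ∀ r ∈ H43.J4A.base, (r.map lM).prod = 1 := by
  have h : (H43.J4A.base.all fun r => chkW r fun i => i) = true := by decide +kernel
  intro r hr
  rw [List.all_eq_true] at h
  apply Subtype.ext
  exact chkW_sound (h r hr) 1 (fun p => rfl)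

def wal : List ℕ := [2, 0, 1, 0, 2, 0, 1, 0, 2, 0, 2, 0, 2, 0, 2, 0, 2, 0, 2, 0, 1, 0, 2, 0, 1, 0, 2, 0, 1, 0, 1, 0, 1, 0, 1, 0, 1, 0, 2, 0, 1, 0, 1, 0, 2, 0, 2, 0, 1, 0, 1, 0, 2]
def wga : List ℕ := [0, 1, 0, 2, 0, 2, 0, 2, 0, 1, 0, 1, 0, 1, 0, 1, 0, 1, 0, 1, 0, 2, 0, 2, 0, 2, 0, 2, 0, 2, 0, 2, 0, 1, 0, 1, 0, 1, 0, 2, 0]
def wde : List ℕ := [2, 0, 1, 0, 1, 0, 1, 0, 2, 0, 1, 0, 1, 0, 1, 0, 1, 0, 2, 0, 1, 0, 2, 0, 1, 0, 2, 0, 2, 0, 2, 0, 2, 0, 2, 0, 2, 0, 2, 0, 1, 0, 2, 0, 2, 0, 2, 0, 2, 0, 2, 0, 2, 0]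

theorem kal : chkW wal (tab cα) = true := by decide +kernel
theorem kga : chkW wga (tab cγ) = true := by decide +kernel
theorem kde : chkW wde (tab cδ) = true := by decide +kernel

theorem prod_mem (w : List ℕ) : (w.map lM).prod ∈ Subgroup.closure ({a, b} : Set M24) := by
  apply Subgroup.list_prod_mem
  intro z hz
  obtain ⟨c, _, rfl⟩ := List.mem_map.1 hz
  match c with
  | 0 => exact Subgroup.subset_closure (by simp [lM])
  | 1 => exact Subgroup.subset_closure (by simp [lM])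
  | 2 => exact Subgroup.inv_mem _ (Subgroup.subset_closure (by simp))
  | _ + 3 => exact Subgroup.one_mem _

theorem closure_ab : Subgroup.closure ({a, b} : Set M24) = ⊤ := by
  have h1 : K ≤ (Subgroup.closure ({a, b} : Set M24)).map M24.subtype := by
    unfold K
    rw [Subgroup.closure_le]
    rintro g hg
    rw [Set.mem_insert_iff, Set.mem_insert_iff, Set.mem_singleton_iff] at hg
    rcases hg with rfl | rfl | rfl
    · exact ⟨_, prod_mem wal, chkW_sound kal _ tab_α⟩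
    · exact ⟨_, prod_mem wga, chkW_sound kga _ tab_γ⟩
    · exact ⟨_, prod_mem wde, chkW_sound kde _ tab_δ⟩
  rw [K_eq] at h1
  rw [eq_top_iff]
  intro g _
  obtain ⟨g', hg', h2⟩ := h1 g.2
  have : g' = g := Subtype.ext h2
  rw [← this]; exact hg'

def m1 : ℕ := 2687905
def m2 : ℕ := 4367374
def m3 : ℕ := 9721936

/-- the trio -/
def T0 : Finset (Finset GolayPt) := {fs m1, fs m2, fs m3}

end H43.J4M
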