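import Cfsg.Agent.Lib.H43.J4Arg
import Cfsg.Agent.Lib.H69.SchurUniv

/-! The subgroup generated by `x` and `y` in a group with the relations of J4 is M24: the main argument. -/

set_option autoImplicit false
set_option maxRecDepth 100000

noncomputable section

open scoped Pointwise

namespace H43.J4Arg

open Cfsg H8.GolayCode H8.GolayBasic H8.M24Mem H8.M24Chain H32.M24Kit H43.J4M H34.TC

universe u

/-- the word of the second generator of the trio stabiliser -/
def w0 : List Nat := [1, 0, 1, 0, 2, 0, 2, 0, 1, 0, 1, 0, 1]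

def cw0 : ℕ := 466145635976135500583212364686609933

theorem okw0 : okTab cw0 = true := by decide +kernel

theorem a_stab : a ∈ MulAction.stabilizer M24 T0 := stab_of oka (by decide +kernel)

theorem w_stab : (w0.map lM).prod ∈ MulAction.stabilizer M24 T0 := by
  have h1 : (w0.map lM).prod = (⟨pm cw0, pm_mem cw0⟩ : M24) :=
    Subtype.ext (chkW_sound (f := tab cw0) (by decide +kernel) (pm cw0) (pm_idx okw0))
  rw [h1]
  exact stab_of okw0 (by decide +kernel)

theorem perfect_of {G : Type*} [Group G] {x y : G} (hgen : Subgroup.closure ({x, y} : Set G) = ⊤)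
    (h1 : x * x = 1) (h2 : y ^ 3 = 1) (h3 : (x * y) ^ 23 = 1) : commutator G = ⊤ := by
  obtain ⟨h4, h5⟩ := comm_trivial (G := Abelianization G) (x := Abelianization.of x) (y := Abelianization.of y)
    (Commute.all _ _) (by rw [← map_mul, h1, map_one]) (by rw [← map_pow, h2, map_one])
    (by rw [← map_mul, ← map_pow, h3, map_one])
  rw [eq_top_iff, ← hgen, Subgroup.closure_le]
  rintro z hz
  rw [Set.mem_insert_iff, Set.mem_singleton_iff] at hz
  rcases hz with rfl | rfl
  · exact (QuotientGroup.eq_one_iff _).1 h4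
  · exact (QuotientGroup.eq_one_iff _).1 h5

/-- the main argument -/
theorem main {G : Type u} [Group G] (x y t v : G) (hgen : Subgroup.closure ({x, y, t} : Set G) = ⊤)
    (hrel : ∀ r ∈ H43.J4A.base, (r.map (l3 x y)).prod = 1)
    (htx : Commute t x) (htw : Commute t ((w0.map (l3 x y)).prod))
    (h12 : (((y * x * y * x * y * x * y) ^ 3) * t * (v⁻¹ * t * v)) ^ 2 = 1)
    (hx1 : x ≠ 1) : Nonempty (↥(Subgroup.closure ({x, y} : Set G)) ≃* M24) := by
  classical
  obtain ⟨hxx, hyy, hxy⟩ := base_small hrel
  set P : Subgroup (G × M24) := Subgroup.closure {(x, a), (y, b)} with hPdef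
  let xP : P := ⟨(x, a), Subgroup.subset_closure (by simp)⟩
  let yP : P := ⟨(y, b), Subgroup.subset_closure (by simp)⟩
  let p1 : P →* G := (MonoidHom.fst G M24).comp P.subtype
  let p2 : P →* M24 := (MonoidHom.snd G M24).comp P.subtype
  have hx1' : p1 xP = x := rfl
  have hy1' : p1 yP = y := rfl
  have hx2' : p2 xP = a := rfl
  have hy2' : p2 yP = b := rfl
  have hext : ∀ q : P, p1 q = 1 → p2 q = 1 → q = 1 := fun q h1 h2 => Subtype.ext (Prod.ext h1 h2)
  have hPgen : Subgroup.closure ({xP, yP} : Set P) = ⊤ := by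
    rw [eq_top_iff]
    rintro ⟨q, hq⟩ _
    have h : P ≤ (Subgroup.closure ({xP, yP} : Set P)).map P.subtype := by
      conv_lhs => rw [hPdef]
      rw [Subgroup.closure_le]
      rintro z hz
      rw [Set.mem_insert_iff, Set.mem_singleton_iff] at hz
      rcases hz with rfl | rfl
      · exact ⟨xP, Subgroup.subset_closure (by simp), rfl⟩
      · exact ⟨yP, Subgroup.subset_closure (by simp), rfl⟩
    obtain ⟨q', hq', h2⟩ := h hq
    have : q' = ⟨q, hq⟩ := Subtype.ext h2
    rw [← this]; exact hq'
  have hrelP : ∀ r ∈ H43.J4A.base, (r.map (l3 xP yP)).prod = 1 := by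
    intro r hr
    apply hext
    · rw [map_l3 p1, hx1', hy1', hrel r hr]
    · rw [map_l3 p2, hx2', hy2', ← lM_eq, rel_one r hr]
  obtain ⟨hxxP, hyyP, hxyP⟩ := base_small hrelP
  set wP : P := (w0.map (l3 xP yP)).prod with hwP
  have hw1 : p1 wP = (w0.map (l3 x y)).prod := by rw [hwP, map_l3 p1, hx1', hy1']
  have hw2 : p2 wP = (w0.map lM).prod := by rw [hwP, map_l3 p2, hx2', hy2', lM_eq]
  set HP : Subgroup P := Subgroup.closure {xP, wP} with hHP
  obtain ⟨hfin, hidx⟩ := H43.J4A.upper (l3 xP yP) HP (l3_iotaA xP yP hxxP) hrelP (gen_of hPgen) (by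
    intro w hw
    have h : w = [0] ∨ w = w0.reverse := by
      have : w ∈ [[0], w0.reverse] := by
        have e : H43.J4A.hw = [[0], w0.reverse] := by decide
        rw [← e]; exact hw
      simpa using this
    rcases h with rfl | rfl
    · have : wp (l3 xP yP) [0] = xP := by simp [wp, l3]
      rw [this]; exact Subgroup.subset_closure (by simp)
    · rw [wp_reverse]; exact Subgroup.subset_closure (by simp [hwP]))
  have hs2 : Function.Surjective p2 := by
    rw [← MonoidHom.range_eq_top, eq_top_iff, ← closure_ab, Subgroup.closure_le]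
    rintro z hz
    rw [Set.mem_insert_iff, Set.mem_singleton_iff] at hz
    rcases hz with rfl | rfl
    · exact ⟨xP, rfl⟩
    · exact ⟨yP, rfl⟩
  set Q : Subgroup P := (MulAction.stabilizer M24 T0).comap p2 with hQ
  have hQi : Q.index = 3795 := by
    rw [hQ, Subgroup.index_comap_of_surjective _ hs2, index_stab]
  have hle : HP ≤ Q := by
    rw [hHP, Subgroup.closure_le]
    rintro z hz
    rw [Set.mem_insert_iff, Set.mem_singleton_iff] at hz
    rcases hz with rfl | rfl
    · rw [SetLike.mem_coe, hQ, Subgroup.mem_comap, hx2']; exact a_stab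
    · rw [SetLike.mem_coe, hQ, Subgroup.mem_comap, hw2]; exact w_stab
  have hQle : Q ≤ HP := by
    have h1 := Subgroup.relIndex_mul_index hle
    rw [hQi] at h1
    have h2 : HP.index ≠ 0 := hfin.index_ne_zero
    have h3 : HP.relIndex Q = 1 := by
      have h4 : HP.relIndex Q ≠ 0 := fun h => h2 (by rw [← h1, h, zero_mul])
      have h5 : HP.relIndex Q * 3795 ≤ 3795 := by rw [h1]; exact hidx
      omega
    exact Subgroup.relIndex_eq_one.1 h3
  have hker : p2.ker ≤ HP := by
    intro q hq
    apply hQle
    rw [hQ, Subgroup.mem_comap, MonoidHom.mem_ker.1 hq]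
    exact Subgroup.one_mem _
  set N : Subgroup G := p2.ker.map p1 with hN
  have hNt : ∀ n ∈ N, Commute t n := by
    rintro n ⟨k, hk, rfl⟩
    have h1 : HP ≤ (Subgroup.centralizer ({t} : Set G)).comap p1 := by
      rw [hHP, Subgroup.closure_le]
      rintro z hz
      rw [Set.mem_insert_iff, Set.mem_singleton_iff] at hz
      rcases hz with rfl | rfl
      · rw [SetLike.mem_coe, Subgroup.mem_comap, hx1', Subgroup.mem_centralizer_singleton_iff]; exact htx.eq.symm
      · rw [SetLike.mem_coe, Subgroup.mem_comap, hw1, Subgroup.mem_centralizer_singleton_iff]; exact htw.eq.symm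
    have h2 := h1 (hker hk)
    rw [Subgroup.mem_comap, Subgroup.mem_centralizer_singleton_iff] at h2
    exact h2.symm
  have hNP : ∀ q : P, ∀ n ∈ N, p1 q * n * (p1 q)⁻¹ ∈ N := by
    rintro q _ ⟨k, hk, rfl⟩
    refine ⟨q * k * q⁻¹, ?_, by simp⟩
    exact (MonoidHom.normal_ker p2).conj_mem k hk q
  have hNn : N.Normal := by
    let M : Subgroup G :=
      { carrier := {g | ∀ n ∈ N, g * n * g⁻¹ ∈ N ∧ g⁻¹ * n * g ∈ N}
        one_mem' := by intro n hn; simpa using hn
        mul_mem' := by
          intro g h hg hh n hn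
          have e1 : g * h * n * (g * h)⁻¹ = g * (h * n * h⁻¹) * g⁻¹ := by group
          have e2 : (g * h)⁻¹ * n * (g * h) = h⁻¹ * (g⁻¹ * n * g) * h := by group
          rw [e1, e2]
          exact ⟨(hg _ (hh n hn).1).1, (hh _ (hg n hn).2).2⟩
        inv_mem' := by
          intro g hg n hn
          rw [inv_inv]
          exact ⟨(hg n hn).2, (hg n hn).1⟩ }
    have hM : M = ⊤ := by
      rw [eq_top_iff, ← hgen, Subgroup.closure_le]
      rintro z hz
      rw [Set.mem_insert_iff, Set.mem_insert_iff, Set.mem_singleton_iff] at hz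
      rcases hz with rfl | rfl | rfl
      · intro n hn
        refine ⟨hNP xP n hn, ?_⟩
        have := hNP xP⁻¹ n hn
        rwa [map_inv, inv_inv] at this
      · intro n hn
        refine ⟨hNP yP n hn, ?_⟩
        have := hNP yP⁻¹ n hn
        rwa [map_inv, inv_inv] at this
      · intro n hn
        have h := (hNt n hn).eq
        constructor
        · rw [h, mul_inv_cancel_right]; exact hn
        · rw [mul_assoc, ← h, inv_mul_cancel_left]; exact hn
    refine ⟨fun n hn g => ?_⟩
    have : g ∈ M := by rw [hM]; exact Subgroup.mem_top g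
    exact (this n hn).1
  set C : Subgroup G := Subgroup.centralizer (N : Set G) with hC
  have hCn : C.Normal := inferInstance
  have htC : t ∈ C := by
    rw [hC, Subgroup.mem_centralizer_iff]
    intro n hn
    exact (hNt n hn).eq.symm
  obtain ⟨hxC, hyC⟩ : x ∈ C ∧ y ∈ C := by
    have ht1 : ((t : G) : G ⧸ C) = 1 := (QuotientGroup.eq_one_iff _).2 htC
    have hg : Subgroup.closure ({(x : G ⧸ C), (y : G ⧸ C)} : Set (G ⧸ C)) = ⊤ := by
      rw [eq_top_iff]
      have h1 : (⊤ : Subgroup (G ⧸ C)) = (⊤ : Subgroup G).map (QuotientGroup.mk' C) := by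
        rw [← MonoidHom.range_eq_map, QuotientGroup.range_mk']
      rw [h1, ← hgen, MonoidHom.map_closure, Subgroup.closure_le]
      rintro _ ⟨z, hz, rfl⟩
      rw [Set.mem_insert_iff, Set.mem_insert_iff, Set.mem_singleton_iff] at hz
      rcases hz with rfl | rfl | rfl
      · exact Subgroup.subset_closure (by simp)
      · exact Subgroup.subset_closure (by simp)
      · show ((z : G) : G ⧸ C) ∈ _
        rw [ht1]; exact Subgroup.one_mem _
    obtain ⟨h1, h2⟩ := quot_trivial hg (by
      intro r hr
      have hd : (H43.J4B.base.all fun r => H43.J4A.base.contains r ||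
          r == (List.replicate 6 [1, 0, 1, 0, 1, 0, 1]).flatten) = true := by decide +kernel
      have h3 := (List.all_eq_true.1 hd) r hr
      rw [Bool.or_eq_true] at h3
      rcases h3 with h3 | h3
      · have h4 := hrel r (List.contains_iff_mem.1 h3)
        have h5 := map_l3 (QuotientGroup.mk' C) x y r
        rw [h4, map_one] at h5
        exact h5.symm
      · rw [beq_iff_eq] at h3
        rw [h3]
        have h4 : ∀ n : ℕ, ((((List.replicate n [1, 0, 1, 0, 1, 0, 1]).flatten).map
            (l3 (x : G ⧸ C) (y : G ⧸ C))).prod : G ⧸ C) =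
            ((y * x * y * x * y * x * y : G) : G ⧸ C) ^ n := by
          intro n
          induction n with
          | zero => simp
          | succ n ih =>
            rw [List.replicate_succ, List.flatten_cons, List.map_append, List.prod_append, ih, pow_succ']
            simp [l3, mul_assoc]
        rw [h4]
        have h5 := congrArg (QuotientGroup.mk' C) h12
        simp only [map_pow, map_mul, map_inv, map_one, QuotientGroup.mk'_apply, ht1, mul_one, inv_mul_cancel] at h5
        rw [← pow_mul] at h5
        simpa [mul_assoc] using h5)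
    exact ⟨(QuotientGroup.eq_one_iff _).1 h1, (QuotientGroup.eq_one_iff _).1 h2⟩
  have hCtop : C = ⊤ := by
    rw [eq_top_iff, ← hgen, Subgroup.closure_le]
    rintro z hz
    rw [Set.mem_insert_iff, Set.mem_insert_iff, Set.mem_singleton_iff] at hz
    rcases hz with rfl | rfl | rfl
    · exact hxC
    · exact hyC
    · exact htC
  have hNc : ∀ n ∈ N, ∀ g : G, Commute n g := by
    intro n hn g
    have : g ∈ C := by rw [hCtop]; exact Subgroup.mem_top g
    rw [hC, Subgroup.mem_centralizer_iff] at this
    exact this n hn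
  have hnc : ¬ Commute x y := fun h => hx1 (comm_trivial h hxx hyy hxy).1
  -- p1 is injective
  have hinj : Function.Injective p1 := by
    rw [← MonoidHom.ker_eq_bot_iff, eq_bot_iff]
    have hK : (p1.ker.map p2).Normal := Subgroup.Normal.map (MonoidHom.normal_ker p1) p2 hs2
    haveI := H8.M24Simple.simple_M24
    rcases hK.eq_bot_or_eq_top with h | h
    · intro k hk
      have h1 : p2 k ∈ p1.ker.map p2 := ⟨k, hk, rfl⟩
      rw [h, Subgroup.mem_bot] at h1
      rw [Subgroup.mem_bot]
      exact hext k hk h1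
    · exfalso
      have h1 : a ∈ p1.ker.map p2 := by rw [h]; exact Subgroup.mem_top _
      obtain ⟨k, hk, hk2⟩ := h1
      apply hnc
      have h2 : x ∈ N := by
        refine ⟨xP * k⁻¹, ?_, ?_⟩
        · show p2 (xP * k⁻¹) = 1
          rw [map_mul, map_inv, hx2', hk2, mul_inv_cancel]
        · rw [map_mul, map_inv, hx1', MonoidHom.mem_ker.1 hk, inv_one, mul_one]
      exact hNc x h2 y
  have hcen : p2.ker ≤ Subgroup.center P := by
    intro k hk
    rw [Subgroup.mem_center_iff]
    intro q
    apply hinj
    rw [map_mul, map_mul]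
    exact (hNc (p1 k) ⟨k, hk, rfl⟩ (p1 q)).eq.symm
  have hperf : commutator P = ⊤ := perfect_of hPgen hxxP hyyP hxyP
  haveI hfinP : Finite P := by
    have h3 : Finite (commutator P) := H69.SchurUniv.finite_commutator p2 hcen
    rw [hperf] at h3
    exact (Subgroup.topEquiv (G := P)).toEquiv.finite_iff.1 h3
  have hstem : Cfsg.IsStemExtension p2 := ⟨hs2, hcen, by rw [hperf]; exact le_top⟩
  have hk1 : Nat.card p2.ker = 1 := by
    rw [Nat.eq_one_iff_not_exists_prime_dvd]
    intro p hp
    exact H9.Mult.not_dvd_card hp (H9.MultM24.noStem p hp) P p2 hstem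
  have hinj2 : Function.Injective p2 := by
    rw [← MonoidHom.ker_eq_bot_iff]
    exact Subgroup.card_eq_one.1 hk1
  have e2 : P ≃* M24 := MulEquiv.ofBijective p2 ⟨hinj2, hs2⟩
  have e1 : P ≃* p1.range := MonoidHom.ofInjective hinj
  have hr : p1.range = Subgroup.closure ({x, y} : Set G) := by
    rw [MonoidHom.range_eq_map, ← hPgen, MonoidHom.map_closure, Set.image_pair, hx1', hy1']
  rw [← hr]
  exact ⟨e1.symm.trans e2⟩

end H43.J4Arg
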