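import Mathlib
import Cfsg.Agent.Lib.H7.Hyp

/-!
Siegel transformations of a quadratic space and hyperbolic frames of three pairs.
-/
set_option autoImplicit false

namespace H43.Rho

open QuadraticMap H7.Hyp

variable {F : Type*} [Field F] {V : Type*} [AddCommGroup V] [Module F V] {Q : QuadraticForm F V}

/-- parameters of Siegel transformations -/
def Gd (Q : QuadraticForm F V) (u y : V) : Prop := Q u = 0 ∧ polar Q u y = 0

theorem pol_add_left (x x' y : V) : polar Q (x + x') y = polar Q x y + polar Q x' y := by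
  rw [QuadraticMap.polar_add_left]

theorem pol_add_right (x y y' : V) : polar Q x (y + y') = polar Q x y + polar Q x y' := by
  rw [QuadraticMap.polar_add_right]

theorem pol_smul_left (c : F) (x y : V) : polar Q (c • x) y = c * polar Q x y := by
  rw [QuadraticMap.polar_smul_left]; rfl

theorem pol_smul_right (c : F) (x y : V) : polar Q x (c • y) = c * polar Q x y := by
  rw [QuadraticMap.polar_smul_right]; rfl

theorem pol_self (x : V) : polar Q x x = 2 * Q x := by
  rw [QuadraticMap.polar_self, two_smul, two_mul]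

theorem Qadd (x y : V) : Q (x + y) = Q x + Q y + polar Q x y := by
  simp [QuadraticMap.polar]

theorem Qsmul (c : F) (x : V) : Q (c • x) = c * c * Q x := by
  rw [QuadraticMap.map_smul]; rfl

/-- the Siegel transformation -/
noncomputable def rho (Q : QuadraticForm F V) (u y : V) : V ≃ₗ[F] V :=
  open Classical in
  if hg : Gd Q u y then
    { toFun := fun x => x + polar Q x u • y - polar Q x y • u - (Q y * polar Q x u) • u
      invFun := fun x => x - polar Q x u • y + polar Q x y • u - (Q y * polar Q x u) • u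
      map_add' := fun x x' => by
        simp only [pol_add_left]; module
      map_smul' := fun c x => by
        simp only [pol_smul_left, RingHom.id_apply]; module
      left_inv := fun x => by
        obtain ⟨h1, h2⟩ := hg
        have h3 : polar Q y u = 0 := by rw [polar_comm]; exact h2
        have h4 : polar Q u u = 0 := by rw [pol_self, h1, mul_zero]
        simp only [sub_eq_add_neg, ← neg_smul, pol_add_left, pol_smul_left, h2, h3, h4, pol_self y]
        module
      right_inv := fun x => by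
        obtain ⟨h1, h2⟩ := hg
        have h3 : polar Q y u = 0 := by rw [polar_comm]; exact h2
        have h4 : polar Q u u = 0 := by rw [pol_self, h1, mul_zero]
        simp only [sub_eq_add_neg, ← neg_smul, pol_add_left, pol_smul_left, h2, h3, h4, pol_self y]
        module }
  else 1

theorem rho_apply {u y : V} (hg : Gd Q u y) (x : V) :
    rho Q u y x = x + polar Q x u • y - polar Q x y • u - (Q y * polar Q x u) • u := by
  rw [rho, dif_pos hg]; rfl

theorem rho_of_not {u y : V} (hg : ¬ Gd Q u y) : rho Q u y = 1 := by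
  rw [rho, dif_neg hg]

theorem rho_mem (u y : V) : rho Q u y ∈ O Q := by
  by_cases hg : Gd Q u y
  · intro x
    rw [rho_apply hg]
    obtain ⟨h1, h2⟩ := hg
    have h3 : polar Q y u = 0 := by rw [polar_comm]; exact h2
    simp only [sub_eq_add_neg, ← neg_smul, Qadd, Qsmul, pol_add_left, pol_add_right, pol_smul_left, pol_smul_right,
      h1, h3, pol_self u]
    ring
  · rw [rho_of_not hg]; exact (O Q).one_mem

theorem Gd.map {g : V ≃ₗ[F] V} (hg : g ∈ O Q) {u y : V} (h : Gd Q u y) : Gd Q (g u) (g y) :=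
  ⟨by rw [hg, h.1], by rw [map_O_polar hg, h.2]⟩

theorem rho_conj {g : V ≃ₗ[F] V} (hg : g ∈ O Q) (u y : V) : g * rho Q u y * g⁻¹ = rho Q (g u) (g y) := by
  by_cases hG : Gd Q u y
  · apply LinearEquiv.ext
    intro x
    show g (rho Q u y (g⁻¹ x)) = _
    have h1 : g (g⁻¹ x) = x := g.apply_symm_apply x
    have h2 : ∀ v, polar Q (g⁻¹ x) v = polar Q x (g v) := fun v => by
      rw [← map_O_polar hg (g⁻¹ x) v, h1]
    rw [rho_apply hG, rho_apply (hG.map hg), map_sub, map_sub, map_add, map_smul, map_smul, map_smul, h1, h2, h2,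
      hg y]
  · have hG' : ¬ Gd Q (g u) (g y) := by
      intro h1
      apply hG
      have := h1.map ((O Q).inv_mem hg)
      have h2 : ∀ v, g⁻¹ (g v) = v := fun v => g.symm_apply_apply v
      rwa [h2, h2] at this
    rw [rho_of_not hG, rho_of_not hG', mul_one, mul_inv_cancel]

theorem Gd.add {u y y' : V} (h : Gd Q u y) (h' : Gd Q u y') : Gd Q u (y + y') :=
  ⟨h.1, by rw [pol_add_right, h.2, h'.2, add_zero]⟩

theorem Gd.smul {u y : V} (h : Gd Q u y) (c : F) : Gd Q u (c • y) :=
  ⟨h.1, by rw [pol_smul_right, h.2, mul_zero]⟩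

theorem Gd.neg {u y : V} (h : Gd Q u y) : Gd Q u (-y) := by
  have := h.smul (-1)
  rwa [neg_one_smul] at this

theorem rho_add {u y y' : V} (h : Gd Q u y) (h' : Gd Q u y') : rho Q u y * rho Q u y' = rho Q u (y + y') := by
  apply LinearEquiv.ext
  intro x
  show rho Q u y (rho Q u y' x) = _
  rw [rho_apply (h.add h'), rho_apply h', rho_apply h]
  have h1 : polar Q u u = 0 := by rw [pol_self, h.1, mul_zero]
  have h2 : polar Q y' u = 0 := by rw [polar_comm]; exact h'.2
  have h3 : polar Q y' y = polar Q y y' := polar_comm _ _ _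
  simp only [sub_eq_add_neg, ← neg_smul, Qadd, pol_add_left, pol_add_right, pol_smul_left, h1, h2, h.2, h3]
  module

theorem rho_zero (u : V) : rho Q u 0 = 1 := by
  by_cases h : Gd Q u 0
  · apply LinearEquiv.ext
    intro x
    rw [rho_apply h]
    simp
  · exact rho_of_not h

theorem rho_inv {u y : V} (h : Gd Q u y) : (rho Q u y)⁻¹ = rho Q u (-y) := by
  apply inv_eq_of_mul_eq_one_right
  rw [rho_add h h.neg, add_neg_cancel, rho_zero]

theorem rho_comm {u y y' : V} (h : Gd Q u y) (h' : Gd Q u y') : rho Q u y * rho Q u y' = rho Q u y' * rho Q u y := by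
  rw [rho_add h h', rho_add h' h, add_comm]

theorem rho_smul {u y : V} (h : Gd Q u y) (c : F) : rho Q (c • u) y = rho Q u (c • y) := by
  have h1 : Gd Q (c • u) y := ⟨by rw [Qsmul, h.1, mul_zero], by rw [pol_smul_left, h.2, mul_zero]⟩
  apply LinearEquiv.ext
  intro x
  rw [rho_apply h1, rho_apply (h.smul c), pol_smul_right, pol_smul_right, Qsmul]
  module

/-- swapping the two vectors -/
theorem rho_swap {u y : V} (h : Gd Q u y) (hy : Q y = 0) : rho Q u y = rho Q y (-u) := by
  have h1 : Gd Q y (-u) := ⟨hy, by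
    rw [← neg_one_smul F u, pol_smul_right, polar_comm, h.2, mul_zero]⟩
  apply LinearEquiv.ext
  intro x
  have e1 : polar Q x (-u) = - polar Q x u := by
    rw [← neg_one_smul F u, pol_smul_right, neg_one_mul]
  have e2 : Q (-u) = 0 := by rw [← neg_one_smul F u, Qsmul, h.1, mul_zero]
  rw [rho_apply h, rho_apply h1, hy, e1, e2]
  module

/-- adding two orthogonal singular vectors -/
theorem rho_add_left {u u' y : V} (h : Gd Q u y) (h' : Gd Q u' y) (huu : polar Q u u' = 0) :
    rho Q u y * rho Q u' y = rho Q (u + u') y * rho Q u (Q y • u') := by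
  have h1 : Gd Q (u + u') y := ⟨by rw [Qadd, h.1, h'.1, huu]; ring, by rw [pol_add_left, h.2, h'.2, add_zero]⟩
  have h2 : Gd Q u (Q y • u') := ⟨h.1, by rw [pol_smul_right, huu, mul_zero]⟩
  apply LinearEquiv.ext
  intro x
  show rho Q u y (rho Q u' y x) = rho Q (u + u') y (rho Q u (Q y • u') x)
  have a1 : polar Q u u = 0 := by rw [pol_self, h.1, mul_zero]
  have a2 : polar Q u' u' = 0 := by rw [pol_self, h'.1, mul_zero]
  have a3 : polar Q u' u = 0 := by rw [polar_comm]; exact huu
  have a4 : polar Q y u = 0 := by rw [polar_comm]; exact h.2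
  have a5 : polar Q y u' = 0 := by rw [polar_comm]; exact h'.2
  have a6 : Q (Q y • u') = 0 := by rw [Qsmul, h'.1, mul_zero]
  rw [rho_apply h', rho_apply h, rho_apply h2, rho_apply h1]
  simp only [sub_eq_add_neg, ← neg_smul, pol_add_left, pol_add_right, pol_smul_left, pol_smul_right, a1, a2, a3, a4,
    a5, a6, huu, h.2, h'.2, pol_self y]
  module

/-- three hyperbolic pairs -/
structure Fr (Q : QuadraticForm F V) (e f : Fin 3 → V) : Prop where
  e0 : ∀ i, Q (e i) = 0
  f0 : ∀ i, Q (f i) = 0
  ee : ∀ i j, polar Q (e i) (e j) = 0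
  ff : ∀ i j, polar Q (f i) (f j) = 0
  ef : ∀ i j, polar Q (e i) (f j) = if i = j then 1 else 0

variable {e f : Fin 3 → V}

theorem Fr.fe (h : Fr Q e f) (i j : Fin 3) : polar Q (f i) (e j) = if i = j then 1 else 0 := by
  rw [polar_comm, h.ef]
  by_cases hij : i = j
  · rw [if_pos hij, if_pos hij.symm]
  · rw [if_neg hij, if_neg (Ne.symm hij)]

theorem Fr.swap (h : Fr Q e f) : Fr Q f e := ⟨h.f0, h.e0, h.ff, h.ee, h.fe⟩

/-- the orthogonal complement -/
def Bp (Q : QuadraticForm F V) (e f : Fin 3 → V) : Submodule F V where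
  carrier := {b | ∀ i, polar Q (e i) b = 0 ∧ polar Q (f i) b = 0}
  add_mem' := by
    intro b b' hb hb' i
    rw [pol_add_right, pol_add_right, (hb i).1, (hb' i).1, (hb i).2, (hb' i).2, add_zero]
    exact ⟨rfl, rfl⟩
  zero_mem' := by
    intro i
    simp
  smul_mem' := by
    intro c b hb i
    rw [pol_smul_right, pol_smul_right, (hb i).1, (hb i).2, mul_zero]
    exact ⟨rfl, rfl⟩

theorem mem_Bp {b : V} : b ∈ Bp Q e f ↔ ∀ i, polar Q (e i) b = 0 ∧ polar Q (f i) b = 0 := Iff.rfl

theorem Bp_swap : Bp Q f e = Bp Q e f := by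
  ext b
  rw [mem_Bp, mem_Bp]
  exact forall_congr' fun i => and_comm

/-- the transvection `T i j c`: `e j ↦ e j - c e i`, `f i ↦ f i + c f j` -/
noncomputable def T (Q : QuadraticForm F V) (e f : Fin 3 → V) (i j : Fin 3) (c : F) : V ≃ₗ[F] V := rho Q (e i) (c • f j)

theorem T_mem (i j : Fin 3) (c : F) : T Q e f i j c ∈ O Q := rho_mem _ _

theorem Fr.gT (h : Fr Q e f) {i j : Fin 3} (hij : i ≠ j) (c : F) : Gd Q (e i) (c • f j) :=
  ⟨h.e0 i, by rw [pol_smul_right, h.ef, if_neg hij, mul_zero]⟩

theorem Fr.gE (h : Fr Q e f) (i : Fin 3) {b : V} (hb : b ∈ Bp Q e f) : Gd Q (e i) b := ⟨h.e0 i, (hb i).1⟩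

theorem Fr.gee (h : Fr Q e f) (i j : Fin 3) (c : F) : Gd Q (e i) (c • e j) :=
  ⟨h.e0 i, by rw [pol_smul_right, h.ee, mul_zero]⟩

theorem Fr.T_e (h : Fr Q e f) {i j : Fin 3} (hij : i ≠ j) (c : F) (k : Fin 3) :
    T Q e f i j c (e k) = e k - (if k = j then c else 0) • e i := by
  rw [T, rho_apply (h.gT hij c), h.ee, pol_smul_right, h.ef]
  by_cases hk : k = j
  · rw [if_pos hk, if_pos hk]; module
  · rw [if_neg hk, if_neg hk]; module

theorem Fr.T_f (h : Fr Q e f) {i j : Fin 3} (hij : i ≠ j) (c : F) (k : Fin 3) :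
    T Q e f i j c (f k) = f k + (if k = i then c else 0) • f j := by
  have h1 : Q (c • f j) = 0 := by rw [Qsmul, h.f0, mul_zero]
  rw [T, rho_apply (h.gT hij c), h.fe, pol_smul_right, h.ff, h1]
  by_cases hk : k = i
  · rw [if_pos hk, if_pos hk]; module
  · rw [if_neg hk, if_neg hk]; module

theorem Fr.T_b (h : Fr Q e f) {i j : Fin 3} (hij : i ≠ j) (c : F) {b : V} (hb : b ∈ Bp Q e f) :
    T Q e f i j c b = b := by
  have h1 : polar Q b (e i) = 0 := by rw [polar_comm]; exact (hb i).1
  have h2 : polar Q b (f j) = 0 := by rw [polar_comm]; exact (hb j).2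
  rw [T, rho_apply (h.gT hij c), pol_smul_right, h1, h2]
  module

theorem Fr.T_swap (h : Fr Q e f) {i j : Fin 3} (hij : i ≠ j) (c : F) : T Q f e i j c = T Q e f j i (-c) := by
  have g := h.swap.gT hij c
  rw [T, T, rho_swap g (by rw [Qsmul, h.e0, mul_zero])]
  have g' : Gd Q (e j) (-f i) := ⟨h.e0 j, by
    rw [← neg_one_smul F (f i), pol_smul_right, h.ef, if_neg hij.symm, mul_zero]⟩
  rw [rho_smul g']
  congr 1
  module

end H43.Rho
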