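import Mathlib
import Cfsg.Agent.Lib.H43.Rho

/-!
Subgroups containing the transvections `T i j c` of a frame of three hyperbolic pairs and further Siegel
transformations.
-/
set_option autoImplicit false

namespace H43.RhoGen

open QuadraticMap H7.Hyp H43.Rho

variable {F : Type*} [Field F] {V : Type*} [AddCommGroup V] [Module F V] {Q : QuadraticForm F V}
variable {e f : Fin 3 → V} {M : Subgroup (V ≃ₗ[F] V)}

theorem conj_mem {g x : V ≃ₗ[F] V} (hg : g ∈ M) (hx : x ∈ M) : g * x * g⁻¹ ∈ M :=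
  M.mul_mem (M.mul_mem hg hx) (M.inv_mem hg)

theorem exists_third (a b : Fin 3) (hab : a ≠ b) : ∃ k, k ≠ a ∧ k ≠ b := by
  revert a b; decide

theorem exists_other (a : Fin 3) : ∃ k, k ≠ a := by
  revert a; decide

theorem step1 (h : Fr Q e f) (hT : ∀ i j c, i ≠ j → T Q e f i j c ∈ M) {a b k : Fin 3} (hab : a ≠ b) (hka : k ≠ a)
    {κ : F} (hm : rho Q (e a) (κ • e b) ∈ M) (l : F) : rho Q (e k) ((l * κ) • e b) ∈ M := by
  have h1 := conj_mem (hT k a (-l) hka) hm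
  rw [rho_conj (T_mem _ _ _), map_smul, h.T_e hka, h.T_e hka, if_pos rfl, if_neg hab.symm, zero_smul, sub_zero] at h1
  have e1 : e a - -l • e k = e a + l • e k := by module
  rw [e1] at h1
  have g1 := h.gee a b κ
  have g2 : Gd Q (l • e k) (κ • e b) := ⟨by rw [Qsmul, h.e0, mul_zero], by
    rw [pol_smul_left, pol_smul_right, h.ee, mul_zero, mul_zero]⟩
  have h2 := rho_add_left g1 g2 (by rw [pol_smul_right, h.ee, mul_zero])
  have h3 : Q (κ • e b) = 0 := by rw [Qsmul, h.e0, mul_zero]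
  rw [h3, zero_smul, rho_zero, mul_one] at h2
  rw [← h2] at h1
  have h4 := M.mul_mem (M.inv_mem hm) h1
  rw [inv_mul_cancel_left, rho_smul (h.gee k b κ), smul_smul] at h4
  exact h4

theorem ee_swap (h : Fr Q e f) {a b : Fin 3} {κ : F} (hm : rho Q (e a) (κ • e b) ∈ M) :
    rho Q (e b) ((-κ) • e a) ∈ M := by
  rw [rho_swap (h.gee a b κ) (by rw [Qsmul, h.e0, mul_zero])] at hm
  have g : Gd Q (e b) (-e a) := by
    have := h.gee b a (-1)
    rwa [neg_one_smul] at this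
  rw [rho_smul g] at hm
  have e1 : κ • -e a = (-κ) • e a := by module
  rwa [e1] at hm

theorem step2 (h : Fr Q e f) (hT : ∀ i j c, i ≠ j → T Q e f i j c ∈ M) {a b : Fin 3} (hab : a ≠ b)
    {κ : F} (hm : rho Q (e a) (κ • e b) ∈ M) (c : Fin 3) (hc : c ≠ b) (l : F) : rho Q (e c) ((l * κ) • e b) ∈ M := by
  by_cases hca : c = a
  · subst hca
    obtain ⟨k, hk1, hk2⟩ := exists_third c b hab
    have h1 := step1 h hT hab hk1 hm l
    have h2 := step1 h hT hk2 (Ne.symm hk1) h1 1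
    rwa [one_mul] at h2
  · exact step1 h hT hab hca hm l

theorem step3 (h : Fr Q e f) (hT : ∀ i j c, i ≠ j → T Q e f i j c ∈ M) {a b : Fin 3} (hab : a ≠ b)
    {κ : F} (hm : rho Q (e a) (κ • e b) ∈ M) (c d : Fin 3) (hc : c ≠ d) (l : F) :
    rho Q (e c) ((l * κ) • e d) ∈ M := by
  by_cases hd : d = b
  · subst hd
    exact step2 h hT hab hm c hc l
  · have h1 := ee_swap h (step2 h hT hab hm d hd (-1))
    have h2 := step2 h hT (Ne.symm hd) h1 c hc l
    have e1 : l * -(-1 * κ) = l * κ := by ring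
    rwa [e1] at h2

theorem T_conj_e (h : Fr Q e f) {i j : Fin 3} (hij : i ≠ j) (c : F) {b : V} (hb : b ∈ Bp Q e f) :
    T Q e f i j (-c) * rho Q (e j) b * (T Q e f i j (-c))⁻¹ = rho Q (e j + c • e i) b := by
  rw [rho_conj (T_mem _ _ _), h.T_e hij, if_pos rfl, h.T_b hij _ hb]
  congr 1
  module

theorem gsum (h : Fr Q e f) (i j : Fin 3) (c : F) {b : V} (hb : b ∈ Bp Q e f) : Gd Q (c • e i) b :=
  ⟨by rw [Qsmul, h.e0, mul_zero], by rw [pol_smul_left, (hb i).1, mul_zero]⟩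

theorem split (h : Fr Q e f) (i j : Fin 3) (c : F) {b : V} (hb : b ∈ Bp Q e f) :
    rho Q (e j) b * rho Q (e i) (c • b) = rho Q (e j + c • e i) b * rho Q (e j) ((c * Q b) • e i) := by
  have h1 := rho_add_left (h.gE j hb) (gsum h i j c hb) (by rw [pol_smul_right, h.ee, mul_zero])
  rw [rho_smul (h.gE i hb)] at h1
  rw [h1, smul_smul, mul_comm c]

/-- by-products -/
theorem ee_of_all (h : Fr Q e f) (hT : ∀ i j c, i ≠ j → T Q e f i j c ∈ M) {b : V} (hb : b ∈ Bp Q e f)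
    (hall : ∀ i, rho Q (e i) b ∈ M) (c d : Fin 3) (hc : c ≠ d) (l : F) : rho Q (e c) ((l * Q b) • e d) ∈ M := by
  have h1 := conj_mem (hT 0 1 (-1) (by decide)) (hall 1)
  rw [T_conj_e h (by decide) 1 hb] at h1
  have h2 := split h 0 1 1 hb
  have h3 : rho Q (e 1) ((1 * Q b) • e 0) ∈ M := by
    have : rho Q (e 1) ((1 * Q b) • e 0) = (rho Q (e 1 + (1 : F) • e 0) b)⁻¹ * (rho Q (e 1) b * rho Q (e 0) ((1 : F) • b)) := by
      rw [h2]; group
    rw [this, one_smul F b]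
    exact M.mul_mem (M.inv_mem h1) (M.mul_mem (hall 1) (hall 0))
  rw [one_mul] at h3
  exact step3 h hT (by decide) h3 c d hc l

theorem all_of_one (h : Fr Q e f) (hT : ∀ i j c, i ≠ j → T Q e f i j c ∈ M) {b : V} (hb : b ∈ Bp Q e f)
    {j : Fin 3} (hj : rho Q (e j) b ∈ M) (hee : ∀ c d, c ≠ d → rho Q (e c) (Q b • e d) ∈ M) (i : Fin 3) :
    rho Q (e i) b ∈ M := by
  by_cases hij : i = j
  · rw [hij]; exact hj
  · have h1 := conj_mem (hT i j (-1) hij) hj
    rw [T_conj_e h hij 1 hb] at h1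
    have h2 := split h i j 1 hb
    rw [one_smul, one_smul, one_mul] at h2
    rw [one_smul] at h1
    have h3 : rho Q (e i) b = (rho Q (e j) b)⁻¹ * (rho Q (e j + e i) b * rho Q (e j) (Q b • e i)) := by
      rw [← h2]; group
    rw [h3]
    exact M.mul_mem (M.inv_mem hj) (M.mul_mem h1 (hee j i (Ne.symm hij)))

theorem smul_mem (h : Fr Q e f) (hT : ∀ i j c, i ≠ j → T Q e f i j c ∈ M) {b : V} (hb : b ∈ Bp Q e f)
    (hall : ∀ i, rho Q (e i) b ∈ M) (c : F) (i : Fin 3) : rho Q (e i) (c • b) ∈ M := by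
  obtain ⟨j, hj⟩ := exists_other i
  have h1 := conj_mem (hT i j (-c) (Ne.symm hj)) (hall j)
  rw [T_conj_e h (Ne.symm hj) c hb] at h1
  have h2 := split h i j c hb
  have h3 : rho Q (e i) (c • b) = (rho Q (e j) b)⁻¹ * (rho Q (e j + c • e i) b * rho Q (e j) ((c * Q b) • e i)) := by
    rw [← h2]; group
  rw [h3]
  exact M.mul_mem (M.inv_mem (hall j)) (M.mul_mem h1 (ee_of_all h hT hb hall j i hj c))

/-- the subspace of parameters -/
def WE (h : Fr Q e f) (hT : ∀ i j c, i ≠ j → T Q e f i j c ∈ M) : Submodule F V where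
  carrier := {b | b ∈ Bp Q e f ∧ ∀ i, rho Q (e i) b ∈ M}
  zero_mem' := ⟨Submodule.zero_mem _, fun i => by rw [rho_zero]; exact M.one_mem⟩
  add_mem' := by
    rintro b b' ⟨hb, h1⟩ ⟨hb', h2⟩
    refine ⟨Submodule.add_mem _ hb hb', fun i => ?_⟩
    rw [← rho_add (h.gE i hb) (h.gE i hb')]
    exact M.mul_mem (h1 i) (h2 i)
  smul_mem' := by
    rintro c b ⟨hb, h1⟩
    exact ⟨Submodule.smul_mem _ _ hb, fun i => smul_mem h hT hb h1 c i⟩

theorem mem_WE {h : Fr Q e f} {hT : ∀ i j c, i ≠ j → T Q e f i j c ∈ M} {b : V} :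
    b ∈ WE h hT ↔ b ∈ Bp Q e f ∧ ∀ i, rho Q (e i) b ∈ M := Iff.rfl

/-- extraction -/
theorem extract (h : Fr Q e f) (hT : ∀ i j c, i ≠ j → T Q e f i j c ∈ M) {w : V} (hw : w ∈ Bp Q e f)
    {i j k : Fin 3} (hij : i ≠ j) (hki : k ≠ i) (hkj : k ≠ j) (Y : V ≃ₗ[F] V) (hX : rho Q (e i) w * Y ∈ M)
    (hY : ∃ g ∈ M, Y * g * Y⁻¹ = T Q e f j i (-1)) : ∀ l, rho Q (e l) w ∈ M := by
  obtain ⟨g, hg, hgY⟩ := hY
  have h1 := conj_mem hX hg
  have h2 : rho Q (e i) w * Y * g * (rho Q (e i) w * Y)⁻¹ = rho Q (e i) w * (Y * g * Y⁻¹) * (rho Q (e i) w)⁻¹ := by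
    group
  rw [h2, hgY] at h1
  have h3 := M.mul_mem h1 (M.inv_mem (hT j i (-1) (Ne.symm hij)))
  have h4 : rho Q (e i) w * T Q e f j i (-1) * (rho Q (e i) w)⁻¹ * (T Q e f j i (-1))⁻¹ =
      rho Q (e i) w * (T Q e f j i (-1) * rho Q (e i) w * (T Q e f j i (-1))⁻¹)⁻¹ := by group
  rw [h4, T_conj_e h (Ne.symm hij) 1 hw, one_smul] at h3
  have h5 := split h i j 1 hw
  rw [one_smul, one_smul, one_mul] at h5
  have gi := h.gE i hw
  have gj := h.gE j hw
  -- `D`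
  have hD : rho Q (e j) (Q w • e i) = rho Q (e i) (-(Q w) • e j) := by
    rw [rho_swap (h.gee j i _) (by rw [Qsmul, h.e0, mul_zero])]
    have g : Gd Q (e i) (-e j) := by
      have := h.gee i j (-1)
      rwa [neg_one_smul] at this
    rw [rho_smul g]
    congr 1
    module
  have h6 : rho Q (e i + e j) w = rho Q (e j) w * rho Q (e i) w * (rho Q (e j) (Q w • e i))⁻¹ := by
    rw [add_comm (e i), h5]; group
  have h7 : rho Q (e i) w * (rho Q (e i + e j) w)⁻¹ = rho Q (e j) (Q w • e i) * (rho Q (e j) w)⁻¹ := by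
    rw [h6, hD]
    have hc : rho Q (e i) w * rho Q (e i) (-(Q w) • e j) = rho Q (e i) (-(Q w) • e j) * rho Q (e i) w :=
      rho_comm gi (h.gee i j _)
    calc rho Q (e i) w * (rho Q (e j) w * rho Q (e i) w * (rho Q (e i) (-(Q w) • e j))⁻¹)⁻¹
        = (rho Q (e i) w * rho Q (e i) (-(Q w) • e j)) * (rho Q (e i) w)⁻¹ * (rho Q (e j) w)⁻¹ := by group
      _ = _ := by rw [hc]; group
  rw [h7] at h3
  -- conjugate by `T k i (-1)`
  have h8 := conj_mem (hT k i (-1) hki) h3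
  have h9 : T Q e f k i (-1) * (rho Q (e j) (Q w • e i) * (rho Q (e j) w)⁻¹) * (T Q e f k i (-1))⁻¹ =
      rho Q (e j) (Q w • e i) * rho Q (e j) (Q w • e k) * (rho Q (e j) w)⁻¹ := by
    have a1 : T Q e f k i (-1) * rho Q (e j) (Q w • e i) * (T Q e f k i (-1))⁻¹ =
        rho Q (e j) (Q w • e i) * rho Q (e j) (Q w • e k) := by
      rw [rho_conj (T_mem _ _ _), map_smul, h.T_e hki, h.T_e hki, if_neg (Ne.symm hij), if_pos rfl,
        rho_add (h.gee j i _) (h.gee j k _)]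
      congr 1 <;> module
    have a2 : T Q e f k i (-1) * rho Q (e j) w * (T Q e f k i (-1))⁻¹ = rho Q (e j) w := by
      rw [rho_conj (T_mem _ _ _), h.T_e hki, if_neg (Ne.symm hij), zero_smul, sub_zero, h.T_b hki _ hw]
    calc _ = (T Q e f k i (-1) * rho Q (e j) (Q w • e i) * (T Q e f k i (-1))⁻¹) *
          (T Q e f k i (-1) * rho Q (e j) w * (T Q e f k i (-1))⁻¹)⁻¹ := by group
      _ = _ := by rw [a1, a2]
  rw [h9] at h8
  have h10 : rho Q (e j) (Q w • e k) ∈ M := by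
    have := M.mul_mem h8 (M.inv_mem h3)
    have a3 : rho Q (e j) (Q w • e i) * rho Q (e j) (Q w • e k) * (rho Q (e j) w)⁻¹ *
        (rho Q (e j) (Q w • e i) * (rho Q (e j) w)⁻¹)⁻¹ = rho Q (e j) (Q w • e k) := by
      have a4 := rho_comm (h.gee j i (Q w)) (h.gee j k (Q w))
      calc _ = rho Q (e j) (Q w • e i) * rho Q (e j) (Q w • e k) * (rho Q (e j) (Q w • e i))⁻¹ := by group
        _ = _ := by rw [a4]; group
    rwa [a3] at this
  have hee : ∀ c d, c ≠ d → rho Q (e c) (Q w • e d) ∈ M := by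
    intro c d hcd
    have := step3 h hT (Ne.symm hkj) h10 c d hcd 1
    rwa [one_mul] at this
  have h11 : rho Q (e j) w ∈ M := by
    have := M.mul_mem (M.inv_mem h3) (hee j i (Ne.symm hij))
    rwa [mul_inv_rev, inv_inv, inv_mul_cancel_right] at this
  exact all_of_one h hT hw h11 hee

theorem hT_swap (h : Fr Q e f) (hT : ∀ i j c, i ≠ j → T Q e f i j c ∈ M) : ∀ i j c, i ≠ j → T Q f e i j c ∈ M := by
  intro i j c hij
  rw [h.T_swap hij]
  exact hT j i _ (Ne.symm hij)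

theorem extract2 (h : Fr Q e f) (hT : ∀ i j c, i ≠ j → T Q e f i j c ∈ M) {w w' : V} (hw : w ∈ Bp Q e f)
    (hw' : w' ∈ Bp Q e f) (Y : V ≃ₗ[F] V) (hX : rho Q (e 0) w * (rho Q (f 2) w' * Y) ∈ M)
    (hY : ∀ i j c, i ≠ j → ∃ g ∈ M, Y * g * Y⁻¹ = T Q e f i j c) :
    (∀ i, rho Q (e i) w ∈ M) ∧ (∀ i, rho Q (f i) w' ∈ M) ∧ Y ∈ M := by
  have h1 : ∀ l, rho Q (e l) w ∈ M := by
    apply extract h hT hw (i := 0) (j := 1) (k := 2) (by decide) (by decide) (by decide) _ hX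
    obtain ⟨g, hg, hgY⟩ := hY 1 0 (-1) (by decide)
    refine ⟨g, hg, ?_⟩
    have a1 : T Q e f 1 0 (-1) * rho Q (f 2) w' * (T Q e f 1 0 (-1))⁻¹ = rho Q (f 2) w' := by
      rw [rho_conj (T_mem _ _ _), h.T_f (by decide), if_neg (by decide), zero_smul, add_zero, h.T_b (by decide) _ hw']
    have a2 : rho Q (f 2) w' * T Q e f 1 0 (-1) = T Q e f 1 0 (-1) * rho Q (f 2) w' := by
      rw [mul_inv_eq_iff_eq_mul] at a1
      exact a1.symm
    calc rho Q (f 2) w' * Y * g * (rho Q (f 2) w' * Y)⁻¹ = rho Q (f 2) w' * (Y * g * Y⁻¹) * (rho Q (f 2) w')⁻¹ := by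
          group
      _ = _ := by rw [hgY, a2, mul_inv_cancel_right]
  have h2 : rho Q (f 2) w' * Y ∈ M := by
    have := M.mul_mem (M.inv_mem (h1 0)) hX
    rwa [inv_mul_cancel_left] at this
  have h3 : ∀ l, rho Q (f l) w' ∈ M := by
    apply extract h.swap (hT_swap h hT) (by rw [Bp_swap]; exact hw') (i := 2) (j := 1) (k := 0) (by decide) (by decide)
      (by decide) Y h2
    obtain ⟨g, hg, hgY⟩ := hY 2 1 1 (by decide)
    refine ⟨g, hg, ?_⟩
    rw [hgY, h.T_swap (by decide), neg_neg]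
  refine ⟨h1, h3, ?_⟩
  have := M.mul_mem (M.inv_mem (h3 2)) h2
  rwa [inv_mul_cancel_left] at this

/-- passing from `f` to `e` -/
theorem cross (h : Fr Q e f) (hT : ∀ i j c, i ≠ j → T Q e f i j c ∈ M) {w w' : V} (hw : w ∈ Bp Q e f)
    (hw' : w' ∈ Bp Q e f) (hQ : Q w ≠ 0) (h1 : ∀ i, rho Q (e i) w ∈ M) (h2 : ∀ i, rho Q (f i) w' ∈ M) (j : Fin 3) :
    rho Q (e j) w' ∈ M := by
  obtain ⟨i, hi⟩ := exists_other j
  have h3 : ∀ c d : Fin 3, c ≠ d → ∀ l : F, rho Q (e c) (l • e d) ∈ M := by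
    intro c d hcd l
    have := ee_of_all h hT hw h1 c d hcd (l * (Q w)⁻¹)
    rwa [mul_assoc, inv_mul_cancel₀ hQ, mul_one] at this
  have h4 := conj_mem (h2 i) (h3 i j hi 1)
  have g1 : Gd Q (f i) w' := ⟨h.f0 i, (hw' i).2⟩
  have e1 : rho Q (f i) w' (e i) = e i + w' - Q w' • f i := by
    rw [rho_apply g1, h.ef, if_pos rfl, (hw' i).1]
    module
  have e2 : rho Q (f i) w' (e j) = e j := by
    rw [rho_apply g1, h.ef, if_neg (Ne.symm hi), (hw' j).1]
    module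
  rw [rho_conj (rho_mem _ _), one_smul, e1, e2] at h4
  have g2 : Gd Q (e i + w' - Q w' • f i) (e j) := by
    have := (h.gee i j 1).map (g := rho Q (f i) w') (rho_mem _ _)
    rwa [one_smul, e1, e2] at this
  rw [rho_swap g2 (h.e0 j)] at h4
  have g3 : Gd Q (e j) (-e i) := by
    have := h.gee j i (-1)
    rwa [neg_one_smul] at this
  have g4 : Gd Q (e j) (-w') := (h.gE j hw').neg
  have g5 : Gd Q (e j) (Q w' • f i) := h.gT (Ne.symm hi) _
  have e3 : -(e i + w' - Q w' • f i) = -e i + -w' + Q w' • f i := by module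
  rw [e3, ← rho_add (g3.add g4) g5, ← rho_add g3 g4] at h4
  have h5 : rho Q (e j) (-e i) ∈ M := by
    have := h3 j i (Ne.symm hi) (-1)
    rwa [neg_one_smul] at this
  have h6 : rho Q (e j) (Q w' • f i) ∈ M := hT j i _ (Ne.symm hi)
  have h7 : rho Q (e j) (-w') ∈ M := by
    have := M.mul_mem (M.mul_mem (M.inv_mem h5) h4) (M.inv_mem h6)
    have a : (rho Q (e j) (-e i))⁻¹ * (rho Q (e j) (-e i) * rho Q (e j) (-w') * rho Q (e j) (Q w' • f i)) *
      (rho Q (e j) (Q w' • f i))⁻¹ = rho Q (e j) (-w') := by group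
    rwa [a] at this
  rw [← rho_inv (h.gE j hw')] at h7
  exact (M.inv_mem_iff).1 h7

/-- decomposition of vectors -/
theorem exists_decomp (h : Fr Q e f) (y : V) : ∃ b ∈ Bp Q e f,
    y = b + (polar Q y (f 0) • e 0 + polar Q y (e 0) • f 0) + (polar Q y (f 1) • e 1 + polar Q y (e 1) • f 1) +
      (polar Q y (f 2) • e 2 + polar Q y (e 2) • f 2) := by
  refine ⟨y - (polar Q y (f 0) • e 0 + polar Q y (e 0) • f 0) - (polar Q y (f 1) • e 1 + polar Q y (e 1) • f 1) -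
      (polar Q y (f 2) • e 2 + polar Q y (e 2) • f 2), ?_, by abel⟩
  intro i
  have c1 : polar Q (e i) y = polar Q y (e i) := polar_comm _ _ _
  have c2 : polar Q (f i) y = polar Q y (f i) := polar_comm _ _ _
  constructor
  · simp only [sub_eq_add_neg, ← neg_smul, ← neg_add, pol_add_right, pol_smul_right, h.ee, h.ef, c1]
    rw [neg_add, neg_add, neg_add]
    simp only [← neg_smul, pol_add_right, pol_smul_right, h.ee, h.ef]
    fin_cases i <;> simp
  · simp only [sub_eq_add_neg, ← neg_smul, ← neg_add, pol_add_right, pol_smul_right, h.ff, h.fe, c2]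
    rw [neg_add, neg_add, neg_add]
    simp only [← neg_smul, pol_add_right, pol_smul_right, h.ff, h.fe]
    fin_cases i <;> simp

theorem final_e (h : Fr Q e f) (hT : ∀ i j c, i ≠ j → T Q e f i j c ∈ M)
    (hall : ∀ b ∈ Bp Q e f, ∀ i, rho Q (e i) b ∈ M) (hne : ∃ b ∈ Bp Q e f, Q b ≠ 0) (y : V)
    (hy : polar Q (e 0) y = 0) : rho Q (e 0) y ∈ M := by
  obtain ⟨b0, hb0, hQb0⟩ := hne
  have h3 : ∀ c d : Fin 3, c ≠ d → ∀ l : F, rho Q (e c) (l • e d) ∈ M := by
    intro c d hcd l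
    have := ee_of_all h hT hb0 (hall b0 hb0) c d hcd (l * (Q b0)⁻¹)
    rwa [mul_assoc, inv_mul_cancel₀ hQb0, mul_one] at this
  obtain ⟨b, hb, hyb⟩ := exists_decomp h y
  have hy' : polar Q y (e 0) = 0 := by rw [polar_comm]; exact hy
  rw [hy', zero_smul, add_zero] at hyb
  have g0 := h.gE 0 hb
  have g1 := h.gee 0 0 (polar Q y (f 0))
  have g2 := (h.gee 0 1 (polar Q y (f 1))).add (h.gT (i := 0) (j := 1) (by decide) (polar Q y (e 1)))
  have g3 := (h.gee 0 2 (polar Q y (f 2))).add (h.gT (i := 0) (j := 2) (by decide) (polar Q y (e 2)))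
  rw [hyb, ← rho_add ((g0.add g1).add g2) g3, ← rho_add (g0.add g1) g2, ← rho_add g0 g1,
    ← rho_add (h.gee 0 1 _) (h.gT (by decide) _), ← rho_add (h.gee 0 2 _) (h.gT (by decide) _)]
  refine M.mul_mem (M.mul_mem (M.mul_mem (hall b hb 0) ?_) (M.mul_mem (h3 0 1 (by decide) _) (hT 0 1 _ (by decide))))
    (M.mul_mem (h3 0 2 (by decide) _) (hT 0 2 _ (by decide)))
  have : rho Q (e 0) (polar Q y (f 0) • e 0) = 1 := by
    apply LinearEquiv.ext
    intro x
    rw [rho_apply g1, Qsmul, h.e0, pol_smul_right]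
    show _ = x
    module
  rw [this]; exact M.one_mem

end H43.RhoGen
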