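import Mathlib
import Cfsg.Agent.Lib.H43.RhoGen
import Cfsg.Agent.Lib.H7.OmegaIso
import Cfsg.Agent.Lib.H45.SLnGen

/-!
Two-generation of `Om (hyp (hyp Q))`: the model with three hyperbolic planes split off.
-/
set_option autoImplicit false

namespace H43.OmTwo

open QuadraticMap H7.Hyp H7.Omega H43.Rho H43.RhoGen Matrix

variable {F : Type*} [Field F] {B : Type*} [AddCommGroup B] [Module F B] {Q : QuadraticForm F B}

/-- coordinates -/
def Psi (F B : Type*) [Field F] [AddCommGroup B] [Module F B] :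
    ((Fin 3 → F) × (Fin 3 → F) × B) ≃ₗ[F] (F × F × (F × F × (F × F × B))) where
  toFun p := (p.1 0, p.2.1 0, (p.1 1, p.2.1 1, (p.1 2, p.2.1 2, p.2.2)))
  invFun q := (![q.1, q.2.2.1, q.2.2.2.2.1], ![q.2.1, q.2.2.2.1, q.2.2.2.2.2.1], q.2.2.2.2.2.2)
  map_add' p p' := rfl
  map_smul' c p := rfl
  left_inv p := by
    obtain ⟨x, y, b⟩ := p
    simp only [Prod.mk.injEq, and_true]
    constructor <;> funext i <;> fin_cases i <;> rfl
  right_inv q := rfl

theorem Psi_apply (x y : Fin 3 → F) (b : B) : Psi F B (x, y, b) = (x 0, y 0, (x 1, y 1, (x 2, y 2, b))) := rfl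

theorem Q_Psi (x y : Fin 3 → F) (b : B) : hyp (hyp (hyp Q)) (Psi F B (x, y, b)) = x ⬝ᵥ y + Q b := by
  rw [Psi_apply, hyp_apply, hyp_apply, hyp_apply, dotProduct, Fin.sum_univ_three]
  ring

theorem pol_Psi (x y x' y' : Fin 3 → F) (b b' : B) :
    polar (hyp (hyp (hyp Q))) (Psi F B (x, y, b)) (Psi F B (x', y', b')) = x ⬝ᵥ y' + x' ⬝ᵥ y + polar Q b b' := by
  rw [Psi_apply, Psi_apply, polar_hyp, polar_hyp, polar_hyp]
  simp only [dotProduct, Fin.sum_univ_three]
  ring

/-- the contragredient -/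
def tinv : Matrix.SpecialLinearGroup (Fin 3) F →* Matrix.SpecialLinearGroup (Fin 3) F where
  toFun g := (g⁻¹).transpose
  map_one' := by
    apply Subtype.ext
    simp
  map_mul' g g' := by
    apply Subtype.ext
    have h : (((g * g')⁻¹ : Matrix.SpecialLinearGroup (Fin 3) F) : Matrix (Fin 3) (Fin 3) F) =
        ((g'⁻¹ : Matrix.SpecialLinearGroup (Fin 3) F) : Matrix (Fin 3) (Fin 3) F) *
        ((g⁻¹ : Matrix.SpecialLinearGroup (Fin 3) F) : Matrix (Fin 3) (Fin 3) F) :=
      congrArg Subtype.val (_root_.mul_inv_rev g g')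
    have h2 := congrArg Matrix.transpose h
    rw [Matrix.transpose_mul] at h2
    exact h2

theorem tinv_coe (g : Matrix.SpecialLinearGroup (Fin 3) F) : (tinv g : Matrix (Fin 3) (Fin 3) F) = ((g⁻¹ : Matrix.SpecialLinearGroup (Fin 3) F) : Matrix (Fin 3) (Fin 3) F)ᵀ := rfl

theorem dot_tinv (g : Matrix.SpecialLinearGroup (Fin 3) F) (x y : Fin 3 → F) :
    ((g : Matrix (Fin 3) (Fin 3) F) *ᵥ x) ⬝ᵥ ((tinv g : Matrix (Fin 3) (Fin 3) F) *ᵥ y) = x ⬝ᵥ y := by
  have h : ((g⁻¹ : Matrix.SpecialLinearGroup (Fin 3) F) : Matrix (Fin 3) (Fin 3) F) * (g : Matrix (Fin 3) (Fin 3) F) = 1 := by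
    exact congrArg Subtype.val (inv_mul_cancel g)
  rw [tinv_coe, mulVec_transpose, dotProduct_comm, dotProduct_mulVec, vecMul_vecMul, h, vecMul_one, dotProduct_comm]

/-- the Levi subgroup -/
noncomputable def lev (F B : Type*) [Field F] [AddCommGroup B] [Module F B] :
    Matrix.SpecialLinearGroup (Fin 3) F →* ((F × F × (F × F × (F × F × B))) ≃ₗ[F] (F × F × (F × F × (F × F × B)))) where
  toFun g := (Psi F B).symm.trans (((SpecialLinearGroup.toLin' g).prodCongr
    ((SpecialLinearGroup.toLin' (tinv g)).prodCongr (LinearEquiv.refl F B))).trans (Psi F B))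
  map_one' := by
    apply LinearEquiv.ext
    intro v
    obtain ⟨p, rfl⟩ := (Psi F B).surjective v
    simp only [map_one, LinearEquiv.trans_apply, LinearEquiv.symm_apply_apply]
    rfl
  map_mul' g g' := by
    apply LinearEquiv.ext
    intro v
    obtain ⟨p, rfl⟩ := (Psi F B).surjective v
    simp only [map_mul, LinearEquiv.mul_apply, LinearEquiv.trans_apply, LinearEquiv.symm_apply_apply]
    rfl

theorem lev_apply (g : Matrix.SpecialLinearGroup (Fin 3) F) (x y : Fin 3 → F) (b : B) : lev F B g (Psi F B (x, y, b)) =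
    Psi F B ((g : Matrix (Fin 3) (Fin 3) F) *ᵥ x, (tinv g : Matrix (Fin 3) (Fin 3) F) *ᵥ y, b) := by
  show (Psi F B) ((((SpecialLinearGroup.toLin' g).prodCongr
    ((SpecialLinearGroup.toLin' (tinv g)).prodCongr (LinearEquiv.refl F B)))) ((Psi F B).symm (Psi F B (x, y, b)))) = _
  rw [LinearEquiv.symm_apply_apply]
  rfl

theorem lev_mem (g : Matrix.SpecialLinearGroup (Fin 3) F) : lev F B g ∈ O (hyp (hyp (hyp Q))) := by
  intro v
  obtain ⟨⟨x, y, b⟩, rfl⟩ := (Psi F B).surjective v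
  rw [lev_apply, Q_Psi, Q_Psi, dot_tinv]

/-- the frame -/
def ev (F B : Type*) [Field F] [AddCommGroup B] [Module F B] (i : Fin 3) : F × F × (F × F × (F × F × B)) :=
  Psi F B (Pi.single i 1, 0, 0)

def fv (F B : Type*) [Field F] [AddCommGroup B] [Module F B] (i : Fin 3) : F × F × (F × F × (F × F × B)) :=
  Psi F B (0, Pi.single i 1, 0)

def bv (F : Type*) {B : Type*} [Field F] [AddCommGroup B] [Module F B] (b : B) : F × F × (F × F × (F × F × B)) :=
  Psi F B (0, 0, b)

theorem frame : Fr (hyp (hyp (hyp Q))) (ev F B) (fv F B) where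
  e0 i := by rw [ev, Q_Psi]; simp
  f0 i := by rw [fv, Q_Psi]; simp
  ee i j := by rw [ev, ev, pol_Psi]; simp
  ff i j := by rw [fv, fv, pol_Psi]; simp
  ef i j := by
    rw [ev, fv, pol_Psi]
    simp [Pi.single_apply, eq_comm]

theorem bv_mem (b : B) : bv F b ∈ Bp (hyp (hyp (hyp Q))) (ev F B) (fv F B) := by
  intro i
  rw [ev, fv, bv, pol_Psi, pol_Psi]
  simp

theorem exists_bv {v : F × F × (F × F × (F × F × B))} (hv : v ∈ Bp (hyp (hyp (hyp Q))) (ev F B) (fv F B)) :
    ∃ b, v = bv F b := by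
  obtain ⟨⟨x, y, b⟩, rfl⟩ := (Psi F B).surjective v
  refine ⟨b, ?_⟩
  have hx : x = 0 := by
    funext i
    have h1 := (hv i).2
    rw [fv, pol_Psi] at h1
    simpa using h1
  have hy : y = 0 := by
    funext i
    have h1 := (hv i).1
    rw [ev, pol_Psi] at h1
    simpa using h1
  rw [hx, hy, bv]

theorem Q_bv (b : B) : hyp (hyp (hyp Q)) (bv F b) = Q b := by
  rw [bv, Q_Psi]; simp

theorem ext_Psi {g g' : (F × F × (F × F × (F × F × B))) ≃ₗ[F] (F × F × (F × F × (F × F × B)))}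
    (h : ∀ x y b, g (Psi F B (x, y, b)) = g' (Psi F B (x, y, b))) : g = g' := by
  apply LinearEquiv.ext
  intro v
  obtain ⟨⟨x, y, b⟩, rfl⟩ := (Psi F B).surjective v
  exact h x y b

theorem coe_tv {i j : Fin 3} (hij : i ≠ j) (c : F) :
    ((SpecialLinearGroup.transvection hij c : Matrix.SpecialLinearGroup (Fin 3) F) : Matrix (Fin 3) (Fin 3) F) = 1 + Matrix.single i j c := rfl

theorem lev_transvection {i j : Fin 3} (hij : i ≠ j) (c : F) :
    lev F B (SpecialLinearGroup.transvection hij c) = Rho.T (hyp (hyp (hyp Q))) (ev F B) (fv F B) i j (-c) := by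
  apply ext_Psi
  intro x y b
  have h1 : ((tinv (SpecialLinearGroup.transvection hij c) : Matrix.SpecialLinearGroup (Fin 3) F) : Matrix (Fin 3) (Fin 3) F) =
      1 + Matrix.single j i (-c) := by
    rw [tinv_coe, SpecialLinearGroup.transvection_inv, coe_tv, transpose_add, transpose_one,
      transpose_single]
  rw [lev_apply, h1, coe_tv, Rho.T, rho_apply (frame.gT hij _), pol_smul_right, Qsmul, frame.f0, ev, fv,
    pol_Psi, pol_Psi, mul_zero, zero_mul, zero_smul, sub_zero, ← map_smul, ← map_smul, ← map_smul, ← map_add, ← map_sub]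
  congr 1
  ext k
  · simp [add_mulVec, single_mulVec, Function.update_apply, Pi.single_apply]
  · simp [add_mulVec, single_mulVec, Function.update_apply, Pi.single_apply]
    split_ifs <;> ring
  · simp

end H43.OmTwo
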