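import Cfsg.Agent.Lib.H43.SLCusp

/-!
Cuspidal characters of `SL₂` over a finite field of odd order: uniqueness and the exceptional characters.
-/
set_option autoImplicit false
set_option linter.unusedSectionVars false

namespace H43.SLCusp2

open Matrix H43.GL2Basic H43.GL2Card H43.GL2Count H43.Lines H43.IndTrans H43.Principal H43.GLIrr H43.SL2Conj H43.SLIrr H43.SLCount
open H43.SLStruct H43.SLOdd H43.SLVals H43.SL2Order H43.SLTorus H43.SLCusp Cfsg
open H18.CharBasic H18.CharOrtho H18.CharInd H18.CharQuot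
open scoped ComplexConjugate

variable {F : Type*} [Field F] [Fintype F]

local notation "G2" => GL (Fin 2)
local notation "SL2" => Matrix.SpecialLinearGroup (Fin 2)

variable {C : Subgroup (SL2 F)}

/-- powers to the half order are central -/
theorem pow_half (hC : Tor C) {c : SL2 F} (hc : c ∈ C) :
    c ^ ((Fintype.card F + 1) / 2) = 1 ∨ c ^ ((Fintype.card F + 1) / 2) = -1 := by
  apply eq_of_sq hC.odd
  rw [← pow_add]
  have : (Fintype.card F + 1) / 2 + (Fintype.card F + 1) / 2 = Fintype.card F + 1 := by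
    obtain ⟨k, hk⟩ := hC.odd
    omega
  rw [this]
  exact hC.pow hc

open Classical in
/-- the character of order two of the torus -/
noncomputable def th0 (hC : Tor C) : C →* ℂˣ where
  toFun c := if (c : SL2 F) ^ ((Fintype.card F + 1) / 2) = 1 then 1 else -1
  map_one' := by simp
  map_mul' := by
    intro a b
    have hne := one_ne_neg_one hC.odd
    have hcom : Commute (a : SL2 F) (b : SL2 F) := hC.comm a.2 b.2
    rw [Subgroup.coe_mul, hcom.mul_pow]
    have hnn : (-1 : SL2 F) * -1 = 1 := by simp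
    rcases pow_half hC a.2 with ha | ha <;> rcases pow_half hC b.2 with hb | hb
    · simp [ha, hb]
    · simp [ha, hb, hne.symm]
    · simp [ha, hb, hne.symm]
    · rw [ha, hb, hnn, if_pos rfl, if_neg hne.symm]; simp

theorem th0_pos (hC : Tor C) {c : C} (h : (c : SL2 F) ^ ((Fintype.card F + 1) / 2) = 1) : th0 hC c = 1 := by
  simp [th0, h]

theorem th0_neg (hC : Tor C) {c : C} (h : (c : SL2 F) ^ ((Fintype.card F + 1) / 2) ≠ 1) : th0 hC c = -1 := by
  simp [th0, h]

theorem th0_cases (hC : Tor C) (c : C) : th0 hC c = 1 ∨ th0 hC c = -1 := by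
  by_cases h : (c : SL2 F) ^ ((Fintype.card F + 1) / 2) = 1
  · exact Or.inl (th0_pos hC h)
  · exact Or.inr (th0_neg hC h)

theorem th0_inv (hC : Tor C) : (th0 hC)⁻¹ = th0 hC := by
  ext c
  rcases th0_cases hC c with h | h
  · rw [MonoidHom.inv_apply, h]; simp
  · rw [MonoidHom.inv_apply, h]; simp

/-- self-inverse characters of the torus -/
theorem eq_of_inv (hC : Tor C) {θ : C →* ℂˣ} (h : θ⁻¹ = θ) : θ = 1 ∨ θ = th0 hC := by
  have := hC.cyc
  obtain ⟨g, hg⟩ := IsCyclic.exists_generator (α := C)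
  have hext : ∀ f f' : C →* ℂˣ, f g = f' g → f = f' := by
    intro f f' hff
    ext x
    obtain ⟨n, rfl⟩ := Subgroup.mem_zpowers_iff.1 (hg x)
    rw [map_zpow, map_zpow, hff]
  have h1 : (θ g : ℂ) * (θ g : ℂ) = 1 := by
    have h2 := DFunLike.congr_fun h g
    rw [MonoidHom.inv_apply] at h2
    have h3 : θ g * θ g = 1 := by nth_rewrite 1 [← h2]; exact inv_mul_cancel _
    exact congrArg Units.val h3
  have h2 : ((θ g : ℂ) - 1) * ((θ g : ℂ) + 1) = 0 := by linear_combination h1
  rcases mul_eq_zero.1 h2 with h3 | h3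
  · left
    apply hext
    apply Units.ext
    rw [sub_eq_zero.1 h3]; simp
  · right
    apply hext
    have h4 : (g : SL2 F) ^ ((Fintype.card F + 1) / 2) ≠ 1 := by
      intro h5
      have h6 : g ^ ((Fintype.card F + 1) / 2) = 1 := Subtype.ext h5
      have h7 : orderOf g = Fintype.card F + 1 := by
        rw [orderOf_eq_card_of_forall_mem_zpowers hg, hC.card]
      have h8 := orderOf_dvd_of_pow_eq_one h6
      rw [h7] at h8
      have hq := Fintype.one_lt_card (α := F)
      have h9 := Nat.le_of_dvd (by omega) h8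
      omega
    rw [th0_neg hC h4]
    apply Units.ext
    rw [eq_neg_of_add_eq_zero_left h3]; simp

variable [Fintype (SL2 F)]

theorem sum_uS_StS : ∑ x : F, StS F (uS x) = Fintype.card F := by
  rw [sum_uS _ 0 (fun x hx => StS_uS hx), StS_one]; ring

theorem res_cusp_uS [Fintype (G2 F)] (c : CuspIrr F) {x : F} (hx : x ≠ 0) : res (c.1 : G2 F → ℂ) (uS x) = -1 := by
  have h1 := (cusp_degree c).2 x hx
  have h2 : Matrix.SpecialLinearGroup.toGL (uS x) = u x := by
    apply Units.ext
    rw [u_coe]
    rfl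
  simp only [res]
  rw [h2, h1]

omit [Fintype (SL2 F)] in
theorem one_neg_one : (1 : MulChar F ℂ) (-1) = 1 := MulChar.one_apply (isUnit_iff_ne_zero.2 (by simp))

/-- `vc 1 1 = St - 1` -/
theorem vc_one_one (hC : Tor C) : vc C (1 : MulChar F ℂ) 1 = StS F - fun _ => 1 := by
  classical
  have : Fintype C := Fintype.ofFinite _
  have hn := norm_vc hC (1 : MulChar F ℂ) (1 : C →* ℂˣ) (by rw [one_neg_one]; simp)
  rw [if_pos (by ext c; simp)] at hn
  have hq1 := qq_ne (F := F)
  -- restriction of StS
  have hSt : (fun c : C => StS F c) = R C 1 - fun c => (((1 : C →* ℂˣ) c : ℂˣ) : ℂ) := by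
    funext c
    simp only [Pi.sub_apply, R, MonoidHom.one_apply, Units.val_one]
    have hne := one_ne_neg_one hC.odd
    by_cases hs : IsScal ((c : SL2 F) : Matrix (Fin 2) (Fin 2) F)
    · rw [isScal_iff'] at hs
      rcases hs with hs | hs
      · rw [if_pos hs, if_neg (by rw [hs]; exact hne), hs, StS_one]
        ring
      · have h2 := StS_neg (1 : SL2 F)
        rw [mul_one, StS_one] at h2
        rw [if_neg (by rw [hs]; exact hne.symm), if_pos hs, hs, h2]
        ring
    · have h1 : (c : SL2 F) ≠ 1 := fun h => hs (by rw [h]; exact isScal_one)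
      have h2 : (c : SL2 F) ≠ -1 := fun h => hs (by rw [h]; exact isScal_neg_one)
      rw [if_neg h1, if_neg h2, StS_apply_not _ (hC.no_eig c.2 hs)]
      ring
  have h1 : classInner (StS F) (vc C (1 : MulChar F ℂ) 1) = 1 := by
    rw [inner_vc hC _ _ (isClassFunction_of_isIrr isIrr_StS) (fun g => by rw [StS_neg, one_neg_one, one_mul]),
      sum_uS_StS, StS_one, hSt, H18.CharOrtho.inner_sub_left, inner_R hC, inner_hom, if_pos rfl]
    have h2 : 2 / ((Fintype.card F : ℂ) * ((Fintype.card F : ℂ) - 1)) * ((Fintype.card F : ℂ) * (Fintype.card F : ℂ) -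
        (Fintype.card F : ℂ)) = 2 := by
      rw [div_mul_eq_mul_div, div_eq_iff hq1]; ring
    rw [h2]
    simp
    norm_num
  have h2 : classInner (fun _ => 1 : SL2 F → ℂ) (vc C (1 : MulChar F ℂ) 1) = -1 := by
    rw [inner_vc hC _ _ (isClassFunction_const 1) (fun g => by rw [one_neg_one, one_mul])]
    have h3 : (fun _ : C => (1 : ℂ)) = fun c => (((1 : C →* ℂˣ) c : ℂˣ) : ℂ) := by funext c; simp
    rw [h3, inner_hom, if_pos rfl]
    simp
  have h1' : classInner (vc C (1 : MulChar F ℂ) 1) (StS F) = 1 := by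
    rw [← H18.CharOrtho.inner_conj_symm, h1]; simp
  have h2' : classInner (vc C (1 : MulChar F ℂ) 1) (fun _ => 1 : SL2 F → ℂ) = -1 := by
    rw [← H18.CharOrtho.inner_conj_symm, h2]; simp
  have hne : StS F ≠ fun _ => 1 := by
    intro h
    have h3 := congrFun h 1
    rw [StS_one] at h3
    have hq := Fintype.one_lt_card (α := F)
    have h4 : Fintype.card F = 1 := by exact_mod_cast h3
    omega
  have h5 := inner_irr_ne isIrr_StS (isIrrCharacter_one (G := SL2 F)) hne
  have h6 := inner_irr_ne (isIrrCharacter_one (G := SL2 F)) isIrr_StS hne.symm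
  have h7 := inner_irr_self (isIrr_StS (F := F))
  have h8 := inner_irr_self (isIrrCharacter_one (G := SL2 F))
  have hz : classInner (vc C (1 : MulChar F ℂ) 1 - (StS F - fun _ => 1)) (vc C (1 : MulChar F ℂ) 1 - (StS F - fun _ => 1)) = 0 := by
    simp only [H18.CharOrtho.inner_sub_left, H18.CharOrtho.inner_sub_right]
    rw [hn, h1, h2, h1', h2', h5, h6, h7, h8]
    norm_num
  exact sub_eq_zero.1 (H18.CharOrtho.inner_self_eq_zero.1 hz)

/-- a character of `F` with prescribed value at `-1` -/
theorem exists_alpha (hodd : Odd (Fintype.card F)) {w : ℂ} (hw : w ^ 2 = 1) : ∃ α : MulChar F ℂ, α (-1) = w := by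
  have h2 : (w - 1) * (w + 1) = 0 := by linear_combination hw
  rcases mul_eq_zero.1 h2 with h3 | h3
  · exact ⟨1, by rw [one_neg_one, sub_eq_zero.1 h3]⟩
  · have hne : (-1 : F) ≠ 1 := by
      intro h
      apply two_ne_zero' hodd
      linear_combination -h
    obtain ⟨β, hβ⟩ := MulChar.exists_apply_ne_one_of_hasEnoughRootsOfUnity F ℂ hne
    refine ⟨β, ?_⟩
    have h4 := sq_of_neg_one β
    have h5 : (β (-1) - 1) * (β (-1) + 1) = 0 := by linear_combination h4
    rw [eq_neg_of_add_eq_zero_left h3]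
    exact eq_neg_of_add_eq_zero_left ((mul_eq_zero.1 h5).resolve_left (sub_ne_zero.2 hβ))

/-- Main lemma: a `B`-cuspidal function orthogonal to all `vc θ`, `θ² ≠ 1`, is `R - 2 θ₀` on the torus. -/
theorem main (hC : Tor C) [Fintype C] {w : ℂ} (hw : w ^ 2 = 1) {f : SL2 F → ℂ} (hf : BLike w f)
    (h1 : classInner f (fun _ => 1) = 0) (hS : classInner f (StS F) = 0)
    (horth : ∀ (α : MulChar F ℂ) (θ : C →* ℂˣ), θ⁻¹ ≠ θ → ((θ ⟨-1, hC.neg_one_mem⟩ : ℂˣ) : ℂ) = α (-1) → α (-1) = w →
      classInner f (vc C α θ) = 0) :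
    (fun c : C => f c) = R C w - fun c => 2 * ((th0 hC c : ℂˣ) : ℂ) := by
  classical
  -- a character with the right value at -1
  obtain ⟨α, hα⟩ := exists_alpha hC.odd hw
  set h : C → ℂ := (fun c : C => f c) - R C w with hh
  have hclC : ∀ k : C → ℂ, IsClassFunction C k := by
    intro k x y
    have : y * x * y⁻¹ = x := by
      apply Subtype.ext
      change (y : SL2 F) * x * (y : SL2 F)⁻¹ = x
      rw [hC.comm y.2 x.2]; group
    rw [this]
  -- multiplicities
  have hmult : ∀ θ : C →* ℂˣ, θ ≠ th0 hC → classInner h (fun c => ((θ c : ℂˣ) : ℂ)) = 0 := by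
    intro θ hθ
    rw [hh, H18.CharOrtho.inner_sub_left, inner_R hC, map_one, Units.val_one, map_one]
    have hsq : ((θ ⟨-1, hC.neg_one_mem⟩ : ℂˣ) : ℂ) ^ 2 = 1 := by
      rw [← Units.val_pow_eq_pow_val, ← map_pow]
      have : (⟨-1, hC.neg_one_mem⟩ : C) ^ 2 = 1 := Subtype.ext (by simp)
      rw [this, map_one, Units.val_one]
    rw [conj_of_sq hsq]
    by_cases hcen : ((θ ⟨-1, hC.neg_one_mem⟩ : ℂˣ) : ℂ) = w
    · rw [hcen]
      have hww : w * w = 1 := by rw [← sq]; exact hw
      rw [hww]
      have key : classInner (fun c : C => f c) (fun c => ((θ c : ℂˣ) : ℂ)) = 2 := by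
        by_cases hinv : θ⁻¹ = θ
        · rcases eq_of_inv hC hinv with rfl | h3
          · have hw1 : w = 1 := by rw [← hcen]; simp
            have h4 := BLike.inner (α := 1) (by rw [one_neg_one, ← hw1]; exact hf) hC 1
            rw [vc_one_one hC, H18.CharOrtho.inner_sub_right, hS, h1] at h4
            linear_combination h4
          · exact absurd h3 hθ
        · have h4 := BLike.inner (α := α) (by rw [hα]; exact hf) hC θ
          rw [horth α θ hinv (by rw [hcen, hα]) hα] at h4
          linear_combination h4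
      rw [key]; ring
    · -- different central characters
      have hval : ((θ ⟨-1, hC.neg_one_mem⟩ : ℂˣ) : ℂ) = -w := by
        have h5 : (((θ ⟨-1, hC.neg_one_mem⟩ : ℂˣ) : ℂ) - w) * (((θ ⟨-1, hC.neg_one_mem⟩ : ℂˣ) : ℂ) + w) = 0 := by
          linear_combination hsq - hw
        rcases mul_eq_zero.1 h5 with h6 | h6
        · exact absurd (sub_eq_zero.1 h6) hcen
        · exact eq_neg_of_add_eq_zero_left h6
      have hzero : classInner (fun c : C => f c) (fun c => ((θ c : ℂˣ) : ℂ)) = 0 := by
        have hrefl : classInner (fun c : C => f c) (fun c => ((θ c : ℂˣ) : ℂ)) =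
            -classInner (fun c : C => f c) (fun c => ((θ c : ℂˣ) : ℂ)) := by
          conv_lhs => unfold classInner
          conv_rhs => unfold classInner
          rw [← mul_neg, ← Finset.sum_neg_distrib]
          congr 1
          refine Fintype.sum_equiv (Equiv.mulLeft (⟨-1, hC.neg_one_mem⟩ : C)) _ _ (fun c => ?_)
          have h7 : f (((Equiv.mulLeft (⟨-1, hC.neg_one_mem⟩ : C)) c : C) : SL2 F) = w * f c := by
            have := hf.neg (c : SL2 F)
            exact this
          beta_reduce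
          rw [h7]
          have h8 : ((θ ((Equiv.mulLeft (⟨-1, hC.neg_one_mem⟩ : C)) c) : ℂˣ) : ℂ) = -w * ((θ c : ℂˣ) : ℂ) := by
            rw [Equiv.coe_mulLeft, map_mul, Units.val_mul, hval]
          rw [h8, map_mul, map_neg, conj_of_sq hw]
          linear_combination (-(f c * conj ((θ c : ℂˣ) : ℂ))) * hw
        linear_combination hrefl / 2
      rw [hzero, hval]
      linear_combination hw
  -- expansion
  have hexp : h = fun c => classInner h (fun c => ((th0 hC c : ℂˣ) : ℂ)) * ((th0 hC c : ℂˣ) : ℂ) := by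
    apply classFun_ext (hclC _) (hclC _)
    intro χ hχ
    have hcomm : ∀ a b : C, a * b = b * a := fun a b => Subtype.ext (hC.comm a.2 b.2)
    obtain ⟨θ, rfl⟩ := exists_hom_of_degree_one (isCharacter_of_isIrr hχ) (degree_one_of_comm hcomm hχ)
    have hsm : (fun c => classInner h (fun c => ((th0 hC c : ℂˣ) : ℂ)) * ((th0 hC c : ℂˣ) : ℂ)) =
        classInner h (fun c => ((th0 hC c : ℂˣ) : ℂ)) • (fun c => ((th0 hC c : ℂˣ) : ℂ)) := rfl
    rw [hsm, H18.CharOrtho.inner_smul_left, inner_hom]
    by_cases hθ : θ = th0 hC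
    · rw [hθ, if_pos rfl, mul_one]
    · rw [if_neg (fun h => hθ h.symm), mul_zero, hmult θ hθ]
  have hone := congrFun hexp 1
  have hh1 : h 1 = -2 := by
    rw [hh, Pi.sub_apply]
    have hne := one_ne_neg_one hC.odd
    simp only [R]
    rw [if_pos (by rfl), if_neg (fun h' : ((1 : C) : SL2 F) = -1 => hne h')]
    have : f ((1 : C) : SL2 F) = (Fintype.card F : ℂ) - 1 := hf.one
    rw [this]; ring
  rw [hh1, map_one, Units.val_one, mul_one] at hone
  rw [← hone] at hexp
  funext c
  have h9 := congrFun hexp c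
  rw [hh, Pi.sub_apply] at h9
  simp only [Pi.sub_apply]
  linear_combination h9

end H43.SLCusp2
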